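import Mathlib
import Cfsg.Prelude.Def_LieExceptional

/-!
Piece statements for S3421: a finite group with the order and the set of element orders of
`PSL(2, q)`, `q ≥ 4`, is isomorphic to `PSL(2, q)`.

Odd `q = p ^ f`: write `m₁` for the even one and `m₂` for the odd one of `(q - 1) / 2`,
`(q + 1) / 2`.  Then `|G| = 2 q m₁ m₂`, and every element order divides `p`, `m₁` or `m₂`.
-/

set_option autoImplicit false

namespace Cfsg.Agent.Lib.Helper98.PSpStmt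

universe u v

/-- the data of the odd case -/
structure Hyp (G : Type u) [Group G] (p q m₁ m₂ : ℕ) : Prop where
  fin : Finite G
  pp : p.Prime
  podd : p ≠ 2
  qpow : ∃ f : ℕ, q = p ^ f
  m1even : Even m₁
  m2odd : Odd m₂
  m2ge : 3 ≤ m₂
  sum : m₁ + m₂ = q
  diff : m₁ = m₂ + 1 ∨ m₂ = m₁ + 1
  card : Nat.card G = 2 * q * m₁ * m₂
  spec : ∀ g : G, orderOf g ∣ p ∨ orderOf g ∣ m₁ ∨ orderOf g ∣ m₂
  ex1 : ∃ g : G, orderOf g = m₁
  ex2 : ∃ g : G, orderOf g = m₂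

/-- the data of the even case -/
structure HypE (G : Type u) [Group G] (q : ℕ) : Prop where
  fin : Finite G
  qpow : ∃ f : ℕ, q = 2 ^ f
  qge : 4 ≤ q
  card : Nat.card G = q * (q ^ 2 - 1)
  spec : ∀ g : G, orderOf g ∣ 2 ∨ orderOf g ∣ (q - 1) ∨ orderOf g ∣ (q + 1)
  ex : ∃ g : G, orderOf g = q + 1

namespace Hyp

variable {G : Type u} [Group G] {p q m₁ m₂ : ℕ}

theorem m1_ge (h : Hyp G p q m₁ m₂) : 2 ≤ m₁ := by
  have h2 := h.m2ge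
  rcases h.diff with d | d <;> omega

theorem q_ge (h : Hyp G p q m₁ m₂) : 5 ≤ q := by
  have h1 := h.sum
  have h2 := h.m1_ge
  have h3 := h.m2ge
  omega

theorem coprime12 (h : Hyp G p q m₁ m₂) : Nat.Coprime m₁ m₂ := by
  have hg1 := Nat.gcd_dvd_left m₁ m₂
  have hg2 := Nat.gcd_dvd_right m₁ m₂
  have h1 : Nat.gcd m₁ m₂ ∣ 1 := by
    rcases h.diff with d | d
    · have h3 : Nat.gcd m₁ m₂ ∣ m₂ + 1 := d ▸ hg1
      exact (Nat.dvd_add_right hg2).1 h3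
    · have h3 : Nat.gcd m₁ m₂ ∣ m₁ + 1 := d ▸ hg2
      exact (Nat.dvd_add_right hg1).1 h3
  exact Nat.dvd_one.1 h1

theorem p_dvd_q (h : Hyp G p q m₁ m₂) : p ∣ q := by
  obtain ⟨f, hf⟩ := h.qpow
  have hq := h.q_ge
  rcases Nat.eq_zero_or_pos f with h0 | h0
  · subst h0
    simp at hf
    omega
  · rw [hf]
    exact dvd_pow_self p (by omega)

theorem p_not_dvd1 (h : Hyp G p q m₁ m₂) : ¬ p ∣ m₁ := by
  intro hd
  have h2 : p ∣ m₂ := by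
    have h3 := h.p_dvd_q
    rw [← h.sum] at h3
    exact (Nat.dvd_add_right hd).1 h3
  have h4 := Nat.dvd_gcd hd h2
  rw [h.coprime12.gcd_eq_one] at h4
  exact h.pp.one_lt.ne' (Nat.dvd_one.1 h4)

theorem p_not_dvd2 (h : Hyp G p q m₁ m₂) : ¬ p ∣ m₂ := by
  intro hd
  have h2 : p ∣ m₁ := by
    have h3 := h.p_dvd_q
    rw [← h.sum] at h3
    exact (Nat.dvd_add_left hd).1 h3
  exact h.p_not_dvd1 h2

theorem four_mul (h : Hyp G p q m₁ m₂) : 4 * m₁ * m₂ + 1 = q ^ 2 := by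
  have h1 := h.sum
  rcases h.diff with d | d
  · subst d
    rw [← h1]
    ring
  · subst d
    rw [← h1]
    ring

theorem coprime_q1 (h : Hyp G p q m₁ m₂) : Nat.Coprime q m₁ := by
  obtain ⟨f, hf⟩ := h.qpow
  rw [hf]
  exact Nat.Coprime.pow_left f ((Nat.Prime.coprime_iff_not_dvd h.pp).2 h.p_not_dvd1)

theorem coprime_q2 (h : Hyp G p q m₁ m₂) : Nat.Coprime q m₂ := by
  obtain ⟨f, hf⟩ := h.qpow
  rw [hf]
  exact Nat.Coprime.pow_left f ((Nat.Prime.coprime_iff_not_dvd h.pp).2 h.p_not_dvd2)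

theorem q_odd (h : Hyp G p q m₁ m₂) : Odd q := by
  rw [← h.sum]
  exact h.m1even.add_odd h.m2odd

theorem two_m1 (h : Hyp G p q m₁ m₂) : 2 * m₁ = q + 1 ∨ 2 * m₁ + 1 = q := by
  have h1 := h.sum
  rcases h.diff with d | d <;> omega

theorem two_m2 (h : Hyp G p q m₁ m₂) : 2 * m₂ = q + 1 ∨ 2 * m₂ + 1 = q := by
  have h1 := h.sum
  rcases h.diff with d | d <;> omega

end Hyp

/-! ### Pure pieces (no `Hyp`) -/

/-- CYCINV: the only involution of a cyclic group of even order `n` is `x ^ (n / 2)`. -/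
def CycInv : Prop := ∀ (G : Type u) [Group G] (x b : G) (n : ℕ), 0 < n → Even n → orderOf x = n →
  b ∈ Subgroup.zpowers x → b ^ 2 = 1 → b ≠ 1 → b = x ^ (n / 2)

/-- IDX2: a group `K` of order `2 n` containing `x` of even order `n` normalises `⟨x⟩` and
centralises its involution. -/
def Idx2 : Prop := ∀ (G : Type u) [Group G] [Finite G] (x : G) (K : Subgroup G) (n : ℕ), 0 < n →
  Even n → orderOf x = n → x ∈ K → Nat.card K = 2 * n →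
  (∀ g ∈ K, g * x * g⁻¹ ∈ Subgroup.zpowers x) ∧ ∀ g ∈ K, g * x ^ (n / 2) = x ^ (n / 2) * g

/-- FROB: an abelian Hall subgroup `C` that contains the centraliser of each of its non-identity
elements has `[G : N(C)] ≡ 1 mod |C|`. -/
def FrobCount : Prop := ∀ (G : Type u) [Group G] [Finite G] (C : Subgroup G),
  (Nat.card C).Coprime C.index → (∀ a ∈ C, ∀ b ∈ C, a * b = b * a) →
  (∀ c ∈ C, c ≠ 1 → ∀ g : G, Commute g c → g ∈ C) →
  (Subgroup.normalizer (C : Set G)).index ≡ 1 [MOD Nat.card C]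

/-- PCLM: if `N(R) ≤ C(R)` for every Sylow `r`-subgroup, `r ≠ p`, then the Sylow `p`-subgroup is
normal (Burnside's transfer theorem for every `r ≠ p`). -/
def PclM : Prop := ∀ (M : Type u) [Group M] [Finite M] (p : ℕ), p.Prime →
  (∀ r : ℕ, r.Prime → r ≠ p → ∀ R : Sylow r M,
    Subgroup.normalizer ((R : Subgroup M) : Set M) ≤ Subgroup.centralizer ((R : Subgroup M) : Set M)) →
  ∀ P : Sylow p M, (P : Subgroup M).Normal

/-- PCLS: the same for a subgroup `M` of `G`, in elementwise form. -/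
def PclS : Prop := ∀ (G : Type u) [Group G] [Finite G] (p : ℕ), p.Prime → ∀ M : Subgroup G,
  (∀ r : ℕ, r.Prime → r ≠ p → ∀ R : Subgroup G, R ≤ M → IsPGroup r R → ∀ g ∈ M,
    (∀ h ∈ R, g * h * g⁻¹ ∈ R) → ∀ h ∈ R, g * h = h * g) →
  ∀ Q₁ Q₂ : Subgroup G, Q₁ ≤ M → Q₂ ≤ M → IsPGroup p Q₁ → IsPGroup p Q₂ →
    IsPGroup p (Q₁ ⊔ Q₂ : Subgroup G)

/-- the normaliser of the intersection of two Sylow subgroups -/
abbrev ND {G : Type u} [Group G] {p : ℕ} (P₁ P₂ : Sylow p G) : Subgroup G :=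
  Subgroup.normalizer ((((P₁ : Subgroup G) ⊓ (P₂ : Subgroup G) : Subgroup G)) : Set G)

/-- MAXI: a pair of distinct Sylow `p`-subgroups with intersection `D` of largest order. -/
def MaxI : Prop := ∀ (G : Type u) [Group G] [Finite G] (p : ℕ), p.Prime →
  ∀ P₁ P₂ : Sylow p G, P₁ ≠ P₂ →
  (∀ Q₁ Q₂ : Sylow p G, Q₁ ≠ Q₂ → Nat.card ↥((Q₁ : Subgroup G) ⊓ (Q₂ : Subgroup G)) ≤
      Nat.card ↥((P₁ : Subgroup G) ⊓ (P₂ : Subgroup G))) →
  (∃ u ∈ (P₁ : Subgroup G), u ∈ ND P₁ P₂ ∧ u ∉ (P₂ : Subgroup G)) ∧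
  (∀ Q : Subgroup G, IsPGroup p Q → (P₁ : Subgroup G) ⊓ ND P₁ P₂ ≤ Q → Q ≤ (P₁ : Subgroup G)) ∧
  (∀ Q : Subgroup G, IsPGroup p Q → (P₂ : Subgroup G) ⊓ ND P₁ P₂ ≤ Q → Q ≤ (P₂ : Subgroup G)) ∧
  (∀ K : Subgroup G, IsPGroup p K → K ≤ ND P₁ P₂ → (∀ n ∈ ND P₁ P₂, ∀ k ∈ K, n * k * n⁻¹ ∈ K) →
    K ≤ (P₁ : Subgroup G) ⊓ (P₂ : Subgroup G))

/-! ### The odd case -/

/-- CENT -/
def CentP : Prop := ∀ (G : Type u) [Group G] (p q m₁ m₂ : ℕ), Hyp G p q m₁ m₂ →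
  ∀ x c : G, orderOf x = p → Commute c x → c ^ p = 1

def Cent1 : Prop := ∀ (G : Type u) [Group G] (p q m₁ m₂ : ℕ), Hyp G p q m₁ m₂ →
  ∀ x c : G, x ≠ 1 → x ^ m₁ = 1 → Commute c x → c ^ m₁ = 1

def Cent2 : Prop := ∀ (G : Type u) [Group G] (p q m₁ m₂ : ℕ), Hyp G p q m₁ m₂ →
  ∀ x c : G, x ≠ 1 → x ^ m₂ = 1 → Commute c x → c ^ m₂ = 1

def ExpP : Prop := ∀ (G : Type u) [Group G] (p q m₁ m₂ : ℕ), Hyp G p q m₁ m₂ →
  ∀ P : Subgroup G, IsPGroup p P → ∀ g ∈ P, g ^ p = 1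

/-- CARD -/
def CardP : Prop := ∀ (G : Type u) [Group G] (p q m₁ m₂ : ℕ), Hyp G p q m₁ m₂ →
  ∀ P : Sylow p G, Nat.card (P : Subgroup G) = q

def Card1 : Prop := ∀ (G : Type u) [Group G] (p q m₁ m₂ : ℕ), Hyp G p q m₁ m₂ →
  ∀ K : Subgroup G, (∀ c ∈ K, c ^ m₁ = 1) → Nat.card K ∣ 2 * m₁

def Card2 : Prop := ∀ (G : Type u) [Group G] (p q m₁ m₂ : ℕ), Hyp G p q m₁ m₂ →
  ∀ K : Subgroup G, (∀ c ∈ K, c ^ m₂ = 1) → Nat.card K ∣ m₂

/-- A1: a cyclic subgroup of order `m₂` contains the centraliser of each of its non-identity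
elements. -/
def A1 : Prop := ∀ (G : Type u) [Group G] (p q m₁ m₂ : ℕ), Hyp G p q m₁ m₂ →
  ∀ y a c : G, orderOf y = m₂ → a ∈ Subgroup.zpowers y → a ≠ 1 → Commute c a →
    c ∈ Subgroup.zpowers y

/-- A2: its normaliser has order `2 m₂`. -/
def A2 : Prop := ∀ (G : Type u) [Group G] (p q m₁ m₂ : ℕ), Hyp G p q m₁ m₂ →
  ∀ y : G, orderOf y = m₂ →
    Nat.card (Subgroup.normalizer ((Subgroup.zpowers y : Subgroup G) : Set G)) = 2 * m₂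

/-- SYLA -/
def SylA : Prop := ∀ (G : Type u) [Group G] (p q m₁ m₂ : ℕ), Hyp G p q m₁ m₂ →
  ∀ r : ℕ, r.Prime → r ∣ m₂ → ∀ R : Subgroup G, IsPGroup r R →
    ∃ y : G, orderOf y = m₂ ∧ R ≤ Subgroup.zpowers y

/-- SYLB -/
def SylB : Prop := ∀ (G : Type u) [Group G] (p q m₁ m₂ : ℕ), Hyp G p q m₁ m₂ →
  ∀ r : ℕ, r.Prime → r ≠ 2 → r ∣ m₁ → ∀ R : Subgroup G, IsPGroup r R →
    ∃ x : G, orderOf x = m₁ ∧ R ≤ Subgroup.zpowers x

/-- CT: the centraliser of the involution of a cyclic subgroup of order `m₁` has order `2 m₁`. -/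
def CT : Prop := ∀ (G : Type u) [Group G] (p q m₁ m₂ : ℕ), Hyp G p q m₁ m₂ →
  ∀ x : G, orderOf x = m₁ → Nat.card (Subgroup.centralizer ({x ^ (m₁ / 2)} : Set G)) = 2 * m₁

/-- CB -/
def CB : Prop := ∀ (G : Type u) [Group G] (p q m₁ m₂ : ℕ), Hyp G p q m₁ m₂ →
  ∀ x b : G, orderOf x = m₁ → b ∈ Subgroup.zpowers x → b ≠ 1 →
    Subgroup.centralizer ({b} : Set G) = Subgroup.zpowers x ∨
    Subgroup.centralizer ({b} : Set G) = Subgroup.centralizer ({x ^ (m₁ / 2)} : Set G)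

/-- CNB -/
def CNB : Prop := ∀ (G : Type u) [Group G] (p q m₁ m₂ : ℕ), Hyp G p q m₁ m₂ →
  ∀ x : G, orderOf x = m₁ →
    Subgroup.normalizer ((Subgroup.zpowers x : Subgroup G) : Set G) =
      Subgroup.centralizer ({x ^ (m₁ / 2)} : Set G)

/-- CAB: if the centraliser of the involution is abelian then `m₁ = 2`. -/
def CAB : Prop := ∀ (G : Type u) [Group G] (p q m₁ m₂ : ℕ), Hyp G p q m₁ m₂ →
  ∀ x : G, orderOf x = m₁ →
    (∀ a ∈ Subgroup.centralizer ({x ^ (m₁ / 2)} : Set G),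
      ∀ b ∈ Subgroup.centralizer ({x ^ (m₁ / 2)} : Set G), a * b = b * a) → m₁ = 2

/-- CNC: for `m₁ > 2` the centraliser of the involution is self-normalising. -/
def CNC : Prop := ∀ (G : Type u) [Group G] (p q m₁ m₂ : ℕ), Hyp G p q m₁ m₂ → 2 < m₁ →
  ∀ x g : G, orderOf x = m₁ →
    g ∈ Subgroup.normalizer
      ((Subgroup.centralizer ({x ^ (m₁ / 2)} : Set G) : Subgroup G) : Set G) →
    g ∈ Subgroup.centralizer ({x ^ (m₁ / 2)} : Set G)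

/-- LOCR: in a subgroup of odd order, an element normalising an `r`-subgroup, `r ≠ p`,
centralises it. -/
def LocR : Prop := ∀ (G : Type u) [Group G] (p q m₁ m₂ : ℕ), Hyp G p q m₁ m₂ →
  ∀ M : Subgroup G, Odd (Nat.card M) → ∀ r : ℕ, r.Prime → r ≠ p → ∀ R : Subgroup G, R ≤ M →
    IsPGroup r R → ∀ g ∈ M, (∀ h ∈ R, g * h * g⁻¹ ∈ R) → ∀ h ∈ R, g * h = h * g

/-- INV: an involution normalising a `p`-subgroup inverts it. -/
def Inv : Prop := ∀ (G : Type u) [Group G] (p q m₁ m₂ : ℕ), Hyp G p q m₁ m₂ →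
  ∀ (s : G) (E : Subgroup G), s ≠ 1 → s ^ 2 = 1 → IsPGroup p E → (∀ e ∈ E, s * e * s⁻¹ ∈ E) →
    ∀ e ∈ E, s * e * s⁻¹ = e⁻¹

/-- MODD: the normaliser of a non-trivial Sylow intersection of largest order has odd order. -/
def MOdd : Prop := ∀ (G : Type u) [Group G] (p q m₁ m₂ : ℕ), Hyp G p q m₁ m₂ →
  ∀ P₁ P₂ : Sylow p G, P₁ ≠ P₂ → ((P₁ : Subgroup G) ⊓ (P₂ : Subgroup G)) ≠ ⊥ →
  (∀ Q₁ Q₂ : Sylow p G, Q₁ ≠ Q₂ → Nat.card ↥((Q₁ : Subgroup G) ⊓ (Q₂ : Subgroup G)) ≤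
      Nat.card ↥((P₁ : Subgroup G) ⊓ (P₂ : Subgroup G))) →
  Odd (Nat.card (ND P₁ P₂))

/-- TI: distinct Sylow `p`-subgroups meet trivially. -/
def TI : Prop := ∀ (G : Type u) [Group G] (p q m₁ m₂ : ℕ), Hyp G p q m₁ m₂ →
  ∀ P₁ P₂ : Sylow p G, P₁ ≠ P₂ → ((P₁ : Subgroup G) ⊓ (P₂ : Subgroup G)) = ⊥

/-- NPMOD -/
def NpMod : Prop := ∀ (G : Type u) [Group G] (p q m₁ m₂ : ℕ), Hyp G p q m₁ m₂ →
  Nat.card (Sylow p G) ≡ 1 [MOD q]

/-- NPH -/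
def NpH : Prop := ∀ (G : Type u) [Group G] (p q m₁ m₂ : ℕ), Hyp G p q m₁ m₂ →
  ∀ P : Sylow p G, ∃ h' : ℕ,
    Nat.card (Subgroup.normalizer ((P : Subgroup G) : Set G)) = q * h' ∧ h' ∣ q - 1

/-- NP -/
def NP : Prop := ∀ (G : Type u) [Group G] (p q m₁ m₂ : ℕ), Hyp G p q m₁ m₂ →
  (∀ P : Sylow p G, Nat.card (Subgroup.normalizer ((P : Subgroup G) : Set G)) * 2 = q * (q - 1)) ∧
    Nat.card (Sylow p G) = q + 1

/-- CP -/
def CP : Prop := ∀ (G : Type u) [Group G] (p q m₁ m₂ : ℕ), Hyp G p q m₁ m₂ →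
  ∀ (P : Sylow p G) (x c : G), x ∈ (P : Subgroup G) → x ≠ 1 → Commute c x → c ∈ (P : Subgroup G)

/-- PAB -/
def PAB : Prop := ∀ (G : Type u) [Group G] (p q m₁ m₂ : ℕ), Hyp G p q m₁ m₂ →
  ∀ P : Sylow p G, ∀ a ∈ (P : Subgroup G), ∀ b ∈ (P : Subgroup G), a * b = b * a

/-- REG -/
def Reg : Prop := ∀ (G : Type u) [Group G] (p q m₁ m₂ : ℕ), Hyp G p q m₁ m₂ →
  ∀ P P' P'' : Sylow p G, P' ≠ P → P'' ≠ P → ∃! u : ↥(P : Subgroup G), (u : G) • P' = P''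

/-- FAITH -/
def Faith : Prop := ∀ (G : Type u) [Group G] (p q m₁ m₂ : ℕ), Hyp G p q m₁ m₂ →
  FaithfulSMul G (Sylow p G)

/-- TWO -/
def Two : Prop := ∀ (G : Type u) [Group G] (p q m₁ m₂ : ℕ), Hyp G p q m₁ m₂ →
  MulAction.IsMultiplyPretransitive G (Sylow p G) 2

/-- Z3 -/
def Z3 : Prop := ∀ (G : Type u) [Group G] (p q m₁ m₂ : ℕ), Hyp G p q m₁ m₂ →
  ∀ (g : G) (a b c : Sylow p G), a ≠ b → b ≠ c → a ≠ c → g • a = a → g • b = b → g • c = c → g = 1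

/-- Z4 -/
def Z4 : Prop := ∀ (G : Type u) [Group G] (p q m₁ m₂ : ℕ), Hyp G p q m₁ m₂ →
  ∃ g : G, g ≠ 1 ∧ ∃ a b : Sylow p G, a ≠ b ∧ g • a = a ∧ g • b = b

/-- Z5 -/
def Z5 : Prop := ∀ (G : Type u) [Group G] (p q m₁ m₂ : ℕ), Hyp G p q m₁ m₂ →
  ∀ N : Subgroup G, N.Normal → MulAction.IsPretransitive N (Sylow p G) →
    ∃ a : Sylow p G, MulAction.stabilizer N a ≠ ⊥

/-- NO3 -/
def NO3 : Prop := ∀ (G : Type u) [Group G] (p q m₁ m₂ : ℕ), Hyp G p q m₁ m₂ →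
  ¬ (MulAction.IsMultiplyPretransitive G (Sylow p G) 3 ∧
      ∀ t : Fin 3 ↪ Sylow p G, MulAction.stabilizer G t = ⊥)

/-- ODDFIN -/
def OddFin : Prop := ∀ (G : Type u) [Group G] (p q m₁ m₂ : ℕ), Hyp G p q m₁ m₂ →
  ∀ (K : Type) [Field K] [Fintype K], ringChar K ≠ 2 →
    Nonempty (G ≃* Matrix.ProjectiveSpecialLinearGroup (Fin 2) K) → Fintype.card K = q

/-- TOHYP -/
def ToHyp : Prop := ∀ (G : Type u) [Group G] [Finite G] (F : Type v) [Field F] [Fintype F],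
  3 < Fintype.card F → ringChar F ≠ 2 →
  Set.range (orderOf : G → ℕ) =
    Set.range (orderOf : Matrix.ProjectiveSpecialLinearGroup (Fin 2) F → ℕ) →
  Nat.card G = Nat.card (Matrix.ProjectiveSpecialLinearGroup (Fin 2) F) →
  ∃ p m₁ m₂ : ℕ, Hyp G p (Fintype.card F) m₁ m₂

/-! ### The even case -/

/-- TOHYPE -/
def ToHypE : Prop := ∀ (G : Type u) [Group G] [Finite G] (F : Type v) [Field F] [Fintype F],
  3 < Fintype.card F → ringChar F = 2 →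
  Set.range (orderOf : G → ℕ) =
    Set.range (orderOf : Matrix.ProjectiveSpecialLinearGroup (Fin 2) F → ℕ) →
  Nat.card G = Nat.card (Matrix.ProjectiveSpecialLinearGroup (Fin 2) F) →
  HypE G (Fintype.card F)

/-- ECENT -/
def ECent : Prop := ∀ (G : Type u) [Group G] (q : ℕ), HypE G q →
  ∀ t c : G, orderOf t = 2 → Commute c t → c ^ 2 = 1

/-- EVEN -/
def Even' : Prop := ∀ (G : Type u) [Group G] (q : ℕ), HypE G q →
  ∃ (K : Type) (_ : Field K) (_ : Fintype K), Fintype.card K = q ∧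
    Nonempty (G ≃* Matrix.ProjectiveSpecialLinearGroup (Fin 2) K)

end Cfsg.Agent.Lib.Helper98.PSpStmt
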