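import Mathlib

set_option autoImplicit false

/-!
# Central extensions: commutators of lifts (helper98)

For `φ : Y →* B` with central kernel, the commutator `⁅y₁, y₂⁆` depends only on `φ y₁, φ y₂`.
`kap φ hs b₁ b₂` is the commutator of two lifts of `b₁, b₂`.  `principle` kills additive maps
from a finite field which are invariant under multiplication by some `a ≠ 0, 1`.
-/

open scoped commutatorElement

namespace Cfsg.Agent.Lib.Helper98.CExt

variable {Y B : Type*} [Group Y] [Group B]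

section basic

variable (φ : Y →* B) (hc : φ.ker ≤ Subgroup.center Y)

include hc in
/-- commutators of elements with equal images coincide -/
theorem comm_congr {y₁ y₁' y₂ y₂' : Y} (h1 : φ y₁ = φ y₁') (h2 : φ y₂ = φ y₂') :
    ⁅y₁, y₂⁆ = ⁅y₁', y₂'⁆ := by
  have hz1 : y₁⁻¹ * y₁' ∈ Subgroup.center Y :=
    hc (by rw [MonoidHom.mem_ker, map_mul, map_inv, h1, inv_mul_cancel])
  have hz2 : y₂⁻¹ * y₂' ∈ Subgroup.center Y :=
    hc (by rw [MonoidHom.mem_ker, map_mul, map_inv, h2, inv_mul_cancel])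
  have e1 : y₁' = y₁ * (y₁⁻¹ * y₁') := by group
  have e2 : y₂' = y₂ * (y₂⁻¹ * y₂') := by group
  rw [e1, e2]
  generalize y₁⁻¹ * y₁' = z₁ at hz1
  generalize y₂⁻¹ * y₂' = z₂ at hz2
  rw [Subgroup.mem_center_iff] at hz1 hz2
  rw [commutatorElement_def, commutatorElement_def]
  have s1 : y₁ * z₁ * (y₂ * z₂) * (y₁ * z₁)⁻¹ = y₁ * (y₂ * z₂) * y₁⁻¹ := by
    calc y₁ * z₁ * (y₂ * z₂) * (y₁ * z₁)⁻¹ = y₁ * ((y₂ * z₂) * z₁)⁻¹⁻¹ * z₁⁻¹ * y₁⁻¹ * 1 := by
          rw [inv_inv, hz1 (y₂ * z₂)]; group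
      _ = y₁ * (y₂ * z₂) * y₁⁻¹ := by group
  rw [s1]
  calc y₁ * y₂ * y₁⁻¹ * y₂⁻¹ = y₁ * y₂ * (y₁⁻¹ * z₂) * z₂⁻¹ * y₂⁻¹ := by group
    _ = y₁ * y₂ * (z₂ * y₁⁻¹) * z₂⁻¹ * y₂⁻¹ := by rw [hz2 y₁⁻¹]
    _ = y₁ * (y₂ * z₂) * y₁⁻¹ * (y₂ * z₂)⁻¹ := by group

variable (hs : Function.Surjective φ)

/-- the commutator of two lifts -/
noncomputable def kap (b₁ b₂ : B) : Y := ⁅Function.surjInv hs b₁, Function.surjInv hs b₂⁆

include hc in
theorem kap_eq (y₁ y₂ : Y) : kap φ hs (φ y₁) (φ y₂) = ⁅y₁, y₂⁆ :=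
  comm_congr φ hc (Function.surjInv_eq hs _) (Function.surjInv_eq hs _)

include hc in
/-- `kap` through arbitrary lifts -/
theorem kap_eq' {b₁ b₂ : B} {y₁ y₂ : Y} (h1 : φ y₁ = b₁) (h2 : φ y₂ = b₂) :
    kap φ hs b₁ b₂ = ⁅y₁, y₂⁆ := by
  rw [← h1, ← h2]; exact kap_eq φ hc hs y₁ y₂

theorem map_kap (b₁ b₂ : B) : φ (kap φ hs b₁ b₂) = ⁅b₁, b₂⁆ := by
  rw [kap, map_commutatorElement, Function.surjInv_eq hs, Function.surjInv_eq hs]

include hc in
theorem kap_mem_center {b₁ b₂ : B} (h : b₁ * b₂ = b₂ * b₁) :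
    kap φ hs b₁ b₂ ∈ Subgroup.center Y := by
  apply hc
  rw [MonoidHom.mem_ker, map_kap, commutatorElement_eq_one_iff_mul_comm]
  exact h

include hc in
theorem kap_comm_all {b₁ b₂ : B} (h : b₁ * b₂ = b₂ * b₁) (g : Y) :
    g * kap φ hs b₁ b₂ = kap φ hs b₁ b₂ * g :=
  Subgroup.mem_center_iff.mp (kap_mem_center φ hc hs h) g

include hc in
theorem conj_kap (y : Y) (b₁ b₂ : B) :
    y * kap φ hs b₁ b₂ * y⁻¹ = kap φ hs (φ y * b₁ * (φ y)⁻¹) (φ y * b₂ * (φ y)⁻¹) := by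
  have h := kap_eq φ hc hs (y * Function.surjInv hs b₁ * y⁻¹) (y * Function.surjInv hs b₂ * y⁻¹)
  simp only [map_mul, map_inv, Function.surjInv_eq hs] at h
  rw [h, kap]
  simp only [commutatorElement_def]; group

include hc in
/-- an element whose image commutes with `b₁, b₂` commutes with `kap b₁ b₂` -/
theorem commute_kap {w : Y} {b₁ b₂ : B} (h1 : φ w * b₁ = b₁ * φ w) (h2 : φ w * b₂ = b₂ * φ w) :
    w * kap φ hs b₁ b₂ = kap φ hs b₁ b₂ * w := by
  have h := conj_kap φ hc hs w b₁ b₂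
  have e1 : φ w * b₁ * (φ w)⁻¹ = b₁ := by rw [h1]; group
  have e2 : φ w * b₂ * (φ w)⁻¹ = b₂ := by rw [h2]; group
  rw [e1, e2] at h
  calc w * kap φ hs b₁ b₂ = (w * kap φ hs b₁ b₂ * w⁻¹) * w := by group
    _ = kap φ hs b₁ b₂ * w := by rw [h]

include hc in
theorem kap_mul_left {b₁ b₁' b₂ : B} (h : b₁' * b₂ = b₂ * b₁') :
    kap φ hs (b₁ * b₁') b₂ = kap φ hs b₁ b₂ * kap φ hs b₁' b₂ := by
  have hz : ∀ g, g * ⁅Function.surjInv hs b₁', Function.surjInv hs b₂⁆ =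
      ⁅Function.surjInv hs b₁', Function.surjInv hs b₂⁆ * g := kap_comm_all φ hc hs h
  have e := kap_eq φ hc hs (Function.surjInv hs b₁ * Function.surjInv hs b₁')
    (Function.surjInv hs b₂)
  simp only [map_mul, Function.surjInv_eq hs] at e
  rw [e]
  show ⁅Function.surjInv hs b₁ * Function.surjInv hs b₁', Function.surjInv hs b₂⁆ =
    ⁅Function.surjInv hs b₁, Function.surjInv hs b₂⁆ *
      ⁅Function.surjInv hs b₁', Function.surjInv hs b₂⁆
  generalize Function.surjInv hs b₁ = l₁ at *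
  generalize Function.surjInv hs b₁' = l₁' at *
  generalize Function.surjInv hs b₂ = l₂ at *
  calc ⁅l₁ * l₁', l₂⁆ = l₁ * ⁅l₁', l₂⁆ * (l₂ * l₁⁻¹ * l₂⁻¹) := by
        simp only [commutatorElement_def]; group
    _ = ⁅l₁', l₂⁆ * l₁ * (l₂ * l₁⁻¹ * l₂⁻¹) := by rw [hz l₁]
    _ = ⁅l₁', l₂⁆ * ⁅l₁, l₂⁆ := by simp only [commutatorElement_def]; group
    _ = ⁅l₁, l₂⁆ * ⁅l₁', l₂⁆ := (hz _).symm

include hc in
theorem kap_mul_right {b₁ b₂ b₂' : B} (h : b₁ * b₂' = b₂' * b₁) :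
    kap φ hs b₁ (b₂ * b₂') = kap φ hs b₁ b₂ * kap φ hs b₁ b₂' := by
  have hz : ∀ g, g * ⁅Function.surjInv hs b₁, Function.surjInv hs b₂'⁆ =
      ⁅Function.surjInv hs b₁, Function.surjInv hs b₂'⁆ * g := kap_comm_all φ hc hs h
  have e := kap_eq φ hc hs (Function.surjInv hs b₁)
    (Function.surjInv hs b₂ * Function.surjInv hs b₂')
  simp only [map_mul, Function.surjInv_eq hs] at e
  rw [e]
  show ⁅Function.surjInv hs b₁, Function.surjInv hs b₂ * Function.surjInv hs b₂'⁆ =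
    ⁅Function.surjInv hs b₁, Function.surjInv hs b₂⁆ *
      ⁅Function.surjInv hs b₁, Function.surjInv hs b₂'⁆
  generalize Function.surjInv hs b₁ = l₁ at *
  generalize Function.surjInv hs b₂ = l₂ at *
  generalize Function.surjInv hs b₂' = l₂' at *
  calc ⁅l₁, l₂ * l₂'⁆ = ⁅l₁, l₂⁆ * (l₂ * ⁅l₁, l₂'⁆) * l₂⁻¹ := by
        simp only [commutatorElement_def]; group
    _ = ⁅l₁, l₂⁆ * (⁅l₁, l₂'⁆ * l₂) * l₂⁻¹ := by rw [hz l₂]
    _ = ⁅l₁, l₂⁆ * ⁅l₁, l₂'⁆ := by group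

theorem kap_self (b : B) : kap φ hs b b = 1 := by
  rw [kap, commutatorElement_self]

theorem kap_inv (b₁ b₂ : B) : (kap φ hs b₁ b₂)⁻¹ = kap φ hs b₂ b₁ := by
  rw [kap, kap, commutatorElement_inv]

include hc in
/-- two lifts of commuting elements commute as soon as `kap` is trivial -/
theorem commute_of_kap {b₁ b₂ : B} (h : kap φ hs b₁ b₂ = 1) {y₁ y₂ : Y} (h1 : φ y₁ = b₁)
    (h2 : φ y₂ = b₂) : y₁ * y₂ = y₂ * y₁ := by
  have e := kap_eq' φ hc hs h1 h2
  rw [h] at e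
  exact commutatorElement_eq_one_iff_mul_comm.mp e.symm

end basic

/-- **Principle.**  An additive map from a finite field to a group which is invariant under
multiplication by some `a ≠ 0, 1` is trivial. -/
theorem principle {F : Type*} [Field F] [Finite F] {Z : Type*} [Group Z] (g : F → Z)
    (hadd : ∀ a b, g (a + b) = g a * g b) (a : F) (ha0 : a ≠ 0) (ha1 : a ≠ 1)
    (hinv : ∀ ν, g (a * ν) = g ν) (ν : F) : g ν = 1 := by
  classical
  have := Fintype.ofFinite F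
  obtain ⟨p, hp⟩ := CharP.exists F
  have hpp : p.Prime := CharP.char_is_prime F p
  have g0 : g 0 = 1 := by
    have h := hadd 0 0
    rw [add_zero] at h
    exact mul_left_cancel (a := g 0) (by rw [mul_one]; exact h.symm)
  have hnat : ∀ (k : ℕ) (ν : F), g ((k : F) * ν) = g ν ^ k := by
    intro k ν
    induction k with
    | zero => simp [g0]
    | succ k ih => rw [Nat.cast_succ, add_mul, one_mul, hadd, ih, pow_succ]
  have hp1 : g ν ^ p = 1 := by rw [← hnat, CharP.cast_eq_zero F p, zero_mul, g0]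
  have hpow : ∀ (k : ℕ) (ν : F), g (a ^ k * ν) = g ν := by
    intro k
    induction k with
    | zero => intro ν; rw [pow_zero, one_mul]
    | succ k ih => intro ν; rw [pow_succ, mul_assoc, ih, hinv]
  have hsum : ∀ (k : ℕ) (ν : F), g ((∑ i ∈ Finset.range k, a ^ i) * ν) = g ν ^ k := by
    intro k ν
    induction k with
    | zero => simp [g0]
    | succ k ih => rw [Finset.sum_range_succ, add_mul, hadd, ih, hpow, pow_succ]
  have hm : a ^ (Fintype.card F - 1) = 1 := FiniteField.pow_card_sub_one_eq_one a ha0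
  have hgeom : (∑ i ∈ Finset.range (Fintype.card F - 1), a ^ i) = 0 := by
    have h := geom_sum_mul a (Fintype.card F - 1)
    rw [hm, sub_self] at h
    exact (mul_eq_zero.mp h).resolve_right (sub_ne_zero.mpr ha1)
  have hm1 : g ν ^ (Fintype.card F - 1) = 1 := by rw [← hsum, hgeom, zero_mul, g0]
  have hcop : Nat.Coprime (Fintype.card F - 1) p := by
    obtain ⟨n, -, hn⟩ := FiniteField.card F p
    have hpq : p ∣ Fintype.card F := by rw [hn]; exact dvd_pow_self p n.ne_zero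
    have hq : 0 < Fintype.card F := Fintype.card_pos
    apply Nat.Coprime.symm
    rw [Nat.Prime.coprime_iff_not_dvd hpp]
    intro h
    have h1 : p ∣ Fintype.card F - (Fintype.card F - 1) := Nat.dvd_sub hpq h
    have h2 : Fintype.card F - (Fintype.card F - 1) = 1 := by omega
    rw [h2] at h1
    exact hpp.one_lt.ne' (Nat.dvd_one.mp h1)
  have hord : orderOf (g ν) ∣ Nat.gcd (Fintype.card F - 1) p :=
    Nat.dvd_gcd (orderOf_dvd_of_pow_eq_one hm1) (orderOf_dvd_of_pow_eq_one hp1)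
  rw [hcop] at hord
  exact orderOf_eq_one_iff.mp (Nat.dvd_one.mp hord)

end Cfsg.Agent.Lib.Helper98.CExt
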