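import Mathlib
import Cfsg.Agent.Lib.Helper98.SL2Sub

set_option autoImplicit false

/-!
# Steinberg systems of type `A`: conjugation formulas (helper98)

A *Steinberg system* is a family `x i j t` of elements of a group (`i ≠ j` indices, `t` in a
field `K`) satisfying the additivity and commutator relations of elementary matrices, such that
each pair `x i j`, `x j i` is the image of `SL(2, K)`.  We derive the action of these copies of
`SL(2, K)` on the other root elements.
-/

namespace Cfsg.Agent.Lib.Helper98.StN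

open Matrix MatrixGroups
open Cfsg.Agent.Lib.Helper98.SL2Sub

section tools

variable {G : Type*} [Group G]

/-- conjugation as a permutation -/
def cj (G : Type*) [Group G] : G →* Equiv.Perm G where
  toFun g := ⟨fun y => g * y * g⁻¹, fun y => g⁻¹ * y * g, fun y => by group, fun y => by group⟩
  map_one' := Equiv.ext fun y => by
    show (1 : G) * y * (1 : G)⁻¹ = y
    group
  map_mul' g h := Equiv.ext fun y => by
    show g * h * y * (g * h)⁻¹ = g * (h * y * h⁻¹) * g⁻¹
    group

lemma cj_apply (g y : G) : cj G g y = g * y * g⁻¹ := rfl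

lemma conj_closure (sB : Set G) (g : G)
    (h : ∀ y ∈ sB, g * y * g⁻¹ ∈ Subgroup.closure sB) :
    ∀ y ∈ Subgroup.closure sB, g * y * g⁻¹ ∈ Subgroup.closure sB := by
  intro y hy
  induction hy using Subgroup.closure_induction with
  | mem y hy => exact h y hy
  | one =>
    have h1 : g * 1 * g⁻¹ = 1 := by group
    rw [h1]; exact Subgroup.one_mem _
  | mul y z hy hz ihy ihz =>
    have h1 : g * (y * z) * g⁻¹ = (g * y * g⁻¹) * (g * z * g⁻¹) := by group
    rw [h1]; exact Subgroup.mul_mem _ ihy ihz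
  | inv y hy ih =>
    have h1 : g * y⁻¹ * g⁻¹ = (g * y * g⁻¹)⁻¹ := by group
    rw [h1]; exact Subgroup.inv_mem _ ih

/-- a subgroup generated by elements which (with their inverses) normalize `B` normalizes `B` -/
lemma norm_closure (B : Subgroup G) (sM : Set G)
    (h : ∀ m ∈ sM, (∀ y ∈ B, m * y * m⁻¹ ∈ B) ∧ (∀ y ∈ B, m⁻¹ * y * m ∈ B)) :
    ∀ m ∈ Subgroup.closure sM, (∀ y ∈ B, m * y * m⁻¹ ∈ B) ∧ (∀ y ∈ B, m⁻¹ * y * m ∈ B) := by
  intro m hm
  induction hm using Subgroup.closure_induction with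
  | mem m hm => exact h m hm
  | one =>
    constructor
    · intro y hy
      have h1 : (1 : G) * y * 1⁻¹ = y := by group
      rw [h1]; exact hy
    · intro y hy
      have h1 : (1 : G)⁻¹ * y * 1 = y := by group
      rw [h1]; exact hy
  | mul m n hm hn ihm ihn =>
    constructor
    · intro y hy
      have e : m * n * y * (m * n)⁻¹ = m * (n * y * n⁻¹) * m⁻¹ := by group
      rw [e]; exact ihm.1 _ (ihn.1 y hy)
    · intro y hy
      have e : (m * n)⁻¹ * y * (m * n) = n⁻¹ * (m⁻¹ * y * m) * n := by group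
      rw [e]; exact ihn.2 _ (ihm.2 y hy)
  | inv m hm ih =>
    constructor
    · intro y hy
      rw [inv_inv]; exact ih.2 y hy
    · intro y hy
      rw [inv_inv]; exact ih.1 y hy

/-- product decomposition of `A ⊔ M` when `M` normalizes `A` -/
lemma mem_mul_of_norm (A M : Subgroup G) (h : ∀ m ∈ M, ∀ a ∈ A, m * a * m⁻¹ ∈ A) :
    ∀ g ∈ A ⊔ M, ∃ a ∈ A, ∃ m ∈ M, g = a * m := by
  let AM : Subgroup G :=
    { carrier := {g | ∃ a ∈ A, ∃ m ∈ M, g = a * m}
      one_mem' := ⟨1, A.one_mem, 1, M.one_mem, by group⟩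
      mul_mem' := by
        rintro _ _ ⟨a, ha, m, hm, rfl⟩ ⟨a', ha', m', hm', rfl⟩
        exact ⟨a * (m * a' * m⁻¹), A.mul_mem ha (h m hm a' ha'), m * m', M.mul_mem hm hm',
          by group⟩
      inv_mem' := by
        rintro _ ⟨a, ha, m, hm, rfl⟩
        exact ⟨m⁻¹ * a⁻¹ * (m⁻¹)⁻¹, h m⁻¹ (M.inv_mem hm) a⁻¹ (A.inv_mem ha), m⁻¹,
          M.inv_mem hm, by group⟩ }
  have hle : A ⊔ M ≤ AM := by
    apply sup_le
    · intro a ha; exact ⟨a, ha, 1, M.one_mem, by group⟩
    · intro m hm; exact ⟨1, A.one_mem, m, hm, by group⟩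
  intro g hg
  exact hle hg

end tools

section act

variable {K : Type*} [Field K]

/-- **Action lemma.**  If `u z` and `l z` act on a family `V p q` like elementary matrices on
column vectors, then so does all of `SL(2, K)`. -/
theorem act {Ω : Type*} (φ : SL(2, K) →* Equiv.Perm Ω) (V : K → K → Ω)
    (hu : ∀ z p q, φ (u z) (V p q) = V (p + z * q) q)
    (hl : ∀ z p q, φ (l z) (V p q) = V p (q + z * p)) (g : SL(2, K)) (p q : K) :
    φ g (V p q) = V (g.1 0 0 * p + g.1 0 1 * q) (g.1 1 0 * p + g.1 1 1 * q) := by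
  let H : Subgroup SL(2, K) :=
    { carrier := {g | ∀ p q, φ g (V p q) =
        V (g.1 0 0 * p + g.1 0 1 * q) (g.1 1 0 * p + g.1 1 1 * q)}
      one_mem' := by
        intro p q
        rw [map_one, one00, one01, one10, one11]
        simp
      mul_mem' := by
        intro g g' hg hg' p q
        rw [map_mul, Equiv.Perm.mul_apply, hg' p q, hg, mul00, mul01, mul10, mul11]
        congr 1 <;> ring
      inv_mem' := by
        intro g hg p q
        rw [map_inv, Equiv.Perm.inv_def, Equiv.symm_apply_eq, hg, inv00, inv01, inv10, inv11]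
        have hd := det_eq g
        congr 1
        · linear_combination (-p) * hd
        · linear_combination (-q) * hd }
  have hH : H = ⊤ := eq_top_of_u_l H
    (fun z p q => by
      show φ (u z) (V p q) = _
      rw [hu, u00, u01, u10, u11]; congr 1 <;> ring)
    (fun z p q => by
      show φ (l z) (V p q) = _
      rw [hl, l00, l01, l10, l11]; congr 1 <;> ring)
  have hg : g ∈ H := hH ▸ Subgroup.mem_top g
  exact hg p q

/-- the transpose-inverse of a matrix of `SL(2, K)` -/
def tauFun (g : SL(2, K)) : SL(2, K) :=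
  ⟨!![g.1 1 1, -g.1 1 0; -g.1 0 1, g.1 0 0], by
    rw [Matrix.det_fin_two_of]
    have := det_eq g
    linear_combination this⟩

@[simp] lemma tauFun00 (g : SL(2, K)) : (tauFun g).1 0 0 = g.1 1 1 := rfl
@[simp] lemma tauFun01 (g : SL(2, K)) : (tauFun g).1 0 1 = -g.1 1 0 := rfl
@[simp] lemma tauFun10 (g : SL(2, K)) : (tauFun g).1 1 0 = -g.1 0 1 := rfl
@[simp] lemma tauFun11 (g : SL(2, K)) : (tauFun g).1 1 1 = g.1 0 0 := rfl

/-- the transpose-inverse automorphism of `SL(2, K)` -/
def tau : SL(2, K) →* SL(2, K) where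
  toFun := tauFun
  map_one' := by
    apply sl2_ext <;>
      simp only [tauFun00, tauFun01, tauFun10, tauFun11, one00, one01, one10, one11, neg_zero]
  map_mul' g g' := by
    apply sl2_ext <;>
      simp only [tauFun00, tauFun01, tauFun10, tauFun11, mul00, mul01, mul10, mul11] <;> ring

lemma tau_apply (g : SL(2, K)) : tau g = tauFun g := rfl

lemma tau_u (z : K) : tau (u z) = l (-z) := by
  apply sl2_ext <;> simp [tau_apply]

lemma tau_l (z : K) : tau (l z) = u (-z) := by
  apply sl2_ext <;> simp [tau_apply]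

lemma tau_w : tau (w : SL(2, K)) = w := by
  apply sl2_ext <;> simp [tau_apply]

lemma tau_d (c : K) (hc : c ≠ 0) : tau (d c⁻¹ (inv_ne_zero hc)) = d c hc := by
  apply sl2_ext <;> simp [tau_apply]

lemma d_one : d (1 : K) one_ne_zero = 1 := by
  apply sl2_ext <;> simp [one00, one01, one10, one11]

lemma d_mul (c e : K) (hc : c ≠ 0) (he : e ≠ 0) :
    d c hc * d e he = d (c * e) (mul_ne_zero hc he) := by
  apply sl2_ext <;> simp [mul00, mul01, mul10, mul11, mul_comm]

lemma w_d (c : K) (hc : c ≠ 0) : w * d c hc = d c⁻¹ (inv_ne_zero hc) * w := by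
  apply sl2_ext <;> simp [mul00, mul01, mul10, mul11]

lemma w_sq : (w : SL(2, K)) * w = d (-1) (neg_ne_zero.mpr one_ne_zero) := by
  apply sl2_ext <;> simp [mul00, mul01, mul10, mul11, inv_neg]

lemma w_eq' : (w : SL(2, K)) = u 1 * l (-1) * u 1 := by
  apply sl2_ext <;> simp [mul00, mul01, mul10, mul11]

lemma l_eq (t : K) : l t = w * u (-t) * w⁻¹ := by
  rw [w_u_w, neg_neg]

/-- `u(t) l(-t⁻¹) u(t) = d(t) w` -/
lemma n_eq (t : K) (ht : t ≠ 0) : u t * l (-t⁻¹) * u t = d t ht * w := by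
  apply sl2_ext <;> simp [mul00, mul01, mul10, mul11, ht]

/-- the Bruhat form of `w u(s) w` -/
lemma w_u_w' (s : K) (hs : s ≠ 0) :
    w * u s * w = u (-s⁻¹) * d (-s⁻¹) (neg_ne_zero.mpr (inv_ne_zero hs)) * w * u (-s⁻¹) := by
  apply sl2_ext <;> simp [mul00, mul01, mul10, mul11, hs, inv_neg]

end act

section sys

variable {ι : Type*} {K : Type*} [Field K] {G : Type*} [Group G]

/-- a Steinberg system of type `A` -/
structure Sys (x : ι → ι → K → G) : Prop where
  add : ∀ i j, i ≠ j → ∀ t u, x i j t * x i j u = x i j (t + u)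
  comm : ∀ i j k l, i ≠ j → k ≠ l → i ≠ l → j ≠ k → ∀ t u,
    x i j t * x k l u = x k l u * x i j t
  comm3 : ∀ i j l, i ≠ j → j ≠ l → i ≠ l → ∀ t u,
    x i j t * x j l u * (x i j t)⁻¹ * (x j l u)⁻¹ = x i l (t * u)
  sl2 : ∀ i j, i ≠ j → ∃ ψ : SL(2, K) →* G, (∀ t, ψ (u t) = x i j t) ∧ (∀ t, ψ (l t) = x j i t)

variable {x : ι → ι → K → G}

lemma x_zero (S : Sys x) {i j : ι} (h : i ≠ j) : x i j 0 = 1 := by
  have h1 := S.add i j h 0 0
  rw [add_zero] at h1
  exact mul_left_cancel (a := x i j 0) (by rw [h1, mul_one])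

lemma x_neg (S : Sys x) {i j : ι} (h : i ≠ j) (t : K) : x i j (-t) = (x i j t)⁻¹ := by
  apply eq_inv_of_mul_eq_one_left
  rw [S.add i j h, neg_add_cancel, x_zero S h]

/-- `x_ij(t) x_jl(u) x_ij(t)⁻¹ = x_il(tu) x_jl(u)` -/
lemma conj_r (S : Sys x) {i j l : ι} (hij : i ≠ j) (hjl : j ≠ l) (hil : i ≠ l) (t u : K) :
    x i j t * x j l u * (x i j t)⁻¹ = x i l (t * u) * x j l u := by
  rw [← S.comm3 i j l hij hjl hil t u]; group

/-- `x_ij(t) x_ki(c) x_ij(t)⁻¹ = x_ki(c) x_kj(-(c t))` -/
lemma conj_l (S : Sys x) {i j k : ι} (hij : i ≠ j) (hki : k ≠ i) (hkj : k ≠ j) (t c : K) :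
    x i j t * x k i c * (x i j t)⁻¹ = x k i c * x k j (-(c * t)) := by
  have h := S.comm3 k i j hki hij hkj c t
  have hc := S.comm k i k j hki hkj hkj hki.symm c (-(c * t))
  rw [hc, x_neg S hkj, ← h]; group

variable (S : Sys x) {a b : ι} (hab : a ≠ b) (ψ : SL(2, K) →* G)
  (hu : ∀ t, ψ (u t) = x a b t) (hl : ∀ t, ψ (l t) = x b a t)

include S hab hu hl

/-- the action on a column pair -/
theorem col_act {k : ι} (hka : k ≠ a) (hkb : k ≠ b) (g : SL(2, K)) (p q : K) :
    ψ g * (x a k p * x b k q) * (ψ g)⁻¹ =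
      x a k (g.1 0 0 * p + g.1 0 1 * q) * x b k (g.1 1 0 * p + g.1 1 1 * q) := by
  refine act ((cj G).comp ψ) (fun p q => x a k p * x b k q) ?_ ?_ g p q
  · intro z p q
    show ψ (u z) * (x a k p * x b k q) * (ψ (u z))⁻¹ = x a k (p + z * q) * x b k q
    rw [hu]
    have h1 : x a b z * x a k p = x a k p * x a b z :=
      S.comm a b a k hab hka.symm hka.symm hab.symm z p
    have h2 := conj_r S hab hkb.symm hka.symm z q
    calc x a b z * (x a k p * x b k q) * (x a b z)⁻¹
        = x a b z * x a k p * x b k q * (x a b z)⁻¹ := by group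
      _ = x a k p * (x a b z * x b k q * (x a b z)⁻¹) := by rw [h1]; group
      _ = x a k (p + z * q) * x b k q := by rw [h2, ← mul_assoc, S.add a k hka.symm]
  · intro z p q
    show ψ (l z) * (x a k p * x b k q) * (ψ (l z))⁻¹ = x a k p * x b k (q + z * p)
    rw [hl]
    have h1 : x b a z * x b k q = x b k q * x b a z :=
      S.comm b a b k hab.symm hkb.symm hkb.symm hab z q
    have h2 := conj_r S hab.symm hka.symm hkb.symm z p
    have h3 : x b k (z * p) * x a k p = x a k p * x b k (z * p) :=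
      S.comm b k a k hkb.symm hka.symm hkb.symm hka (z * p) p
    have h4 : q + z * p = z * p + q := add_comm _ _
    calc x b a z * (x a k p * x b k q) * (x b a z)⁻¹
        = (x b a z * x a k p * (x b a z)⁻¹) * (x b a z * x b k q) * (x b a z)⁻¹ := by group
      _ = x a k p * x b k (q + z * p) := by
          rw [h2, h1, h3, h4, ← S.add b k hkb.symm]; group

/-- the action on a row pair (through the transpose-inverse) -/
theorem row_act {k : ι} (hka : k ≠ a) (hkb : k ≠ b) (g : SL(2, K)) (p q : K) :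
    ψ (tau g) * (x k a p * x k b q) * (ψ (tau g))⁻¹ =
      x k a (g.1 0 0 * p + g.1 0 1 * q) * x k b (g.1 1 0 * p + g.1 1 1 * q) := by
  refine act (((cj G).comp ψ).comp tau) (fun p q => x k a p * x k b q) ?_ ?_ g p q
  · intro z p q
    show ψ (tau (u z)) * (x k a p * x k b q) * (ψ (tau (u z)))⁻¹ = x k a (p + z * q) * x k b q
    rw [tau_u, hl]
    have e1 : x b a (-z) * x k a p = x k a p * x b a (-z) :=
      S.comm b a k a hab.symm hka hab.symm hka.symm (-z) p
    have e2 := conj_l S hab.symm hkb hka (-z) q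
    have e3 : x k b q * x k a (-(q * -z)) = x k a (-(q * -z)) * x k b q :=
      S.comm k b k a hkb hka hka hkb.symm q _
    have e4 : p + -(q * -z) = p + z * q := by ring
    calc x b a (-z) * (x k a p * x k b q) * (x b a (-z))⁻¹
        = x b a (-z) * x k a p * x k b q * (x b a (-z))⁻¹ := by group
      _ = x k a p * (x b a (-z) * x k b q * (x b a (-z))⁻¹) := by rw [e1]; group
      _ = x k a (p + z * q) * x k b q := by
          rw [e2, e3, ← mul_assoc, S.add k a hka, e4]
  · intro z p q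
    show ψ (tau (l z)) * (x k a p * x k b q) * (ψ (tau (l z)))⁻¹ = x k a p * x k b (q + z * p)
    rw [tau_l, hu]
    have e1 : x a b (-z) * x k b q = x k b q * x a b (-z) :=
      S.comm a b k b hab hkb hab hkb.symm (-z) q
    have e2 := conj_l S hab hka hkb (-z) p
    have e4 : q + z * p = -(p * -z) + q := by ring
    calc x a b (-z) * (x k a p * x k b q) * (x a b (-z))⁻¹
        = (x a b (-z) * x k a p * (x a b (-z))⁻¹) * (x a b (-z) * x k b q) * (x a b (-z))⁻¹ := by
          group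
      _ = x k a p * x k b (q + z * p) := by
          rw [e2, e1, e4, ← S.add k b hkb]; group

/-- root elements away from `a, b` commute with the image of `ψ` -/
theorem comm_psi {i j : ι} (hij : i ≠ j) (hia : i ≠ a) (hib : i ≠ b) (hja : j ≠ a) (hjb : j ≠ b)
    (g : SL(2, K)) (t : K) : ψ g * x i j t * (ψ g)⁻¹ = x i j t := by
  have hH : (Subgroup.centralizer ({x i j t} : Set G)).comap ψ = ⊤ := by
    apply eq_top_of_u_l
    · intro z
      show ψ (u z) ∈ Subgroup.centralizer ({x i j t} : Set G)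
      rw [Subgroup.mem_centralizer_iff]
      intro y hy
      rw [Set.mem_singleton_iff.mp hy, hu]
      exact (S.comm a b i j hab hij hja.symm hib.symm z t).symm
    · intro z
      show ψ (l z) ∈ Subgroup.centralizer ({x i j t} : Set G)
      rw [Subgroup.mem_centralizer_iff]
      intro y hy
      rw [Set.mem_singleton_iff.mp hy, hl]
      exact (S.comm b a i j hab.symm hij hjb.symm hia.symm z t).symm
  have hg : g ∈ (Subgroup.centralizer ({x i j t} : Set G)).comap ψ := hH ▸ Subgroup.mem_top g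
  have h1 : x i j t * ψ g = ψ g * x i j t :=
    (Subgroup.mem_centralizer_iff.mp hg) _ (Set.mem_singleton _)
  rw [← h1]; group

omit S hab in
/-- the image of `ψ` lies in every subgroup containing the two root groups -/
lemma psi_mem (B : Subgroup G) (h1 : ∀ t, x a b t ∈ B) (h2 : ∀ t, x b a t ∈ B)
    (g : SL(2, K)) : ψ g ∈ B := by
  have hH : B.comap ψ = ⊤ := eq_top_of_u_l _
    (fun z => by show ψ (u z) ∈ B; rw [hu]; exact h1 z)
    (fun z => by show ψ (l z) ∈ B; rw [hl]; exact h2 z)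
  have hg : g ∈ B.comap ψ := hH ▸ Subgroup.mem_top g
  exact hg

/-! ### the Weyl element -/

lemma W1 {k : ι} (hka : k ≠ a) (hkb : k ≠ b) (p : K) :
    ψ w * x a k p * (ψ w)⁻¹ = x b k (-p) := by
  have h := col_act S hab ψ hu hl hka hkb w p 0
  simpa [x_zero S hkb.symm, x_zero S hka.symm] using h

lemma W2 {k : ι} (hka : k ≠ a) (hkb : k ≠ b) (q : K) :
    ψ w * x b k q * (ψ w)⁻¹ = x a k q := by
  have h := col_act S hab ψ hu hl hka hkb w 0 q
  simpa [x_zero S hkb.symm, x_zero S hka.symm] using h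

lemma W3 {k : ι} (hka : k ≠ a) (hkb : k ≠ b) (p : K) :
    ψ w * x k a p * (ψ w)⁻¹ = x k b (-p) := by
  have h := row_act S hab ψ hu hl hka hkb w p 0
  rw [tau_w] at h
  simpa [x_zero S hkb, x_zero S hka] using h

lemma W4 {k : ι} (hka : k ≠ a) (hkb : k ≠ b) (q : K) :
    ψ w * x k b q * (ψ w)⁻¹ = x k a q := by
  have h := row_act S hab ψ hu hl hka hkb w 0 q
  rw [tau_w] at h
  simpa [x_zero S hkb, x_zero S hka] using h

/-! ### the torus -/

lemma H1 (c : K) (hc : c ≠ 0) {k : ι} (hka : k ≠ a) (hkb : k ≠ b) (p : K) :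
    ψ (d c hc) * x a k p * (ψ (d c hc))⁻¹ = x a k (c * p) := by
  have h := col_act S hab ψ hu hl hka hkb (d c hc) p 0
  simpa [x_zero S hkb.symm, x_zero S hka.symm] using h

lemma H2 (c : K) (hc : c ≠ 0) {k : ι} (hka : k ≠ a) (hkb : k ≠ b) (q : K) :
    ψ (d c hc) * x b k q * (ψ (d c hc))⁻¹ = x b k (c⁻¹ * q) := by
  have h := col_act S hab ψ hu hl hka hkb (d c hc) 0 q
  simpa [x_zero S hkb.symm, x_zero S hka.symm] using h

lemma H3 (c : K) (hc : c ≠ 0) {k : ι} (hka : k ≠ a) (hkb : k ≠ b) (p : K) :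
    ψ (d c hc) * x k a p * (ψ (d c hc))⁻¹ = x k a (c⁻¹ * p) := by
  have h := row_act S hab ψ hu hl hka hkb (d c⁻¹ (inv_ne_zero hc)) p 0
  rw [tau_d] at h
  simpa [x_zero S hkb, x_zero S hka] using h

lemma H4 (c : K) (hc : c ≠ 0) {k : ι} (hka : k ≠ a) (hkb : k ≠ b) (q : K) :
    ψ (d c hc) * x k b q * (ψ (d c hc))⁻¹ = x k b (c * q) := by
  have h := row_act S hab ψ hu hl hka hkb (d c⁻¹ (inv_ne_zero hc)) 0 q
  rw [tau_d] at h
  simpa [x_zero S hkb, x_zero S hka] using h

omit S hab hl in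
lemma H5 (c : K) (hc : c ≠ 0) (t : K) :
    ψ (d c hc) * x a b t * (ψ (d c hc))⁻¹ = x a b (c ^ 2 * t) := by
  rw [← hu, ← map_inv, ← map_mul, ← map_mul, d_u_d, hu]

omit S hab hu in
lemma H6 (c : K) (hc : c ≠ 0) (t : K) :
    ψ (d c hc) * x b a t * (ψ (d c hc))⁻¹ = x b a ((c⁻¹) ^ 2 * t) := by
  rw [← hl, ← map_inv, ← map_mul, ← map_mul, d_l_d', hl]

/-- the torus maps every root element to a root element of the same root group -/
theorem H_conj (c : K) (hc : c ≠ 0) {i j : ι} (hij : i ≠ j) (t : K) :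
    ∃ t', ψ (d c hc) * x i j t * (ψ (d c hc))⁻¹ = x i j t' := by
  by_cases hia : i = a
  · by_cases hjb : j = b
    · rw [hia, hjb]; exact ⟨_, H5 ψ hu c hc t⟩
    · rw [hia]; exact ⟨_, H1 S hab ψ hu hl c hc (hia ▸ hij.symm) hjb t⟩
  · by_cases hib : i = b
    · by_cases hja : j = a
      · rw [hib, hja]; exact ⟨_, H6 ψ hl c hc t⟩
      · rw [hib]; exact ⟨_, H2 S hab ψ hu hl c hc hja (hib ▸ hij.symm) t⟩
    · by_cases hja : j = a
      · rw [hja]; exact ⟨_, H3 S hab ψ hu hl c hc hia hib t⟩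
      · by_cases hjb : j = b
        · rw [hjb]; exact ⟨_, H4 S hab ψ hu hl c hc hia hib t⟩
        · exact ⟨t, comm_psi S hab ψ hu hl hij hia hib hja hjb _ t⟩

end sys

end Cfsg.Agent.Lib.Helper98.StN
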