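import Mathlib
import Cfsg.Agent.Lib.Helper98.StNA

set_option autoImplicit false
set_option linter.unusedSectionVars false

/-!
# Steinberg systems of type `A`: parabolic subgroups and the double coset set (helper98)

For a finite set `s` of indices and `a, b ∈ s`: `GS s` is generated by all root elements with
indices in `s`, `PS s a` by those outside column `a`, `QS s a b` by those outside columns `a, b`.
With `Pt = PS · Tor` we show that `GS s = Pt ∪ Pt w Pt` follows from the statement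
`w x_ab(t) m w ∈ Pt ∪ Pt w Pt` for `m ∈ GS (s.erase a)` (`closure_of_K2`).
-/

namespace Cfsg.Agent.Lib.Helper98.StN

open Matrix MatrixGroups
open Cfsg.Agent.Lib.Helper98.SL2Sub

variable {ι : Type*} [DecidableEq ι] {K : Type*} [Field K] {G : Type*} [Group G]

section defs

variable (x : ι → ι → K → G)

/-- root elements with indices in `s` -/
def gensG (s : Finset ι) : Set G := {g | ∃ i j t, i ∈ s ∧ j ∈ s ∧ i ≠ j ∧ g = x i j t}
/-- the subgroup generated by the root elements with indices in `s` -/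
def GS (s : Finset ι) : Subgroup G := Subgroup.closure (gensG x s)
/-- root elements outside column `a` -/
def gensP (s : Finset ι) (a : ι) : Set G :=
  {g | ∃ i j t, i ∈ s ∧ j ∈ s ∧ i ≠ j ∧ j ≠ a ∧ g = x i j t}
/-- the stabilizer-like subgroup -/
def PS (s : Finset ι) (a : ι) : Subgroup G := Subgroup.closure (gensP x s a)
/-- root elements outside columns `a, b` -/
def gensQ (s : Finset ι) (a b : ι) : Set G :=
  {g | ∃ i j t, i ∈ s ∧ j ∈ s ∧ i ≠ j ∧ j ≠ a ∧ j ≠ b ∧ g = x i j t}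
/-- the subgroup generated by the root elements outside columns `a, b` -/
def QS (s : Finset ι) (a b : ι) : Subgroup G := Subgroup.closure (gensQ x s a b)
/-- root elements in row `a` -/
def gensA (s : Finset ι) (a : ι) : Set G := {g | ∃ j t, j ∈ s ∧ j ≠ a ∧ g = x a j t}
/-- the subgroup generated by the root elements in row `a` -/
def AS (s : Finset ι) (a : ι) : Subgroup G := Subgroup.closure (gensA x s a)

/-- the torus of a copy of `SL(2, K)` -/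
def Tor (ψ : SL(2, K) →* G) : Subgroup G where
  carrier := {g | ∃ c, ∃ hc : c ≠ 0, g = ψ (d c hc)}
  one_mem' := ⟨1, one_ne_zero, by rw [d_one, map_one]⟩
  mul_mem' := by
    rintro _ _ ⟨c, hc, rfl⟩ ⟨e, he, rfl⟩
    exact ⟨c * e, mul_ne_zero hc he, by rw [← map_mul, d_mul]⟩
  inv_mem' := by
    rintro _ ⟨c, hc, rfl⟩
    exact ⟨c⁻¹, inv_ne_zero hc, by rw [← map_inv, d_inv]⟩

/-- the point stabilizer `PS · Tor` -/
def Pt (ψ : SL(2, K) →* G) (s : Finset ι) (a : ι) : Subgroup G := PS x s a ⊔ Tor ψ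

/-- the union of the two double cosets -/
def Dset (ψ : SL(2, K) →* G) (s : Finset ι) (a : ι) : Set G :=
  {g | g ∈ Pt x ψ s a ∨ ∃ L ∈ Pt x ψ s a, ∃ R ∈ Pt x ψ s a, g = L * ψ w * R}

end defs

variable {x : ι → ι → K → G}

/-- root subgroups -/
def Xs (Sy : Sys x) {i j : ι} (hij : i ≠ j) : Subgroup G where
  carrier := Set.range (x i j)
  one_mem' := ⟨0, x_zero Sy hij⟩
  mul_mem' := by
    rintro _ _ ⟨t, rfl⟩ ⟨u, rfl⟩
    exact ⟨t + u, (Sy.add i j hij t u).symm⟩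
  inv_mem' := by
    rintro _ ⟨t, rfl⟩
    exact ⟨-t, x_neg Sy hij t⟩

section incl

variable {s : Finset ι} {a b : ι}

lemma QS_le_PS : QS x s a b ≤ PS x s a := by
  apply Subgroup.closure_mono
  rintro g ⟨i, j, t, hi, hj, hij, hja, hjb, rfl⟩
  exact ⟨i, j, t, hi, hj, hij, hja, rfl⟩

lemma M_le_PS : GS x (s.erase a) ≤ PS x s a := by
  apply Subgroup.closure_mono
  rintro g ⟨i, j, t, hi, hj, hij, rfl⟩
  exact ⟨i, j, t, Finset.mem_of_mem_erase hi, Finset.mem_of_mem_erase hj, hij,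
    Finset.ne_of_mem_erase hj, rfl⟩

lemma PM_le_QS : PS x (s.erase a) b ≤ QS x s a b := by
  apply Subgroup.closure_mono
  rintro g ⟨i, j, t, hi, hj, hij, hjb, rfl⟩
  exact ⟨i, j, t, Finset.mem_of_mem_erase hi, Finset.mem_of_mem_erase hj, hij,
    Finset.ne_of_mem_erase hj, hjb, rfl⟩

lemma PS_le : PS x s a ≤ AS x s a ⊔ GS x (s.erase a) := by
  show Subgroup.closure (gensP x s a) ≤ _
  rw [Subgroup.closure_le]
  rintro g ⟨i, j, t, hi, hj, hij, hja, rfl⟩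
  by_cases hia : i = a
  · rw [hia]
    exact (le_sup_left : AS x s a ≤ _) (Subgroup.subset_closure ⟨j, t, hj, hja, rfl⟩)
  · exact (le_sup_right : GS x (s.erase a) ≤ _) (Subgroup.subset_closure
      ⟨i, j, t, Finset.mem_erase.mpr ⟨hia, hi⟩, Finset.mem_erase.mpr ⟨hja, hj⟩, hij, rfl⟩)

lemma gensP_closed : ∀ y ∈ gensP x s a, ∃ i j t, i ≠ j ∧ y = x i j t ∧ ∀ t', x i j t' ∈ gensP x s a := by
  rintro y ⟨i, j, t, hi, hj, hij, hja, rfl⟩
  exact ⟨i, j, t, hij, rfl, fun t' => ⟨i, j, t', hi, hj, hij, hja, rfl⟩⟩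

lemma gensQ_closed :
    ∀ y ∈ gensQ x s a b, ∃ i j t, i ≠ j ∧ y = x i j t ∧ ∀ t', x i j t' ∈ gensQ x s a b := by
  rintro y ⟨i, j, t, hi, hj, hij, hja, hjb, rfl⟩
  exact ⟨i, j, t, hij, rfl, fun t' => ⟨i, j, t', hi, hj, hij, hja, hjb, rfl⟩⟩

end incl

section chains

variable {H : Type*} [Group H]

lemma chain_a (W xt q h qt L₁ xt₁ H₁ : H) (A1 : xt * q = qt * xt) (A2 : W * qt = L₁ * W)
    (A3 : xt * h = h * xt₁) (A4 : W * h = h * H₁ * W) :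
    W * xt * (q * h) * W = (L₁ * h * H₁) * (W * xt₁ * W) * 1 := by
  calc W * xt * (q * h) * W = W * (xt * q) * h * W := by group
    _ = W * (qt * xt) * h * W := by rw [A1]
    _ = (W * qt) * (xt * h) * W := by group
    _ = (L₁ * W) * (h * xt₁) * W := by rw [A2, A3]
    _ = L₁ * (W * h) * xt₁ * W := by group
    _ = L₁ * (h * H₁ * W) * xt₁ * W := by rw [A4]
    _ = (L₁ * h * H₁) * (W * xt₁ * W) * 1 := by group

lemma chain_b (W W' xt q₁ h₁ q₂ h₂ qt L₁ xt₁ H₁ yt₁ H₂ q₂' q₂'' yt₂ zt₂ Hm : H)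
    (A1 : xt * q₁ = qt * xt) (A2 : W * qt = L₁ * W) (A3 : xt * h₁ = h₁ * xt₁)
    (A4 : W * h₁ = h₁ * H₁ * W) (A5 : xt₁ * W' = W' * yt₁) (A6 : h₂ * W = H₂⁻¹ * W * h₂)
    (A7 : q₂ * H₂⁻¹ = H₂⁻¹ * q₂') (A8 : q₂' * W = W * q₂'') (A9 : yt₁ * H₂⁻¹ = H₂⁻¹ * yt₂)
    (A10 : yt₂ * W = W * zt₂) (A11 : W' * H₂⁻¹ = H₂⁻¹ * h₂⁻¹ * W') (A12 : W * H₂⁻¹ = H₂ * W)
    (A13 : W * h₂⁻¹ = H₂⁻¹ * h₂⁻¹ * W) (A14 : W * W' * W = W'⁻¹ * W * (W' * Hm)) :
    W * xt * (q₁ * h₁ * W' * (q₂ * h₂)) * W =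
      (L₁ * h₁ * H₁ * h₂⁻¹ * W'⁻¹) * W * (W' * Hm * zt₂ * q₂'' * h₂) := by
  calc W * xt * (q₁ * h₁ * W' * (q₂ * h₂)) * W
      = W * (xt * q₁) * h₁ * W' * q₂ * (h₂ * W) := by group
    _ = W * (qt * xt) * h₁ * W' * q₂ * (H₂⁻¹ * W * h₂) := by rw [A1, A6]
    _ = (W * qt) * (xt * h₁) * W' * (q₂ * H₂⁻¹) * W * h₂ := by group
    _ = (L₁ * W) * (h₁ * xt₁) * W' * (H₂⁻¹ * q₂') * W * h₂ := by rw [A2, A3, A7]
    _ = L₁ * (W * h₁) * (xt₁ * W') * H₂⁻¹ * (q₂' * W) * h₂ := by group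
    _ = L₁ * (h₁ * H₁ * W) * (W' * yt₁) * H₂⁻¹ * (W * q₂'') * h₂ := by rw [A4, A5, A8]
    _ = L₁ * h₁ * H₁ * W * W' * (yt₁ * H₂⁻¹) * W * q₂'' * h₂ := by group
    _ = L₁ * h₁ * H₁ * W * W' * (H₂⁻¹ * yt₂) * W * q₂'' * h₂ := by rw [A9]
    _ = L₁ * h₁ * H₁ * W * (W' * H₂⁻¹) * (yt₂ * W) * q₂'' * h₂ := by group
    _ = L₁ * h₁ * H₁ * W * (H₂⁻¹ * h₂⁻¹ * W') * (W * zt₂) * q₂'' * h₂ := by rw [A11, A10]
    _ = L₁ * h₁ * H₁ * (W * H₂⁻¹) * h₂⁻¹ * W' * W * zt₂ * q₂'' * h₂ := by group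
    _ = L₁ * h₁ * H₁ * (H₂ * W) * h₂⁻¹ * W' * W * zt₂ * q₂'' * h₂ := by rw [A12]
    _ = L₁ * h₁ * H₁ * H₂ * (W * h₂⁻¹) * W' * W * zt₂ * q₂'' * h₂ := by group
    _ = L₁ * h₁ * H₁ * H₂ * (H₂⁻¹ * h₂⁻¹ * W) * W' * W * zt₂ * q₂'' * h₂ := by rw [A13]
    _ = L₁ * h₁ * H₁ * h₂⁻¹ * (W * W' * W) * zt₂ * q₂'' * h₂ := by group
    _ = L₁ * h₁ * H₁ * h₂⁻¹ * (W'⁻¹ * W * (W' * Hm)) * zt₂ * q₂'' * h₂ := by rw [A14]
    _ = (L₁ * h₁ * H₁ * h₂⁻¹ * W'⁻¹) * W * (W' * Hm * zt₂ * q₂'' * h₂) := by group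

end chains

section basic

variable (Sy : Sys x) {s : Finset ι} {a b : ι} (ha : a ∈ s) (hb : b ∈ s) (hab : a ≠ b)
  (ψ : SL(2, K) →* G) (hu : ∀ t, ψ (u t) = x a b t) (hl : ∀ t, ψ (l t) = x b a t)

include Sy hab hu hl in
/-- the torus normalizes every subgroup generated by full root groups -/
lemma tor_conj_mem (sB : Set G)
    (hs : ∀ y ∈ sB, ∃ i j t, i ≠ j ∧ y = x i j t ∧ ∀ t', x i j t' ∈ sB) (c : K) (hc : c ≠ 0) :
    ∀ y ∈ Subgroup.closure sB, ψ (d c hc) * y * (ψ (d c hc))⁻¹ ∈ Subgroup.closure sB := by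
  apply conj_closure
  intro y hy
  obtain ⟨i, j, t, hij, rfl, hall⟩ := hs y hy
  obtain ⟨t', ht'⟩ := H_conj Sy hab ψ hu hl c hc hij t
  rw [ht']; exact Subgroup.subset_closure (hall t')

include Sy hab hu hl in
lemma tor_PS (c : K) (hc : c ≠ 0) :
    ∀ y ∈ PS x s a, ψ (d c hc) * y * (ψ (d c hc))⁻¹ ∈ PS x s a :=
  tor_conj_mem Sy hab ψ hu hl _ gensP_closed c hc

include Sy hab hu hl in
lemma tor_QS (c : K) (hc : c ≠ 0) :
    ∀ y ∈ QS x s a b, ψ (d c hc) * y * (ψ (d c hc))⁻¹ ∈ QS x s a b :=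
  tor_conj_mem Sy hab ψ hu hl _ gensQ_closed c hc

include Sy hab hu hl in
lemma mem_Pt {g : G} (hg : g ∈ Pt x ψ s a) :
    ∃ p ∈ PS x s a, ∃ c, ∃ hc : c ≠ 0, g = p * ψ (d c hc) := by
  have hn : ∀ m ∈ Tor ψ, ∀ y ∈ PS x s a, m * y * m⁻¹ ∈ PS x s a := by
    rintro m ⟨c, hc, rfl⟩ y hy
    exact tor_PS Sy hab ψ hu hl c hc y hy
  obtain ⟨p, hp, m, ⟨c, hc, rfl⟩, rfl⟩ := mem_mul_of_norm (PS x s a) (Tor ψ) hn g hg
  exact ⟨p, hp, c, hc, rfl⟩

include Sy ha hb hab hu hl in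
lemma W_QS : ∀ y ∈ QS x s a b, ψ w * y * (ψ w)⁻¹ ∈ QS x s a b := by
  apply conj_closure
  rintro y ⟨i, j, t, hi, hj, hij, hja, hjb, rfl⟩
  by_cases hia : i = a
  · rw [hia, W1 Sy hab ψ hu hl hja hjb]
    exact Subgroup.subset_closure ⟨b, j, -t, hb, hj, hjb.symm, hja, hjb, rfl⟩
  · by_cases hib : i = b
    · rw [hib, W2 Sy hab ψ hu hl hja hjb]
      exact Subgroup.subset_closure ⟨a, j, t, ha, hj, hja.symm, hja, hjb, rfl⟩
    · rw [comm_psi Sy hab ψ hu hl hij hia hib hja hjb]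
      exact Subgroup.subset_closure ⟨i, j, t, hi, hj, hij, hja, hjb, rfl⟩

include Sy ha hb hab hu hl in
lemma Winv_QS : ∀ y ∈ QS x s a b, (ψ w)⁻¹ * y * ψ w ∈ QS x s a b := by
  have key : ∀ y ∈ QS x s a b, (ψ w)⁻¹ * y * ((ψ w)⁻¹)⁻¹ ∈ QS x s a b := by
    apply conj_closure
    rintro y ⟨i, j, t, hi, hj, hij, hja, hjb, rfl⟩
    rw [inv_inv]
    by_cases hia : i = a
    · have e : x a j t = ψ w * x b j t * (ψ w)⁻¹ := (W2 Sy hab ψ hu hl hja hjb t).symm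
      have e2 : (ψ w)⁻¹ * (ψ w * x b j t * (ψ w)⁻¹) * ψ w = x b j t := by group
      rw [hia, e, e2]
      exact Subgroup.subset_closure ⟨b, j, t, hb, hj, hjb.symm, hja, hjb, rfl⟩
    · by_cases hib : i = b
      · have e : x b j t = ψ w * x a j (-t) * (ψ w)⁻¹ := by
          rw [W1 Sy hab ψ hu hl hja hjb, neg_neg]
        have e2 : (ψ w)⁻¹ * (ψ w * x a j (-t) * (ψ w)⁻¹) * ψ w = x a j (-t) := by group
        rw [hib, e, e2]
        exact Subgroup.subset_closure ⟨a, j, -t, ha, hj, hja.symm, hja, hjb, rfl⟩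
      · have e := comm_psi Sy hab ψ hu hl hij hia hib hja hjb w⁻¹ t
        rw [map_inv, inv_inv] at e
        rw [e]
        exact Subgroup.subset_closure ⟨i, j, t, hi, hj, hij, hja, hjb, rfl⟩
  intro y hy
  have h := key y hy
  rwa [inv_inv] at h

include Sy ha hb hab in
lemma xab_QS (t : K) : ∀ y ∈ QS x s a b, x a b t * y * (x a b t)⁻¹ ∈ QS x s a b := by
  apply conj_closure
  rintro y ⟨i, j, u', hi, hj, hij, hja, hjb, rfl⟩
  by_cases hib : i = b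
  · rw [hib, conj_r Sy hab hjb.symm hja.symm]
    exact Subgroup.mul_mem _
      (Subgroup.subset_closure ⟨a, j, _, ha, hj, hja.symm, hja, hjb, rfl⟩)
      (Subgroup.subset_closure ⟨b, j, _, hb, hj, hjb.symm, hja, hjb, rfl⟩)
  · have e : x a b t * x i j u' = x i j u' * x a b t :=
      Sy.comm a b i j hab hij hja.symm (Ne.symm hib) t u'
    have e2 : x a b t * x i j u' * (x a b t)⁻¹ = x i j u' := by rw [e]; group
    rw [e2]
    exact Subgroup.subset_closure ⟨i, j, u', hi, hj, hij, hja, hjb, rfl⟩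

include Sy in
lemma M_norm_AS : ∀ m ∈ GS x (s.erase a), ∀ y ∈ AS x s a, m * y * m⁻¹ ∈ AS x s a := by
  have key : ∀ i l, i ∈ s → l ∈ s → i ≠ a → l ≠ a → i ≠ l → ∀ t, ∀ y ∈ AS x s a,
      x i l t * y * (x i l t)⁻¹ ∈ AS x s a := by
    intro i l hi hl' hia hla hil t
    apply conj_closure
    rintro y ⟨j, u', hj, hja, rfl⟩
    by_cases hji : j = i
    · rw [hji, conj_l Sy hil (Ne.symm hia) (Ne.symm hla)]
      exact Subgroup.mul_mem _ (Subgroup.subset_closure ⟨i, _, hi, hia, rfl⟩)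
        (Subgroup.subset_closure ⟨l, _, hl', hla, rfl⟩)
    · have e : x i l t * x a j u' = x a j u' * x i l t :=
        Sy.comm i l a j hil (Ne.symm hja) (Ne.symm hji) hla t u'
      have e2 : x i l t * x a j u' * (x i l t)⁻¹ = x a j u' := by rw [e]; group
      rw [e2]
      exact Subgroup.subset_closure ⟨j, u', hj, hja, rfl⟩
  intro m hm
  refine (norm_closure (AS x s a) (gensG x (s.erase a)) ?_ m hm).1
  rintro m ⟨i, l, t, hi, hl', hil, rfl⟩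
  have hi' := Finset.mem_of_mem_erase hi
  have hl'' := Finset.mem_of_mem_erase hl'
  have hia := Finset.ne_of_mem_erase hi
  have hla := Finset.ne_of_mem_erase hl'
  refine ⟨key i l hi' hl'' hia hla hil t, ?_⟩
  intro y hy
  have h := key i l hi' hl'' hia hla hil (-t) y hy
  rwa [x_neg Sy hil, inv_inv] at h

include ha in
lemma AS_le : AS x s a ≤ QS x s a b ⊔ Xs Sy hab := by
  show Subgroup.closure (gensA x s a) ≤ _
  rw [Subgroup.closure_le]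
  rintro g ⟨j, t, hj, hja, rfl⟩
  by_cases hjb : j = b
  · rw [hjb]; exact (le_sup_right : Xs Sy hab ≤ _) ⟨t, rfl⟩
  · exact (le_sup_left : QS x s a b ≤ _)
      (Subgroup.subset_closure ⟨a, j, t, ha, hj, hja.symm, hja, hjb, rfl⟩)

include Sy in
/-- `PS = AS · GS (s.erase a)` -/
lemma PS_decomp0 {p : G} (hp : p ∈ PS x s a) :
    ∃ a₀ ∈ AS x s a, ∃ m ∈ GS x (s.erase a), p = a₀ * m :=
  mem_mul_of_norm (AS x s a) (GS x (s.erase a)) (M_norm_AS Sy) p (PS_le hp)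

include Sy ha hb hab in
lemma PS_decomp {p : G} (hp : p ∈ PS x s a) :
    ∃ q ∈ QS x s a b, ∃ t, ∃ m ∈ GS x (s.erase a), p = q * x a b t * m := by
  obtain ⟨a₀, ha₀, m, hm, rfl⟩ := PS_decomp0 Sy hp
  have hn : ∀ y ∈ Xs Sy hab, ∀ z ∈ QS x s a b, y * z * y⁻¹ ∈ QS x s a b := by
    rintro y ⟨t, rfl⟩ z hz
    exact xab_QS Sy ha hb hab t z hz
  obtain ⟨q, hq, y, ⟨t, rfl⟩, rfl⟩ :=
    mem_mul_of_norm (QS x s a b) (Xs Sy hab) hn a₀ (AS_le Sy ha hab ha₀)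
  exact ⟨q, hq, t, m, hm, rfl⟩

/-! ### the double coset set -/

omit [DecidableEq ι] in
lemma D_left {L y : G} (hL : L ∈ Pt x ψ s a) (hy : y ∈ Dset x ψ s a) : L * y ∈ Dset x ψ s a := by
  rcases hy with hy | ⟨L', hL', R, hR, rfl⟩
  · exact Or.inl (mul_mem hL hy)
  · exact Or.inr ⟨L * L', mul_mem hL hL', R, hR, by group⟩

omit [DecidableEq ι] in
lemma D_right {R y : G} (hR : R ∈ Pt x ψ s a) (hy : y ∈ Dset x ψ s a) : y * R ∈ Dset x ψ s a := by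
  rcases hy with hy | ⟨L', hL', R', hR', rfl⟩
  · exact Or.inl (mul_mem hy hR)
  · exact Or.inr ⟨L', hL', R' * R, mul_mem hR' hR, by group⟩

omit [DecidableEq ι] in
lemma D_dc {y y' L R : G} (hL : L ∈ Pt x ψ s a) (hR : R ∈ Pt x ψ s a) (hy : y ∈ Dset x ψ s a)
    (h : y' = L * y * R) : y' ∈ Dset x ψ s a := by
  rw [h]; exact D_right ψ hR (D_left ψ hL hy)

omit [DecidableEq ι] in
lemma PS_le_Pt : PS x s a ≤ Pt x ψ s a := le_sup_left

omit [DecidableEq ι] in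
lemma Tor_le_Pt : Tor ψ ≤ Pt x ψ s a := le_sup_right

omit [DecidableEq ι] in
lemma tor_mem (c : K) (hc : c ≠ 0) : ψ (d c hc) ∈ Tor ψ := ⟨c, hc, rfl⟩

include ha hb hab in
omit [DecidableEq ι] in
lemma xab_mem (t : K) : x a b t ∈ PS x s a :=
  Subgroup.subset_closure ⟨a, b, t, ha, hb, hab, hab.symm, rfl⟩

include Sy ha hb hab hu in
/-- the rank one computation -/
lemma rank_one (t : K) : ψ w * x a b t * ψ w ∈ Dset x ψ s a := by
  by_cases ht : t = 0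
  · left
    rw [ht, x_zero Sy hab, mul_one, ← map_mul, w_sq]
    exact Tor_le_Pt ψ (tor_mem ψ _ _)
  · right
    have hx : ∀ t', x a b t' ∈ Pt x ψ s a := fun t' => PS_le_Pt ψ (xab_mem ha hb hab t')
    refine ⟨x a b (-t⁻¹) * ψ (d (-t⁻¹) (neg_ne_zero.mpr (inv_ne_zero ht))),
      mul_mem (hx _) (Tor_le_Pt ψ (tor_mem ψ _ _)), x a b (-t⁻¹), hx _, ?_⟩
    rw [← hu t, ← hu (-t⁻¹)]
    simp only [← map_mul]
    rw [w_u_w' t ht]

include Sy ha hb hab hu hl in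
/-- **Reduction.**  The double coset decomposition of `GS s` follows from its key case. -/
theorem closure_of_K2
    (hK2 : ∀ t, ∀ m ∈ GS x (s.erase a), ψ w * x a b t * m * ψ w ∈ Dset x ψ s a) :
    ∀ g ∈ GS x s, g ∈ Dset x ψ s a := by
  -- `w p w ∈ D` for `p ∈ PS`
  have hK1 : ∀ p ∈ PS x s a, ψ w * p * ψ w ∈ Dset x ψ s a := by
    intro p hp
    obtain ⟨q, hq, t, m, hm, rfl⟩ := PS_decomp Sy ha hb hab hp
    refine D_dc ψ (PS_le_Pt ψ (QS_le_PS (W_QS Sy ha hb hab ψ hu hl q hq))) (one_mem _)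
      (hK2 t m hm) ?_
    group
  have hWd : ∀ c, ∀ hc : c ≠ 0, ψ (d c hc) * ψ w = ψ w * ψ (d c⁻¹ (inv_ne_zero hc)) := by
    intro c hc
    have h1 := w_d c⁻¹ (inv_ne_zero hc)
    have h2 : d (c⁻¹)⁻¹ (inv_ne_zero (inv_ne_zero hc)) = d c hc := by
      apply sl2_ext <;> simp
    rw [h2] at h1
    rw [← map_mul, ← map_mul, h1]
  have hKEY : ∀ L ∈ Pt x ψ s a, ψ w * L * ψ w ∈ Dset x ψ s a := by
    intro L hL
    obtain ⟨p, hp, c, hc, rfl⟩ := mem_Pt Sy hab ψ hu hl hL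
    have e : ψ w * (p * ψ (d c hc)) * ψ w = (ψ w * p * ψ w) * ψ (d c⁻¹ (inv_ne_zero hc)) := by
      calc ψ w * (p * ψ (d c hc)) * ψ w = ψ w * p * (ψ (d c hc) * ψ w) := by group
        _ = ψ w * p * (ψ w * ψ (d c⁻¹ (inv_ne_zero hc))) := by rw [hWd]
        _ = (ψ w * p * ψ w) * ψ (d c⁻¹ (inv_ne_zero hc)) := by group
    rw [e]
    exact D_right ψ (Tor_le_Pt ψ (tor_mem ψ _ _)) (hK1 p hp)
  have hW1 : ∀ y ∈ Dset x ψ s a, ψ w * y ∈ Dset x ψ s a := by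
    rintro y (hy | ⟨L, hL, R, hR, rfl⟩)
    · exact Or.inr ⟨1, one_mem _, y, hy, by group⟩
    · have e : ψ w * (L * ψ w * R) = (ψ w * L * ψ w) * R := by group
      rw [e]
      exact D_right ψ hR (hKEY L hL)
  have hW2 : ∀ y ∈ Dset x ψ s a, (ψ w)⁻¹ * y ∈ Dset x ψ s a := by
    intro y hy
    have hsq : ψ w * ψ w = ψ (d (-1) (neg_ne_zero.mpr one_ne_zero)) := by
      rw [← map_mul, w_sq]
    have e : (ψ w)⁻¹ * y = (ψ (d (-1) (neg_ne_zero.mpr one_ne_zero)))⁻¹ * (ψ w * y) := by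
      rw [← hsq]; group
    rw [e]
    exact D_left ψ (inv_mem (Tor_le_Pt ψ (tor_mem ψ _ _))) (hW1 y hy)
  let St : Subgroup G :=
    { carrier := {g | (∀ y ∈ Dset x ψ s a, g * y ∈ Dset x ψ s a) ∧
        (∀ y ∈ Dset x ψ s a, g⁻¹ * y ∈ Dset x ψ s a)}
      one_mem' := by
        constructor
        · intro y hy; rw [one_mul]; exact hy
        · intro y hy; rw [inv_one, one_mul]; exact hy
      mul_mem' := by
        rintro g h ⟨hg1, hg2⟩ ⟨hh1, hh2⟩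
        constructor
        · intro y hy; rw [mul_assoc]; exact hg1 _ (hh1 y hy)
        · intro y hy; rw [_root_.mul_inv_rev, mul_assoc]; exact hh2 _ (hg2 y hy)
      inv_mem' := by
        rintro g ⟨hg1, hg2⟩
        exact ⟨hg2, fun y hy => by rw [inv_inv]; exact hg1 y hy⟩ }
  have hPt : ∀ L ∈ Pt x ψ s a, L ∈ St := fun L hL =>
    ⟨fun y hy => D_left ψ hL hy, fun y hy => D_left ψ (inv_mem hL) hy⟩
  have hWS : ψ w ∈ St := ⟨hW1, hW2⟩
  have hba : ∀ t, x b a t ∈ St := by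
    intro t
    have e : x b a t = ψ w * x a b (-t) * (ψ w)⁻¹ := by
      rw [← hl, l_eq, map_mul, map_mul, map_inv, hu]
    rw [e]
    exact St.mul_mem (St.mul_mem hWS (hPt _ (PS_le_Pt ψ (xab_mem ha hb hab _)))) (St.inv_mem hWS)
  have hle : GS x s ≤ St := by
    show Subgroup.closure (gensG x s) ≤ St
    rw [Subgroup.closure_le]
    rintro g ⟨i, j, t, hi, hj, hij, rfl⟩
    by_cases hja : j = a
    · by_cases hib : i = b
      · rw [hja, hib]; exact hba t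
      · have hia : i ≠ a := fun h => hij (h.trans hja.symm)
        have e := Sy.comm3 i b a hib hab.symm hia t 1
        rw [mul_one] at e
        rw [hja, ← e]
        have h1 : x i b t ∈ St :=
          hPt _ (PS_le_Pt ψ (Subgroup.subset_closure ⟨i, b, t, hi, hb, hib, hab.symm, rfl⟩))
        exact St.mul_mem (St.mul_mem (St.mul_mem h1 (hba 1)) (St.inv_mem h1)) (St.inv_mem (hba 1))
    · exact hPt _ (PS_le_Pt ψ (Subgroup.subset_closure ⟨i, j, t, hi, hj, hij, hja, rfl⟩))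
  intro g hg
  have h := (hle hg).1 1 (Or.inl (one_mem _))
  rwa [mul_one] at h

end basic

end Cfsg.Agent.Lib.Helper98.StN
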