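import Mathlib
import Cfsg.Agent.Lib.Helper98.StNB

set_option autoImplicit false
set_option linter.unusedSectionVars false

/-!
# Steinberg systems of type `A`: the double coset decomposition (helper98)

`str`: for a Steinberg system, `GS s = Pt ∪ Pt w Pt` where `Pt = PS s a · Tor`, for every finite
set `s` of indices and `a ≠ b` in `s`.  The proof is by induction on the size of `s`, using the
relations between the Weyl elements and tori of two adjacent copies of `SL(2, K)`.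
-/

namespace Cfsg.Agent.Lib.Helper98.StN

open Matrix MatrixGroups
open Cfsg.Agent.Lib.Helper98.SL2Sub

variable {ι : Type*} [DecidableEq ι] {K : Type*} [Field K] {G : Type*} [Group G]
variable {x : ι → ι → K → G}

section one

variable {a b : ι} (ψ : SL(2, K) →* G)
  (hu : ∀ t, ψ (u t) = x a b t) (hl : ∀ t, ψ (l t) = x b a t)

include hu hl

lemma psi_w : ψ w = x a b 1 * x b a (-1) * x a b 1 := by
  rw [w_eq', map_mul, map_mul, hu, hl]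

lemma nform (e : K) (he : e ≠ 0) :
    x a b e⁻¹ * x b a (-e) * x a b e⁻¹ = (ψ (d e he))⁻¹ * ψ w := by
  have h := n_eq e⁻¹ (inv_ne_zero he)
  rw [inv_inv] at h
  rw [← map_inv, d_inv, ← map_mul, ← h, map_mul, map_mul, hu, hl]

lemma nform' (e : K) (he : e ≠ 0) :
    x a b e * x b a (-e⁻¹) * x a b e = ψ (d e he) * ψ w := by
  rw [← map_mul, ← n_eq e he, map_mul, map_mul, hu, hl]

omit hu hl in
lemma w_tor (e : K) (he : e ≠ 0) : ψ w * (ψ (d e he))⁻¹ = ψ (d e he) * ψ w := by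
  have h : ψ w * ψ (d e he) = (ψ (d e he))⁻¹ * ψ w := by
    rw [← map_mul, w_d, map_mul, ← d_inv, map_inv]
  calc ψ w * (ψ (d e he))⁻¹ = ψ (d e he) * ((ψ (d e he))⁻¹ * ψ w) * (ψ (d e he))⁻¹ := by group
    _ = ψ (d e he) * (ψ w * ψ (d e he)) * (ψ (d e he))⁻¹ := by rw [h]
    _ = ψ (d e he) * ψ w := by group

end one

section rules

variable (Sy : Sys x) {a b c : ι} (hab : a ≠ b) (hac : a ≠ c) (hbc : b ≠ c)
  (ψ : SL(2, K) →* G) (hu : ∀ t, ψ (u t) = x a b t) (hl : ∀ t, ψ (l t) = x b a t)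
  (ψ' : SL(2, K) →* G) (hu' : ∀ t, ψ' (u t) = x b c t) (hl' : ∀ t, ψ' (l t) = x c b t)

include Sy hab hac hbc hu hl hu' hl'

lemma ruleC_aux (e : K) (he : e ≠ 0) :
    ψ' (d e he) * ψ w * (ψ' (d e he))⁻¹ = x a b e⁻¹ * x b a (-e) * x a b e⁻¹ := by
  have h1 := H3 Sy hbc ψ' hu' hl' e he hab hac (1 : K)
  have h2 := H1 Sy hbc ψ' hu' hl' e he hab hac (-1 : K)
  rw [mul_one] at h1
  rw [mul_neg_one] at h2
  calc ψ' (d e he) * ψ w * (ψ' (d e he))⁻¹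
      = ψ' (d e he) * (x a b 1 * x b a (-1) * x a b 1) * (ψ' (d e he))⁻¹ := by
        rw [psi_w ψ hu hl]
    _ = (ψ' (d e he) * x a b 1 * (ψ' (d e he))⁻¹) * (ψ' (d e he) * x b a (-1) * (ψ' (d e he))⁻¹)
          * (ψ' (d e he) * x a b 1 * (ψ' (d e he))⁻¹) := by group
    _ = x a b e⁻¹ * x b a (-e) * x a b e⁻¹ := by rw [h1, h2]

lemma ruleC (e : K) (he : e ≠ 0) :
    ψ' (d e he) * ψ w * (ψ' (d e he))⁻¹ = (ψ (d e he))⁻¹ * ψ w := by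
  rw [ruleC_aux Sy hab hac hbc ψ hu hl ψ' hu' hl' e he, nform ψ hu hl e he]

lemma ruleCi (e : K) (he : e ≠ 0) :
    (ψ' (d e he))⁻¹ * ψ w * ψ' (d e he) = ψ (d e he) * ψ w := by
  have h := ruleC_aux Sy hab hac hbc ψ hu hl ψ' hu' hl' e⁻¹ (inv_ne_zero he)
  have hd : ψ' (d e⁻¹ (inv_ne_zero he)) = (ψ' (d e he))⁻¹ := by rw [← map_inv, d_inv]
  rw [hd] at h
  simp only [inv_inv] at h
  rw [h, nform' ψ hu hl e he]

lemma ruleD (e : K) (he : e ≠ 0) :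
    ψ (d e he) * ψ' w * (ψ (d e he))⁻¹ = (ψ' (d e he))⁻¹ * ψ' w := by
  have h1 := H2 Sy hab ψ hu hl e he hac.symm hbc.symm (1 : K)
  have h2 := H4 Sy hab ψ hu hl e he hac.symm hbc.symm (-1 : K)
  rw [mul_one] at h1
  rw [mul_neg_one] at h2
  calc ψ (d e he) * ψ' w * (ψ (d e he))⁻¹
      = ψ (d e he) * (x b c 1 * x c b (-1) * x b c 1) * (ψ (d e he))⁻¹ := by
        rw [psi_w ψ' hu' hl']
    _ = (ψ (d e he) * x b c 1 * (ψ (d e he))⁻¹) * (ψ (d e he) * x c b (-1) * (ψ (d e he))⁻¹)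
          * (ψ (d e he) * x b c 1 * (ψ (d e he))⁻¹) := by group
    _ = x b c e⁻¹ * x c b (-e) * x b c e⁻¹ := by rw [h1, h2]
    _ = (ψ' (d e he))⁻¹ * ψ' w := nform ψ' hu' hl' e he

lemma ruleE : ψ w * ψ' w * (ψ w)⁻¹ = (ψ' w)⁻¹ * ψ w * ψ' w := by
  have e1 := W2 Sy hab ψ hu hl hac.symm hbc.symm (1 : K)
  have e2 := W4 Sy hab ψ hu hl hac.symm hbc.symm (-1 : K)
  have e3 := W4 Sy hbc ψ' hu' hl' hab hac (1 : K)
  have e4 := W2 Sy hbc ψ' hu' hl' hab hac (-1 : K)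
  calc ψ w * ψ' w * (ψ w)⁻¹
      = ψ w * (x b c 1 * x c b (-1) * x b c 1) * (ψ w)⁻¹ := by rw [psi_w ψ' hu' hl']
    _ = (ψ w * x b c 1 * (ψ w)⁻¹) * (ψ w * x c b (-1) * (ψ w)⁻¹) * (ψ w * x b c 1 * (ψ w)⁻¹) := by
        group
    _ = x a c 1 * x c a (-1) * x a c 1 := by rw [e1, e2]
    _ = (ψ' w)⁻¹ * ((ψ' w * x a c 1 * (ψ' w)⁻¹) * (ψ' w * x c a (-1) * (ψ' w)⁻¹)
          * (ψ' w * x a c 1 * (ψ' w)⁻¹)) * ψ' w := by group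
    _ = (ψ' w)⁻¹ * (x a b 1 * x b a (-1) * x a b 1) * ψ' w := by rw [e3, e4]
    _ = (ψ' w)⁻¹ * ψ w * ψ' w := by rw [psi_w ψ hu hl]

variable {s : Finset ι} (ha : a ∈ s) (hb : b ∈ s) (hc : c ∈ s)

include ha hb hc

omit Sy hu hl in
lemma psi'_mem (g : SL(2, K)) : ψ' g ∈ GS x (s.erase a) :=
  psi_mem ψ' hu' hl' (GS x (s.erase a))
    (fun t => Subgroup.subset_closure ⟨b, c, t, Finset.mem_erase.mpr ⟨hab.symm, hb⟩,
      Finset.mem_erase.mpr ⟨hac.symm, hc⟩, hbc, rfl⟩)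
    (fun t => Subgroup.subset_closure ⟨c, b, t, Finset.mem_erase.mpr ⟨hac.symm, hc⟩,
      Finset.mem_erase.mpr ⟨hab.symm, hb⟩, hbc.symm, rfl⟩) g

lemma k2a (t : K) {q : G} (hq : q ∈ PS x (s.erase a) b) (e : K) (he : e ≠ 0) :
    ψ w * x a b t * (q * ψ' (d e he)) * ψ w ∈ Dset x ψ s a := by
  have hqQ : q ∈ QS x s a b := PM_le_QS hq
  have hqt : x a b t * q * (x a b t)⁻¹ ∈ QS x s a b := xab_QS Sy ha hb hab t q hqQ
  have hL₁ : ψ w * (x a b t * q * (x a b t)⁻¹) * (ψ w)⁻¹ ∈ QS x s a b :=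
    W_QS Sy ha hb hab ψ hu hl _ hqt
  have A3 : x a b t * ψ' (d e he) = ψ' (d e he) * x a b (e * t) := by
    have h := H3 Sy hbc ψ' hu' hl' e he hab hac (e * t)
    rw [inv_mul_cancel_left₀ he] at h
    rw [← h]; group
  have A4 : ψ w * ψ' (d e he) = ψ' (d e he) * ψ (d e he) * ψ w := by
    have h := ruleCi Sy hab hac hbc ψ hu hl ψ' hu' hl' e he
    calc ψ w * ψ' (d e he) = ψ' (d e he) * ((ψ' (d e he))⁻¹ * ψ w * ψ' (d e he)) := by group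
      _ = ψ' (d e he) * ψ (d e he) * ψ w := by rw [h]; group
  have hch := chain_a (ψ w) (x a b t) q (ψ' (d e he)) (x a b t * q * (x a b t)⁻¹)
    (ψ w * (x a b t * q * (x a b t)⁻¹) * (ψ w)⁻¹) (x a b (e * t)) (ψ (d e he))
    (by group) (by group) A3 A4
  have hh' : ψ' (d e he) ∈ Pt x ψ s a :=
    PS_le_Pt ψ (M_le_PS (psi'_mem hab hac hbc ψ' hu' hl' ha hb hc _))
  exact D_dc ψ (mul_mem (mul_mem (PS_le_Pt ψ (QS_le_PS hL₁)) hh') (Tor_le_Pt ψ (tor_mem ψ e he)))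
    (one_mem _) (rank_one Sy ha hb hab ψ hu (e * t)) hch

lemma k2b (t : K) {q₁ q₂ : G} (hq₁ : q₁ ∈ PS x (s.erase a) b) (hq₂ : q₂ ∈ PS x (s.erase a) b)
    (e₁ : K) (he₁ : e₁ ≠ 0) (e₂ : K) (he₂ : e₂ ≠ 0) :
    ψ w * x a b t * (q₁ * ψ' (d e₁ he₁) * ψ' w * (q₂ * ψ' (d e₂ he₂))) * ψ w ∈ Dset x ψ s a := by
  have hq₁Q : q₁ ∈ QS x s a b := PM_le_QS hq₁
  have hq₂Q : q₂ ∈ QS x s a b := PM_le_QS hq₂
  have hqt : x a b t * q₁ * (x a b t)⁻¹ ∈ QS x s a b := xab_QS Sy ha hb hab t q₁ hq₁Q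
  have hL₁ : ψ w * (x a b t * q₁ * (x a b t)⁻¹) * (ψ w)⁻¹ ∈ QS x s a b :=
    W_QS Sy ha hb hab ψ hu hl _ hqt
  have hq₂' : ψ (d e₂ he₂) * q₂ * (ψ (d e₂ he₂))⁻¹ ∈ QS x s a b :=
    tor_QS Sy hab ψ hu hl e₂ he₂ q₂ hq₂Q
  have hq₂'' : (ψ w)⁻¹ * (ψ (d e₂ he₂) * q₂ * (ψ (d e₂ he₂))⁻¹) * ψ w ∈ QS x s a b :=
    Winv_QS Sy ha hb hab ψ hu hl _ hq₂'
  have A3 : x a b t * ψ' (d e₁ he₁) = ψ' (d e₁ he₁) * x a b (e₁ * t) := by
    have h := H3 Sy hbc ψ' hu' hl' e₁ he₁ hab hac (e₁ * t)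
    rw [inv_mul_cancel_left₀ he₁] at h
    rw [← h]; group
  have A4 : ψ w * ψ' (d e₁ he₁) = ψ' (d e₁ he₁) * ψ (d e₁ he₁) * ψ w := by
    have h := ruleCi Sy hab hac hbc ψ hu hl ψ' hu' hl' e₁ he₁
    calc ψ w * ψ' (d e₁ he₁)
        = ψ' (d e₁ he₁) * ((ψ' (d e₁ he₁))⁻¹ * ψ w * ψ' (d e₁ he₁)) := by group
      _ = ψ' (d e₁ he₁) * ψ (d e₁ he₁) * ψ w := by rw [h]; group
  have A5 : x a b (e₁ * t) * ψ' w = ψ' w * x a c (e₁ * t) := by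
    have h := W4 Sy hbc ψ' hu' hl' hab hac (e₁ * t)
    rw [← h]; group
  have A6 : ψ' (d e₂ he₂) * ψ w = (ψ (d e₂ he₂))⁻¹ * ψ w * ψ' (d e₂ he₂) := by
    have h := ruleC Sy hab hac hbc ψ hu hl ψ' hu' hl' e₂ he₂
    calc ψ' (d e₂ he₂) * ψ w
        = (ψ' (d e₂ he₂) * ψ w * (ψ' (d e₂ he₂))⁻¹) * ψ' (d e₂ he₂) := by group
      _ = (ψ (d e₂ he₂))⁻¹ * ψ w * ψ' (d e₂ he₂) := by rw [h]
  have A9 : x a c (e₁ * t) * (ψ (d e₂ he₂))⁻¹ = (ψ (d e₂ he₂))⁻¹ * x a c (e₂ * (e₁ * t)) := by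
    have h := H1 Sy hab ψ hu hl e₂ he₂ hac.symm hbc.symm (e₁ * t)
    rw [← h]; group
  have A10 : x a c (e₂ * (e₁ * t)) * ψ w = ψ w * x b c (e₂ * (e₁ * t)) := by
    have h := W2 Sy hab ψ hu hl hac.symm hbc.symm (e₂ * (e₁ * t))
    rw [← h]; group
  have A11 : ψ' w * (ψ (d e₂ he₂))⁻¹ = (ψ (d e₂ he₂))⁻¹ * (ψ' (d e₂ he₂))⁻¹ * ψ' w := by
    have h := ruleD Sy hab hac hbc ψ hu hl ψ' hu' hl' e₂ he₂
    calc ψ' w * (ψ (d e₂ he₂))⁻¹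
        = (ψ (d e₂ he₂))⁻¹ * (ψ (d e₂ he₂) * ψ' w * (ψ (d e₂ he₂))⁻¹) := by group
      _ = (ψ (d e₂ he₂))⁻¹ * (ψ' (d e₂ he₂))⁻¹ * ψ' w := by rw [h]; group
  have A12 : ψ w * (ψ (d e₂ he₂))⁻¹ = ψ (d e₂ he₂) * ψ w := w_tor ψ e₂ he₂
  have A13 : ψ w * (ψ' (d e₂ he₂))⁻¹ = (ψ (d e₂ he₂))⁻¹ * (ψ' (d e₂ he₂))⁻¹ * ψ w := by
    have h := ruleCi Sy hab hac hbc ψ hu hl ψ' hu' hl' e₂ he₂
    calc ψ w * (ψ' (d e₂ he₂))⁻¹
        = (ψ (d e₂ he₂))⁻¹ * (ψ (d e₂ he₂) * ψ w) * (ψ' (d e₂ he₂))⁻¹ := by group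
      _ = (ψ (d e₂ he₂))⁻¹ * ((ψ' (d e₂ he₂))⁻¹ * ψ w * ψ' (d e₂ he₂)) * (ψ' (d e₂ he₂))⁻¹ := by
          rw [h]
      _ = (ψ (d e₂ he₂))⁻¹ * (ψ' (d e₂ he₂))⁻¹ * ψ w := by group
  have A14 : ψ w * ψ' w * ψ w =
      (ψ' w)⁻¹ * ψ w * (ψ' w * ψ (d (-1) (neg_ne_zero.mpr one_ne_zero))) := by
    have h := ruleE Sy hab hac hbc ψ hu hl ψ' hu' hl'
    have hsq : ψ w * ψ w = ψ (d (-1) (neg_ne_zero.mpr one_ne_zero)) := by
      rw [← map_mul, w_sq]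
    calc ψ w * ψ' w * ψ w = (ψ w * ψ' w * (ψ w)⁻¹) * (ψ w * ψ w) := by group
      _ = (ψ' w)⁻¹ * ψ w * ψ' w * ψ (d (-1) (neg_ne_zero.mpr one_ne_zero)) := by rw [h, hsq]
      _ = (ψ' w)⁻¹ * ψ w * (ψ' w * ψ (d (-1) (neg_ne_zero.mpr one_ne_zero))) := by group
  have hch := chain_b (ψ w) (ψ' w) (x a b t) q₁ (ψ' (d e₁ he₁)) q₂ (ψ' (d e₂ he₂))
    (x a b t * q₁ * (x a b t)⁻¹) (ψ w * (x a b t * q₁ * (x a b t)⁻¹) * (ψ w)⁻¹)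
    (x a b (e₁ * t)) (ψ (d e₁ he₁)) (x a c (e₁ * t)) (ψ (d e₂ he₂))
    (ψ (d e₂ he₂) * q₂ * (ψ (d e₂ he₂))⁻¹)
    ((ψ w)⁻¹ * (ψ (d e₂ he₂) * q₂ * (ψ (d e₂ he₂))⁻¹) * ψ w)
    (x a c (e₂ * (e₁ * t))) (x b c (e₂ * (e₁ * t))) (ψ (d (-1) (neg_ne_zero.mpr one_ne_zero)))
    (by group) (by group) A3 A4 A5 A6 (by group) (by group) A9 A10 A11 A12 A13 A14
  have hP' : ∀ g, ψ' g ∈ Pt x ψ s a := fun g =>
    PS_le_Pt ψ (M_le_PS (psi'_mem hab hac hbc ψ' hu' hl' ha hb hc g))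
  have hT : ∀ e (he : e ≠ 0), ψ (d e he) ∈ Pt x ψ s a := fun e he =>
    Tor_le_Pt ψ (tor_mem ψ e he)
  have hz : x b c (e₂ * (e₁ * t)) ∈ Pt x ψ s a :=
    PS_le_Pt ψ (Subgroup.subset_closure ⟨b, c, _, hb, hc, hbc, hac.symm, rfl⟩)
  right
  exact ⟨_, mul_mem (mul_mem (mul_mem (mul_mem (PS_le_Pt ψ (QS_le_PS hL₁)) (hP' _)) (hT _ _))
      (inv_mem (hP' _))) (inv_mem (hP' _)),
    _, mul_mem (mul_mem (mul_mem (mul_mem (hP' _) (hT _ _)) hz) (PS_le_Pt ψ (QS_le_PS hq₂'')))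
      (hP' _), hch⟩

end rules

/-- **Double coset decomposition** of `GS s` with respect to `Pt`. -/
theorem str (Sy : Sys x) : ∀ n : ℕ, ∀ s : Finset ι, s.card = n → ∀ a b : ι, a ∈ s → b ∈ s →
    a ≠ b → ∀ ψ : SL(2, K) →* G, (∀ t, ψ (u t) = x a b t) → (∀ t, ψ (l t) = x b a t) →
    ∀ g ∈ GS x s, g ∈ Dset x ψ s a := by
  intro n
  induction n with
  | zero =>
    intro s hs a b ha
    rw [Finset.card_eq_zero] at hs
    rw [hs] at ha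
    exact absurd ha (Finset.notMem_empty a)
  | succ n ih =>
    intro s hs a b ha hb hab ψ hu hl
    apply closure_of_K2 Sy ha hb hab ψ hu hl
    intro t m hm
    by_cases hex : ∃ c ∈ s, c ≠ a ∧ c ≠ b
    · obtain ⟨c, hc, hca, hcb⟩ := hex
      obtain ⟨ψ', hu', hl'⟩ := Sy.sl2 b c (Ne.symm hcb)
      have hcard : (s.erase a).card = n := by
        rw [Finset.card_erase_of_mem ha, hs, Nat.add_sub_cancel]
      have hb' : b ∈ s.erase a := Finset.mem_erase.mpr ⟨hab.symm, hb⟩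
      have hc' : c ∈ s.erase a := Finset.mem_erase.mpr ⟨hca, hc⟩
      have hm' := ih (s.erase a) hcard b c hb' hc' (Ne.symm hcb) ψ' hu' hl' m hm
      rcases hm' with hm' | ⟨L, hL, R, hR, rfl⟩
      · obtain ⟨q, hq, e, he, rfl⟩ := mem_Pt Sy (Ne.symm hcb) ψ' hu' hl' hm'
        exact k2a Sy hab (Ne.symm hca) (Ne.symm hcb) ψ hu hl ψ' hu' hl' ha hb hc t hq e he
      · obtain ⟨q₁, hq₁, e₁, he₁, rfl⟩ := mem_Pt Sy (Ne.symm hcb) ψ' hu' hl' hL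
        obtain ⟨q₂, hq₂, e₂, he₂, rfl⟩ := mem_Pt Sy (Ne.symm hcb) ψ' hu' hl' hR
        exact k2b Sy hab (Ne.symm hca) (Ne.symm hcb) ψ hu hl ψ' hu' hl' ha hb hc t hq₁ hq₂
          e₁ he₁ e₂ he₂
    · have hbot : GS x (s.erase a) ≤ ⊥ := by
        show Subgroup.closure (gensG x (s.erase a)) ≤ ⊥
        rw [Subgroup.closure_le]
        rintro g ⟨i, j, t', hi, hj, hij, rfl⟩
        exfalso
        have hi' := Finset.mem_erase.mp hi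
        have hj' := Finset.mem_erase.mp hj
        have hib : i = b := by
          by_contra h
          exact hex ⟨i, hi'.2, hi'.1, h⟩
        have hjb : j = b := by
          by_contra h
          exact hex ⟨j, hj'.2, hj'.1, h⟩
        exact hij (hib.trans hjb.symm)
      have hm1 : m = 1 := Subgroup.mem_bot.mp (hbot hm)
      rw [hm1, mul_one]
      exact rank_one Sy ha hb hab ψ hu t

end Cfsg.Agent.Lib.Helper98.StN
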