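import Mathlib
import Cfsg.Agent.Lib.Helper98.StNC

set_option autoImplicit false
set_option linter.unusedSectionVars false

/-!
# Steinberg systems of type `A`: faithfulness of the matrix representation (helper98)

If a Steinberg system `x` in a group `G` is mapped by `π : G →* SL(ι, K)` to the elementary
matrices, then `π` is injective on the subgroup generated by the system (`stepII`).
-/

namespace Cfsg.Agent.Lib.Helper98.StN

open Matrix MatrixGroups
open Cfsg.Agent.Lib.Helper98.SL2Sub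

section tools2

/-- induction on a closure of an inverse-closed set, by left multiplication -/
lemma closure_ind {G : Type*} [Group G] (sB : Set G) (hinv : ∀ y ∈ sB, y⁻¹ ∈ sB) (P : G → Prop)
    (h1 : P 1) (hmul : ∀ y ∈ sB, ∀ z, P z → P (y * z)) : ∀ g ∈ Subgroup.closure sB, P g := by
  intro g hg
  induction hg using Subgroup.closure_induction_left with
  | one => exact h1
  | mul_left y hy z _ ih => exact hmul y hy z ih
  | inv_mul_cancel y hy z _ ih => exact hmul y⁻¹ (hinv y hy) z ih

end tools2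

variable {ι : Type*} [DecidableEq ι] [Fintype ι] {K : Type*} [Field K] {G : Type*} [Group G]
variable {x : ι → ι → K → G}

lemma transv_smul {i j : ι} (hij : i ≠ j) (t : K) (v : ι → K) :
    Matrix.SpecialLinearGroup.transvection hij t • v = v + (t * v j) • (Pi.single i 1 : ι → K) := by
  rw [Matrix.SpecialLinearGroup.smul_def, Matrix.SpecialLinearGroup.transvection_coe]
  simp [add_mulVec, single_mulVec_eq]

/-- `π` maps the root elements to the elementary matrices -/
def Compat (x : ι → ι → K → G) (π : G →* Matrix.SpecialLinearGroup ι K) : Prop :=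
  ∀ i j (hij : i ≠ j) t, π (x i j t) = Matrix.SpecialLinearGroup.transvection hij t

/-- root elements `x a j t` with `j ∈ r` -/
def gensR (x : ι → ι → K → G) (r : Finset ι) (a : ι) : Set G := {g | ∃ j t, j ∈ r ∧ g = x a j t}
/-- the subgroup generated by the root elements `x a j t` with `j ∈ r` -/
def AR (x : ι → ι → K → G) (r : Finset ι) (a : ι) : Subgroup G := Subgroup.closure (gensR x r a)

section mat

variable (Sy : Sys x) (π : G →* Matrix.SpecialLinearGroup ι K) (hπ : Compat x π)

include hπ in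
lemma PS_fix {s : Finset ι} {a : ι} :
    ∀ p ∈ PS x s a, π p • (Pi.single a 1 : ι → K) = Pi.single a 1 := by
  have hle : PS x s a ≤ (MulAction.stabilizer (Matrix.SpecialLinearGroup ι K)
      (Pi.single a 1 : ι → K)).comap π := by
    show Subgroup.closure (gensP x s a) ≤ _
    rw [Subgroup.closure_le]
    rintro g ⟨i, j, t, hi, hj, hij, hja, rfl⟩
    show π (x i j t) ∈ MulAction.stabilizer _ _
    rw [MulAction.mem_stabilizer_iff, hπ i j hij t, transv_smul hij t,
      Pi.single_eq_of_ne hja, mul_zero, zero_smul, add_zero]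
  intro p hp
  exact MulAction.mem_stabilizer_iff.mp (hle hp)

include hπ in
lemma psi_col {a b : ι} (hab : a ≠ b) (ψ : SL(2, K) →* G) (hu : ∀ t, ψ (u t) = x a b t)
    (hl : ∀ t, ψ (l t) = x b a t) (g : SL(2, K)) (p q : K) :
    π (ψ g) • (p • (Pi.single a 1 : ι → K) + q • (Pi.single b 1 : ι → K)) =
      (g.1 0 0 * p + g.1 0 1 * q) • (Pi.single a 1 : ι → K) +
        (g.1 1 0 * p + g.1 1 1 * q) • (Pi.single b 1 : ι → K) := by
  refine act ((MulAction.toPermHom (Matrix.SpecialLinearGroup ι K) (ι → K)).comp (π.comp ψ))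
    (fun p q => p • (Pi.single a 1 : ι → K) + q • (Pi.single b 1 : ι → K)) ?_ ?_ g p q
  · intro z p q
    show π (ψ (u z)) • (p • (Pi.single a 1 : ι → K) + q • (Pi.single b 1 : ι → K)) =
      (p + z * q) • (Pi.single a 1 : ι → K) + q • (Pi.single b 1 : ι → K)
    rw [hu, hπ a b hab z, transv_smul hab z]
    have hb : (p • (Pi.single a 1 : ι → K) + q • (Pi.single b 1 : ι → K)) b = q := by
      simp [hab.symm]
    rw [hb, add_smul]; abel
  · intro z p q
    show π (ψ (l z)) • (p • (Pi.single a 1 : ι → K) + q • (Pi.single b 1 : ι → K)) =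
      p • (Pi.single a 1 : ι → K) + (q + z * p) • (Pi.single b 1 : ι → K)
    rw [hl, hπ b a hab.symm z, transv_smul hab.symm z]
    have ha : (p • (Pi.single a 1 : ι → K) + q • (Pi.single b 1 : ι → K)) a = p := by
      simp [hab]
    rw [ha, add_smul]; abel

include Sy hπ in
/-- **Step I**: elements of `GS s` fixing `e_a` lie in `PS s a`. -/
theorem stepI {s : Finset ι} {a b : ι} (ha : a ∈ s) (hb : b ∈ s) (hab : a ≠ b) {g : G}
    (hg : g ∈ GS x s) (hfix : π g • (Pi.single a 1 : ι → K) = Pi.single a 1) :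
    g ∈ PS x s a := by
  obtain ⟨ψ, hu, hl⟩ := Sy.sl2 a b hab
  have hT : ∀ c (hc : c ≠ 0), π (ψ (d c hc)) • (Pi.single a 1 : ι → K) = c • Pi.single a 1 := by
    intro c hc
    have h := psi_col π hπ hab ψ hu hl (d c hc) 1 0
    simpa using h
  have hW : π (ψ w) • (Pi.single a 1 : ι → K) = (-1 : K) • Pi.single b 1 := by
    have h := psi_col π hπ hab ψ hu hl w 1 0
    simpa using h
  have hPt : ∀ L ∈ Pt x ψ s a, ∃ c : K, c ≠ 0 ∧
      π L • (Pi.single a 1 : ι → K) = c • Pi.single a 1 := by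
    intro L hL
    obtain ⟨p, hp, c, hc, rfl⟩ := mem_Pt Sy hab ψ hu hl hL
    refine ⟨c, hc, ?_⟩
    rw [map_mul, mul_smul, hT c hc, smul_comm, PS_fix π hπ p hp]
  have hD := str Sy s.card s rfl a b ha hb hab ψ hu hl g hg
  rcases hD with hD | ⟨L, hL, R, hR, rfl⟩
  · obtain ⟨p, hp, c, hc, rfl⟩ := mem_Pt Sy hab ψ hu hl hD
    have h1 : π (p * ψ (d c hc)) • (Pi.single a 1 : ι → K) = c • Pi.single a 1 := by
      rw [map_mul, mul_smul, hT c hc, smul_comm, PS_fix π hπ p hp]
    rw [h1] at hfix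
    have hc1 : c = 1 := by
      have := congrFun hfix a
      simpa using this
    subst hc1
    rw [d_one, map_one, mul_one]
    exact hp
  · exfalso
    obtain ⟨cR, hcR, hR'⟩ := hPt R hR
    obtain ⟨cL, hcL, hL'⟩ := hPt L⁻¹ (inv_mem hL)
    have h1 : π (ψ w * R) • (Pi.single a 1 : ι → K) = cR • ((-1 : K) • Pi.single b 1) := by
      rw [map_mul, mul_smul, hR', smul_comm, hW]
    have h2 : π (ψ w * R) • (Pi.single a 1 : ι → K) = cL • Pi.single a 1 := by
      have e : ψ w * R = L⁻¹ * (L * ψ w * R) := by group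
      rw [e, map_mul, mul_smul, hfix, hL']
    rw [h1] at h2
    have h3 := congrFun h2 b
    have h4 : cR = 0 := by simpa [hab.symm] using h3
    exact hcR h4

include hπ in
lemma E_mul_x {i j : ι} (hij : i ≠ j) (t : K) (z : G) (r c : ι) :
    (π (x i j t * z)).1 r c = (π z).1 r c + if r = i then t * (π z).1 j c else 0 := by
  rw [map_mul, hπ i j hij t, Matrix.SpecialLinearGroup.coe_mul]
  show (Matrix.transvection i j t * (π z).1) r c = _
  by_cases h : r = i
  · subst h; simp
  · simp [h]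

include Sy hπ in
lemma AS_rows {s : Finset ι} {a : ι} : ∀ a₀ ∈ AS x s a, ∀ m : G, ∀ r, r ≠ a → ∀ c,
    (π (a₀ * m)).1 r c = (π m).1 r c := by
  apply closure_ind
  · rintro y ⟨j, t, hj, hja, rfl⟩
    exact ⟨j, -t, hj, hja, (x_neg Sy (Ne.symm hja) t).symm⟩
  · intro m r _ c
    rw [one_mul]
  · rintro y ⟨j, t, hj, hja, rfl⟩ z ih m r hr c
    rw [mul_assoc, E_mul_x π hπ (Ne.symm hja) t (z * m) r c, if_neg hr, add_zero]
    exact ih m r hr c

include Sy hπ in
lemma M_row {s : Finset ι} {a : ι} : ∀ m ∈ GS x (s.erase a), ∀ c,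
    (π m).1 a c = (1 : Matrix ι ι K) a c := by
  apply closure_ind
  · rintro y ⟨i, j, t, hi, hj, hij, rfl⟩
    exact ⟨i, j, -t, hi, hj, hij, (x_neg Sy hij t).symm⟩
  · intro c
    rw [map_one, Matrix.SpecialLinearGroup.coe_one]
  · rintro y ⟨i, j, t, hi, hj, hij, rfl⟩ z ih c
    have hia : a ≠ i := (Finset.ne_of_mem_erase hi).symm
    rw [E_mul_x π hπ hij t z a c, if_neg hia, add_zero]
    exact ih c

include Sy hπ in
lemma AR_entries {r : Finset ι} {a : ι} (har : a ∉ r) : ∀ z ∈ AR x r a, ∀ i c,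
    ¬(i = a ∧ c ∈ r) → (π z).1 i c = (1 : Matrix ι ι K) i c := by
  apply closure_ind
  · rintro y ⟨j, t, hj, rfl⟩
    have hja : a ≠ j := fun h => har (h ▸ hj)
    exact ⟨j, -t, hj, (x_neg Sy hja t).symm⟩
  · intro i c _
    rw [map_one, Matrix.SpecialLinearGroup.coe_one]
  · rintro y ⟨j, t, hj, rfl⟩ z ih i c hic
    have hja : j ≠ a := fun h => har (h ▸ hj)
    rw [E_mul_x π hπ (Ne.symm hja) t z i c, ih i c hic]
    by_cases hia : i = a
    · have hc : c ∉ r := fun h => hic ⟨hia, h⟩
      have hjc : j ≠ c := fun h => hc (h ▸ hj)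
      rw [if_pos hia, ih j c (fun h => hja h.1), Matrix.one_apply_ne hjc, mul_zero, add_zero]
    · rw [if_neg hia, add_zero]

include Sy hπ in
lemma AR_inj {a : ι} : ∀ r : Finset ι, a ∉ r → ∀ y ∈ AR x r a,
    (∀ j ∈ r, (π y).1 a j = 0) → y = 1 := by
  intro r
  induction r using Finset.induction_on with
  | empty =>
    intro _ y hy _
    have hbot : AR x ∅ a ≤ ⊥ := by
      show Subgroup.closure (gensR x ∅ a) ≤ ⊥
      rw [Subgroup.closure_le]
      rintro g ⟨j, t, hj, rfl⟩
      exact absurd hj (Finset.notMem_empty j)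
    exact Subgroup.mem_bot.mp (hbot hy)
  | insert j₀ r' hj₀ ih =>
    intro har y hy hzero
    have haj₀ : a ≠ j₀ := fun h => har (h ▸ Finset.mem_insert_self j₀ r')
    have har' : a ∉ r' := fun h => har (Finset.mem_insert_of_mem h)
    have hdec : ∀ y ∈ AR x (insert j₀ r') a, ∃ t, ∃ z ∈ AR x r' a, y = x a j₀ t * z := by
      apply closure_ind
      · rintro y ⟨j, t, hj, rfl⟩
        have hja : a ≠ j := fun h => har (h ▸ hj)
        exact ⟨j, -t, hj, (x_neg Sy hja t).symm⟩
      · exact ⟨0, 1, one_mem _, by rw [x_zero Sy haj₀, one_mul]⟩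
      · rintro y ⟨j, t', hj, rfl⟩ z' ⟨t, z, hz, rfl⟩
        by_cases hjj : j = j₀
        · refine ⟨t' + t, z, hz, ?_⟩
          rw [hjj, ← mul_assoc, Sy.add a j₀ haj₀]
        · have hj' : j ∈ r' := (Finset.mem_insert.mp hj).resolve_left hjj
          have hja : a ≠ j := fun h => har' (h ▸ hj')
          refine ⟨t, x a j t' * z, mul_mem (Subgroup.subset_closure ⟨j, t', hj', rfl⟩) hz, ?_⟩
          rw [← mul_assoc, Sy.comm a j a j₀ hja haj₀ haj₀ hja.symm t' t, mul_assoc]
    obtain ⟨t, z, hz, rfl⟩ := hdec y hy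
    have hP4 := AR_entries Sy π hπ har' z hz
    have ht : t = 0 := by
      have h := hzero j₀ (Finset.mem_insert_self j₀ r')
      rw [E_mul_x π hπ haj₀ t z a j₀, if_pos rfl, hP4 a j₀ (fun h => hj₀ h.2),
        hP4 j₀ j₀ (fun h => haj₀ h.1.symm), Matrix.one_apply_ne haj₀, Matrix.one_apply_eq,
        zero_add, mul_one] at h
      exact h
    rw [ht, x_zero Sy haj₀, one_mul]
    apply ih har' z hz
    intro j hj
    have h := hzero j (Finset.mem_insert_of_mem hj)
    rw [ht, x_zero Sy haj₀, one_mul] at h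
    exact h

include Sy hπ in
lemma AS_inj {s : Finset ι} {a : ι} : ∀ a₀ ∈ AS x s a, π a₀ = 1 → a₀ = 1 := by
  intro a₀ ha₀ h1
  have hle : AS x s a ≤ AR x (s.erase a) a := by
    apply Subgroup.closure_mono
    rintro g ⟨j, t, hj, hja, rfl⟩
    exact ⟨j, t, Finset.mem_erase.mpr ⟨hja, hj⟩, rfl⟩
  apply AR_inj Sy π hπ (s.erase a) (Finset.notMem_erase a s) a₀ (hle ha₀)
  intro j hj
  rw [h1, Matrix.SpecialLinearGroup.coe_one]
  exact Matrix.one_apply_ne (Finset.ne_of_mem_erase hj).symm

include Sy hπ in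
/-- **Step II**: `π` is injective on `GS s`. -/
theorem stepII : ∀ n : ℕ, ∀ s : Finset ι, s.card = n → ∀ g ∈ GS x s, π g = 1 → g = 1 := by
  intro n
  induction n with
  | zero =>
    intro s hs g hg _
    rw [Finset.card_eq_zero] at hs
    have hbot : GS x s ≤ ⊥ := by
      show Subgroup.closure (gensG x s) ≤ ⊥
      rw [Subgroup.closure_le]
      rintro g ⟨i, j, t, hi, hj, hij, rfl⟩
      rw [hs] at hi
      exact absurd hi (Finset.notMem_empty i)
    exact Subgroup.mem_bot.mp (hbot hg)
  | succ n ih =>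
    intro s hs g hg hπg
    by_cases hex : ∃ a ∈ s, ∃ b ∈ s, a ≠ b
    · obtain ⟨a, ha, b, hb, hab⟩ := hex
      have hfix : π g • (Pi.single a 1 : ι → K) = Pi.single a 1 := by rw [hπg, one_smul]
      have hp := stepI Sy π hπ ha hb hab hg hfix
      obtain ⟨a₀, ha₀, m, hm, rfl⟩ := PS_decomp0 Sy hp
      have hcard : (s.erase a).card = n := by
        rw [Finset.card_erase_of_mem ha, hs, Nat.add_sub_cancel]
      have hm1 : π m = 1 := by
        apply Matrix.SpecialLinearGroup.ext
        intro r c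
        by_cases hr : r = a
        · rw [hr, M_row Sy π hπ m hm c, Matrix.SpecialLinearGroup.coe_one]
        · rw [← AS_rows Sy π hπ a₀ ha₀ m r hr c, hπg]
      have hm' : m = 1 := ih (s.erase a) hcard m hm hm1
      rw [hm', mul_one] at hπg ⊢
      exact AS_inj Sy π hπ a₀ ha₀ hπg
    · have hbot : GS x s ≤ ⊥ := by
        show Subgroup.closure (gensG x s) ≤ ⊥
        rw [Subgroup.closure_le]
        rintro g ⟨i, j, t, hi, hj, hij, rfl⟩
        exact absurd ⟨i, hi, j, hj, hij⟩ hex
      exact Subgroup.mem_bot.mp (hbot hg)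

include Sy hπ in
/-- a compatible representation of a group generated by a Steinberg system is faithful -/
theorem inj_of_sys (htop : GS x Finset.univ = ⊤) : Function.Injective π := by
  rw [injective_iff_map_eq_one]
  intro g hg
  exact stepII Sy π hπ _ Finset.univ rfl g (htop ▸ Subgroup.mem_top g) hg

end mat

end Cfsg.Agent.Lib.Helper98.StN
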