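import Mathlib
import Cfsg.Agent.Lib.Helper98.StND
import Cfsg.Agent.Lib.Helper98.SteinbergHom
import Cfsg.Agent.Lib.Helper5.SLGen

set_option autoImplicit false
set_option linter.unusedSectionVars false

/-!
# The Steinberg presentation of `SL_n(K)`, `K` a finite field, `n ≥ 3` (helper98)

`main`: the group presented by the Steinberg relations of type `A_{n-1}` is isomorphic to
`SL_n(K)` through the map sending the generators to the elementary matrices.
-/

namespace Cfsg.Agent.Lib.Helper98.StN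

open Matrix MatrixGroups
open Cfsg.Agent.Lib.Helper98.SL2Sub Cfsg.Agent.Lib.Helper98.Steinberg

section pre

variable {ι : Type*} {K : Type*} [Field K] {G : Type*} [Group G]

/-- the Steinberg relations of type `A` (without the rank one subgroups) -/
structure PreSys (x : ι → ι → K → G) : Prop where
  add : ∀ i j, i ≠ j → ∀ t u, x i j t * x i j u = x i j (t + u)
  comm : ∀ i j k l, i ≠ j → k ≠ l → i ≠ l → j ≠ k → ∀ t u,
    x i j t * x k l u = x k l u * x i j t
  comm3 : ∀ i j l, i ≠ j → j ≠ l → i ≠ l → ∀ t u,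
    x i j t * x j l u * (x i j t)⁻¹ * (x j l u)⁻¹ = x i l (t * u)

variable {x : ι → ι → K → G}

lemma px_zero (P : PreSys x) {i j : ι} (h : i ≠ j) : x i j 0 = 1 := by
  have h1 := P.add i j h 0 0
  rw [add_zero] at h1
  exact mul_left_cancel (a := x i j 0) (by rw [h1, mul_one])

lemma px_neg (P : PreSys x) {i j : ι} (h : i ≠ j) (t : K) : x i j (-t) = (x i j t)⁻¹ := by
  apply eq_inv_of_mul_eq_one_left
  rw [P.add i j h, neg_add_cancel, px_zero P h]

lemma pconj_r (P : PreSys x) {i j l : ι} (hij : i ≠ j) (hjl : j ≠ l) (hil : i ≠ l) (t u : K) :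
    x i j t * x j l u * (x i j t)⁻¹ = x i l (t * u) * x j l u := by
  rw [← P.comm3 i j l hij hjl hil t u]; group

lemma pconj_l (P : PreSys x) {i j k : ι} (hij : i ≠ j) (hki : k ≠ i) (hkj : k ≠ j) (t c : K) :
    x i j t * x k i c * (x i j t)⁻¹ = x k i c * x k j (-(c * t)) := by
  have h := P.comm3 k i j hki hij hkj c t
  have hc := P.comm k i k j hki hkj hkj hki.symm c (-(c * t))
  rw [hc, px_neg P hkj, ← h]; group

lemma C1 (P : PreSys x) {i j k : ι} (hij : i ≠ j) (hik : i ≠ k) (hjk : j ≠ k) (t : K)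
    (ht : t ≠ 0) (p : K) :
    (x i j t * x j i (-t⁻¹) * x i j t) * x i k p * (x i j t * x j i (-t⁻¹) * x i j t)⁻¹ =
      x j k (-t⁻¹ * p) := by
  have h1 : x i j t * x i k p = x i k p * x i j t := P.comm i j i k hij hik hik hij.symm t p
  have hA : x i j t * x i k p * (x i j t)⁻¹ = x i k p := by rw [h1]; group
  have h2 := pconj_r P hij.symm hik hjk (-t⁻¹) p
  have h3 := pconj_r P hij hjk hik t (-t⁻¹ * p)
  have h4 : t * (-t⁻¹ * p) = -p := by
    have : t⁻¹ * t = 1 := inv_mul_cancel₀ ht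
    linear_combination (-p) * this
  have h5 : x i k (-p) * x j k (-t⁻¹ * p) = x j k (-t⁻¹ * p) * x i k (-p) :=
    P.comm i k j k hik hjk hik hjk.symm _ _
  calc (x i j t * x j i (-t⁻¹) * x i j t) * x i k p * (x i j t * x j i (-t⁻¹) * x i j t)⁻¹
      = x i j t * (x j i (-t⁻¹) * (x i j t * x i k p * (x i j t)⁻¹) * (x j i (-t⁻¹))⁻¹)
          * (x i j t)⁻¹ := by group
    _ = x i j t * (x j k (-t⁻¹ * p) * x i k p) * (x i j t)⁻¹ := by rw [hA, h2]
    _ = (x i j t * x j k (-t⁻¹ * p) * (x i j t)⁻¹) * (x i j t * x i k p * (x i j t)⁻¹) := by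
        group
    _ = (x i k (t * (-t⁻¹ * p)) * x j k (-t⁻¹ * p)) * x i k p := by rw [h3, hA]
    _ = x j k (-t⁻¹ * p) := by
        rw [h4, h5, mul_assoc, P.add i k hik, neg_add_cancel, px_zero P hik, mul_one]

lemma C2 (P : PreSys x) {i j k : ι} (hij : i ≠ j) (hik : i ≠ k) (hjk : j ≠ k) (t : K)
    (ht : t ≠ 0) (q : K) :
    (x i j t * x j i (-t⁻¹) * x i j t) * x k j q * (x i j t * x j i (-t⁻¹) * x i j t)⁻¹ =
      x k i (t⁻¹ * q) := by
  have h1 : x i j t * x k j q = x k j q * x i j t := P.comm i j k j hij hjk.symm hij hjk t q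
  have hA : x i j t * x k j q * (x i j t)⁻¹ = x k j q := by rw [h1]; group
  have h2 := pconj_l P hij.symm hjk.symm hik.symm (-t⁻¹) q
  have h3 := pconj_l P hij hik.symm hjk.symm t (-(q * -t⁻¹))
  have h4 : -(q * -t⁻¹) = t⁻¹ * q := by ring
  have h5 : -(-(q * -t⁻¹) * t) = -q := by
    have : t⁻¹ * t = 1 := inv_mul_cancel₀ ht
    linear_combination (-q) * this
  have h6 : x k j q * x k i (t⁻¹ * q) = x k i (t⁻¹ * q) * x k j q :=
    P.comm k j k i hjk.symm hik.symm hik.symm hjk _ _
  calc (x i j t * x j i (-t⁻¹) * x i j t) * x k j q * (x i j t * x j i (-t⁻¹) * x i j t)⁻¹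
      = x i j t * (x j i (-t⁻¹) * (x i j t * x k j q * (x i j t)⁻¹) * (x j i (-t⁻¹))⁻¹)
          * (x i j t)⁻¹ := by group
    _ = x i j t * (x k j q * x k i (-(q * -t⁻¹))) * (x i j t)⁻¹ := by rw [hA, h2]
    _ = (x i j t * x k j q * (x i j t)⁻¹) * (x i j t * x k i (-(q * -t⁻¹)) * (x i j t)⁻¹) := by
        group
    _ = x k j q * (x k i (-(q * -t⁻¹)) * x k j (-(-(q * -t⁻¹) * t))) := by rw [hA, h3]
    _ = x k i (t⁻¹ * q) := by
        rw [h5, h4, ← mul_assoc, h6, mul_assoc, P.add k j hjk.symm, add_neg_cancel,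
          px_zero P hjk.symm, mul_one]

lemma conj_comm (W A B : G) : W * (A * B * A⁻¹ * B⁻¹) * W⁻¹ =
    (W * A * W⁻¹) * (W * B * W⁻¹) * (W * A * W⁻¹)⁻¹ * (W * B * W⁻¹)⁻¹ := by group

/-- the rank one relation, derived with the help of a third index -/
lemma relX' (P : PreSys x) {i j k : ι} (hij : i ≠ j) (hik : i ≠ k) (hjk : j ≠ k) (t : K)
    (ht : t ≠ 0) (u' : K) :
    (x i j t * x j i (-t⁻¹) * x i j t) * x i j u' * (x i j t * x j i (-t⁻¹) * x i j t)⁻¹ =
      x j i (-(t⁻¹ ^ 2 * u')) := by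
  have hc := P.comm3 i k j hik hjk.symm hij u' 1
  have e0 : u' * 1 = u' := mul_one u'
  rw [e0] at hc
  have c1 := C1 P hij hik hjk t ht u'
  have c2 := C2 P hij hik hjk t ht 1
  have hc' := P.comm3 j k i hjk hik.symm hij.symm (-t⁻¹ * u') (t⁻¹ * 1)
  have e : (-t⁻¹ * u') * (t⁻¹ * 1) = -(t⁻¹ ^ 2 * u') := by ring
  rw [e] at hc'
  rw [← hc, conj_comm, c1, c2, hc']

lemma stData_of_preSys (P : PreSys x) {i j k : ι} (hij : i ≠ j) (hik : i ≠ k) (hjk : j ≠ k) :
    StData (x i j) (x j i) where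
  addX := P.add i j hij
  addY := P.add j i hij.symm
  relX := fun t u' ht => relX' P hij hik hjk t ht u'
  relY := fun t u' ht => relX' P hij.symm hjk hik t ht u'

/-- with a third index available, the Steinberg relations give a Steinberg system -/
theorem sys_of_preSys [Finite K] (P : PreSys x) (h3 : ∀ i j : ι, i ≠ j → ∃ k, k ≠ i ∧ k ≠ j) :
    Sys x where
  add := P.add
  comm := P.comm
  comm3 := P.comm3
  sl2 := by
    intro i j hij
    obtain ⟨k, hki, hkj⟩ := h3 i j hij
    exact Cfsg.Agent.Lib.Helper98.SteinbergHom.exists_hom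
      (stData_of_preSys P hij hki.symm hkj.symm)

end pre

section matrel

variable {ι : Type*} [DecidableEq ι] [Fintype ι] {K : Type*} [Field K]

lemma tv_comm {i j k l : ι} (hij : i ≠ j) (hkl : k ≠ l) (hil : i ≠ l) (hjk : j ≠ k) (t u' : K) :
    Matrix.SpecialLinearGroup.transvection hij t * Matrix.SpecialLinearGroup.transvection hkl u' =
      Matrix.SpecialLinearGroup.transvection hkl u' *
        Matrix.SpecialLinearGroup.transvection hij t := by
  apply Subtype.ext
  show ((1 : Matrix ι ι K) + single i j t) * (1 + single k l u') =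
    (1 + single k l u') * (1 + single i j t)
  simp only [mul_add, add_mul, Matrix.mul_one, Matrix.one_mul,
    single_mul_single_of_ne _ _ _ _ hjk, single_mul_single_of_ne _ _ _ _ hil.symm, add_zero]
  abel

lemma tv_comm3 {i j l : ι} (hij : i ≠ j) (hjl : j ≠ l) (hil : i ≠ l) (t u' : K) :
    Matrix.SpecialLinearGroup.transvection hij t * Matrix.SpecialLinearGroup.transvection hjl u' *
      (Matrix.SpecialLinearGroup.transvection hij t)⁻¹ *
      (Matrix.SpecialLinearGroup.transvection hjl u')⁻¹ =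
      Matrix.SpecialLinearGroup.transvection hil (t * u') := by
  rw [Matrix.SpecialLinearGroup.transvection_inv, Matrix.SpecialLinearGroup.transvection_inv]
  apply Subtype.ext
  show ((1 : Matrix ι ι K) + single i j t) * (1 + single j l u') * (1 + single i j (-t)) *
    (1 + single j l (-u')) = 1 + single i l (t * u')
  simp only [mul_add, add_mul, Matrix.mul_one, Matrix.one_mul, single_mul_single_same,
      single_mul_single_of_ne _ _ _ _ hij, single_mul_single_of_ne _ _ _ _ hij.symm,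
      single_mul_single_of_ne _ _ _ _ hjl, single_mul_single_of_ne _ _ _ _ hjl.symm,
      single_mul_single_of_ne _ _ _ _ hil, single_mul_single_of_ne _ _ _ _ hil.symm,
      Matrix.zero_mul, Matrix.mul_zero, add_zero, zero_add]
  simp only [mul_neg, neg_mul, neg_neg, ← single_neg]
  abel

end matrel

section pres

variable (n : ℕ) (K : Type*) [Field K]

/-- the Steinberg relations of `SL_n` -/
def relsN : Set (FreeGroup ({ij : Fin n × Fin n // ij.1 ≠ ij.2} × K)) :=
  {g : FreeGroup ({ij : Fin n × Fin n // ij.1 ≠ ij.2} × K) | ∃ (a : {ij : Fin n × Fin n // ij.1 ≠ ij.2}) (t u : K),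
      g = FreeGroup.of (a, t) * FreeGroup.of (a, u) * (FreeGroup.of (a, t + u))⁻¹} ∪
    {g | ∃ (a b : {ij : Fin n × Fin n // ij.1 ≠ ij.2}) (t u : K), a.1.1 ≠ b.1.2 ∧ a.1.2 ≠ b.1.1 ∧
      g = FreeGroup.of (a, t) * FreeGroup.of (b, u) * (FreeGroup.of (a, t))⁻¹ * (FreeGroup.of (b, u))⁻¹} ∪
    {g | ∃ (a b : {ij : Fin n × Fin n // ij.1 ≠ ij.2}) (h : a.1.1 ≠ b.1.2) (t u : K), a.1.2 = b.1.1 ∧
      g = FreeGroup.of (a, t) * FreeGroup.of (b, u) * (FreeGroup.of (a, t))⁻¹ * (FreeGroup.of (b, u))⁻¹ *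
        (FreeGroup.of (⟨(a.1.1, b.1.2), h⟩, t * u))⁻¹}

variable {n K}

/-- the generators of the presented group -/
def xg (i j : Fin n) (t : K) : PresentedGroup (relsN n K) :=
  if h : i ≠ j then PresentedGroup.of (⟨(i, j), h⟩, t) else 1

lemma xg_of {i j : Fin n} (h : i ≠ j) (t : K) :
    (xg i j t : PresentedGroup (relsN n K)) = PresentedGroup.of (⟨(i, j), h⟩, t) := dif_pos h

lemma preSys_xg : PreSys (xg : Fin n → Fin n → K → PresentedGroup (relsN n K)) where
  add := by
    intro i j hij t u'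
    have h1 : PresentedGroup.mk (relsN n K)
        (FreeGroup.of ((⟨(i, j), hij⟩ : {ij : Fin n × Fin n // ij.1 ≠ ij.2}), t) *
          FreeGroup.of (⟨(i, j), hij⟩, u') * (FreeGroup.of (⟨(i, j), hij⟩, t + u'))⁻¹) = 1 :=
      PresentedGroup.one_of_mem (Or.inl (Or.inl ⟨⟨(i, j), hij⟩, t, u', rfl⟩))
    simp only [map_mul, map_inv] at h1
    rw [xg_of hij, xg_of hij, xg_of hij]
    exact mul_inv_eq_one.1 h1
  comm := by
    intro i j k l hij hkl hil hjk t u'
    have h1 : PresentedGroup.mk (relsN n K)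
        (FreeGroup.of ((⟨(i, j), hij⟩ : {ij : Fin n × Fin n // ij.1 ≠ ij.2}), t) *
          FreeGroup.of (⟨(k, l), hkl⟩, u') * (FreeGroup.of (⟨(i, j), hij⟩, t))⁻¹ *
          (FreeGroup.of (⟨(k, l), hkl⟩, u'))⁻¹) = 1 :=
      PresentedGroup.one_of_mem
        (Or.inl (Or.inr ⟨⟨(i, j), hij⟩, ⟨(k, l), hkl⟩, t, u', hil, hjk, rfl⟩))
    simp only [map_mul, map_inv] at h1
    rw [xg_of hij, xg_of hkl]
    exact mul_inv_eq_iff_eq_mul.1 (mul_inv_eq_one.1 h1)
  comm3 := by
    intro i j l hij hjl hil t u'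
    have h1 : PresentedGroup.mk (relsN n K)
        (FreeGroup.of ((⟨(i, j), hij⟩ : {ij : Fin n × Fin n // ij.1 ≠ ij.2}), t) *
          FreeGroup.of (⟨(j, l), hjl⟩, u') * (FreeGroup.of (⟨(i, j), hij⟩, t))⁻¹ *
          (FreeGroup.of (⟨(j, l), hjl⟩, u'))⁻¹ * (FreeGroup.of (⟨(i, l), hil⟩, t * u'))⁻¹) = 1 :=
      PresentedGroup.one_of_mem
        (Or.inr ⟨⟨(i, j), hij⟩, ⟨(j, l), hjl⟩, hil, t, u', rfl, rfl⟩)
    simp only [map_mul, map_inv] at h1
    rw [xg_of hij, xg_of hjl, xg_of hil]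
    exact mul_inv_eq_one.1 h1

/-- the elementary matrix attached to a generator -/
def genT (p : {ij : Fin n × Fin n // ij.1 ≠ ij.2} × K) : Matrix.SpecialLinearGroup (Fin n) K :=
  Matrix.SpecialLinearGroup.transvection p.1.2 p.2

lemma lift_relsN : ∀ r ∈ relsN n K, FreeGroup.lift (genT (n := n) (K := K)) r = 1 := by
  rintro r ((⟨a, t, u', rfl⟩ | ⟨a, b, t, u', h1, h2, rfl⟩) |
    ⟨⟨⟨i, j⟩, hij⟩, ⟨⟨k, l⟩, hkl⟩, h, t, u', h2, rfl⟩)
  · simp only [map_mul, map_inv, FreeGroup.lift_apply_of]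
    show Matrix.SpecialLinearGroup.transvection a.2 t *
      Matrix.SpecialLinearGroup.transvection a.2 u' *
      (Matrix.SpecialLinearGroup.transvection a.2 (t + u'))⁻¹ = 1
    rw [Matrix.SpecialLinearGroup.transvection_add, mul_inv_cancel]
  · simp only [map_mul, map_inv, FreeGroup.lift_apply_of]
    show Matrix.SpecialLinearGroup.transvection a.2 t *
      Matrix.SpecialLinearGroup.transvection b.2 u' *
      (Matrix.SpecialLinearGroup.transvection a.2 t)⁻¹ *
      (Matrix.SpecialLinearGroup.transvection b.2 u')⁻¹ = 1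
    rw [tv_comm a.2 b.2 h1 h2 t u']; group
  · dsimp only at h h2 hij hkl
    subst h2
    simp only [map_mul, map_inv, FreeGroup.lift_apply_of]
    show Matrix.SpecialLinearGroup.transvection hij t *
      Matrix.SpecialLinearGroup.transvection hkl u' *
      (Matrix.SpecialLinearGroup.transvection hij t)⁻¹ *
      (Matrix.SpecialLinearGroup.transvection hkl u')⁻¹ *
      (Matrix.SpecialLinearGroup.transvection h (t * u'))⁻¹ = 1
    rw [tv_comm3 hij hkl h t u', mul_inv_cancel]

/-- the canonical map to `SL_n` -/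
noncomputable def toSLn : PresentedGroup (relsN n K) →* Matrix.SpecialLinearGroup (Fin n) K :=
  PresentedGroup.toGroup (lift_relsN (n := n) (K := K))

lemma compat_xg : Compat (xg : Fin n → Fin n → K → PresentedGroup (relsN n K)) toSLn := by
  intro i j hij t
  rw [xg_of hij]
  exact PresentedGroup.toGroup.of _

lemma GS_xg_top :
    GS (xg : Fin n → Fin n → K → PresentedGroup (relsN n K)) Finset.univ = ⊤ := by
  rw [eq_top_iff]
  intro g _
  refine PresentedGroup.generated_by (relsN n K) _ ?_ g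
  rintro ⟨⟨⟨i, j⟩, hij⟩, t⟩
  exact Subgroup.subset_closure
    ⟨i, j, t, Finset.mem_univ i, Finset.mem_univ j, hij, (xg_of hij t).symm⟩

lemma exists_third (hn : 3 ≤ n) (i j : Fin n) : ∃ k, k ≠ i ∧ k ≠ j := by
  have h1 : n - 1 ≤ ((Finset.univ : Finset (Fin n)).erase i).card := by
    have := Finset.pred_card_le_card_erase (s := (Finset.univ : Finset (Fin n))) (a := i)
    simpa using this
  have h2 := Finset.pred_card_le_card_erase (s := (Finset.univ : Finset (Fin n)).erase i) (a := j)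
  have h3 : 0 < (((Finset.univ : Finset (Fin n)).erase i).erase j).card := by omega
  obtain ⟨k, hk⟩ := Finset.card_pos.mp h3
  exact ⟨k, (Finset.mem_erase.mp (Finset.mem_erase.mp hk).2).1, (Finset.mem_erase.mp hk).1⟩

/-- **Steinberg presentation of `SL_n(K)`**, `K` a finite field, `n ≥ 3`. -/
theorem main [Finite K] (n : ℕ) (hn : 3 ≤ n) :
    ∃ e : PresentedGroup (relsN n K) ≃* Matrix.SpecialLinearGroup (Fin n) K,
      ∀ (a : {ij : Fin n × Fin n // ij.1 ≠ ij.2}) (t : K),
        ((e (PresentedGroup.of (a, t)) : Matrix (Fin n) (Fin n) K)) =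
          Matrix.transvection a.1.1 a.1.2 t := by
  have Sy : Sys (xg : Fin n → Fin n → K → PresentedGroup (relsN n K)) :=
    sys_of_preSys preSys_xg (fun i j _ => exists_third hn i j)
  have hinj : Function.Injective (toSLn (n := n) (K := K)) :=
    inj_of_sys Sy toSLn compat_xg GS_xg_top
  have : Nontrivial (Fin n) := Fin.nontrivial_iff_two_le.mpr (by omega)
  have hsurj : Function.Surjective (toSLn (n := n) (K := K)) := by
    intro A
    have h : A ∈ (toSLn (n := n) (K := K)).range := by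
      refine Cfsg.Agent.Lib.Helper5.SLGen.transvection_induction
        (fun A => A ∈ (toSLn (n := n) (K := K)).range) ?_ ?_ A
      · intro i j h c
        exact ⟨xg i j c, compat_xg i j h c⟩
      · intro A B hA hB
        exact mul_mem hA hB
    exact h
  refine ⟨MulEquiv.ofBijective toSLn ⟨hinj, hsurj⟩, ?_⟩
  intro a t
  show ((toSLn (PresentedGroup.of (a, t)) : Matrix.SpecialLinearGroup (Fin n) K) :
    Matrix (Fin n) (Fin n) K) = _
  have h : toSLn (PresentedGroup.of (a, t)) = genT (a, t) := PresentedGroup.toGroup.of _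
  rw [h]
  rfl

end pres

end Cfsg.Agent.Lib.Helper98.StN
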