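import Mathlib
import Cfsg.Agent.Lib.Helper98.StNE
import Cfsg.Agent.Lib.Helper98.SteinbergHom
import Cfsg.Agent.Lib.Helper5.SLGen

set_option autoImplicit false

/-!
# Universal property of `SL_n(K)` (finite field) and sections of surjections onto it (helper98)

* `exists_hom_of_preSys`: a family `x i j t` in a group `G` satisfying the Steinberg relations
  (`PreSys`) is the image of the elementary matrices under a homomorphism `SL_n(K) → G` (`n ≥ 3`).
* `section_of_preSys`: if moreover `φ (x i j t)` is the elementary matrix, `φ` has a section.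
* `section_of_stData`: the same for `SL(2, K)` and the rank-one Steinberg relations.
-/

namespace Cfsg.Agent.Lib.Helper98.StN

open Matrix MatrixGroups
open Cfsg.Agent.Lib.Helper98.SL2Sub Cfsg.Agent.Lib.Helper98.Steinberg

section

variable {K : Type*} [Field K] {G : Type*} [Group G] {n : ℕ}

/-- generator assignment -/
def genP (x : Fin n → Fin n → K → G) (p : {ij : Fin n × Fin n // ij.1 ≠ ij.2} × K) : G :=
  x p.1.1.1 p.1.1.2 p.2

lemma lift_relsN_of_preSys {x : Fin n → Fin n → K → G} (P : PreSys x) :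
    ∀ r ∈ relsN n K, FreeGroup.lift (genP x) r = 1 := by
  rintro r ((⟨a, t, u', rfl⟩ | ⟨a, b, t, u', h1, h2, rfl⟩) |
    ⟨⟨⟨i, j⟩, hij⟩, ⟨⟨k, l⟩, hkl⟩, h, t, u', h2, rfl⟩)
  · simp only [map_mul, map_inv, FreeGroup.lift_apply_of]
    show x a.1.1 a.1.2 t * x a.1.1 a.1.2 u' * (x a.1.1 a.1.2 (t + u'))⁻¹ = 1
    rw [P.add _ _ a.2, mul_inv_cancel]
  · simp only [map_mul, map_inv, FreeGroup.lift_apply_of]
    show x a.1.1 a.1.2 t * x b.1.1 b.1.2 u' * (x a.1.1 a.1.2 t)⁻¹ * (x b.1.1 b.1.2 u')⁻¹ = 1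
    rw [P.comm _ _ _ _ a.2 b.2 h1 h2 t u']; group
  · dsimp only at h h2 hij hkl
    subst h2
    simp only [map_mul, map_inv, FreeGroup.lift_apply_of]
    show x i j t * x j l u' * (x i j t)⁻¹ * (x j l u')⁻¹ * (x i l (t * u'))⁻¹ = 1
    rw [P.comm3 i j l hij hkl h t u', mul_inv_cancel]

/-- **Universal property of `SL_n(K)`**, `K` a finite field, `n ≥ 3`. -/
theorem exists_hom_of_preSys [Finite K] (hn : 3 ≤ n) {x : Fin n → Fin n → K → G}
    (P : PreSys x) :
    ∃ ψ : Matrix.SpecialLinearGroup (Fin n) K →* G, ∀ (i j : Fin n) (hij : i ≠ j) (t : K),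
      ψ (Matrix.SpecialLinearGroup.transvection hij t) = x i j t := by
  obtain ⟨e, he⟩ := main (K := K) n hn
  have hE : ∀ (i j : Fin n) (hij : i ≠ j) (t : K),
      e (PresentedGroup.of (⟨(i, j), hij⟩, t)) =
        Matrix.SpecialLinearGroup.transvection hij t := by
    intro i j hij t
    apply Subtype.ext
    rw [he]
    rfl
  refine ⟨(PresentedGroup.toGroup (lift_relsN_of_preSys P)).comp e.symm.toMonoidHom, ?_⟩
  intro i j hij t
  show PresentedGroup.toGroup (lift_relsN_of_preSys P)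
    (e.symm (Matrix.SpecialLinearGroup.transvection hij t)) = x i j t
  rw [← hE i j hij t, e.symm_apply_apply]
  exact PresentedGroup.toGroup.of _

/-- a surjection onto `SL_n(K)` with Steinberg lifts of the elementary matrices splits -/
theorem section_of_preSys [Finite K] (hn : 3 ≤ n) {Y : Type*} [Group Y]
    (φ : Y →* Matrix.SpecialLinearGroup (Fin n) K) {x : Fin n → Fin n → K → Y} (P : PreSys x)
    (hx : ∀ (i j : Fin n) (hij : i ≠ j) (t : K),
      φ (x i j t) = Matrix.SpecialLinearGroup.transvection hij t) :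
    ∃ s : Matrix.SpecialLinearGroup (Fin n) K →* Y, ∀ g, φ (s g) = g := by
  obtain ⟨ψ, hψ⟩ := exists_hom_of_preSys hn P
  refine ⟨ψ, ?_⟩
  have : Nontrivial (Fin n) := Fin.nontrivial_iff_two_le.mpr (by omega)
  intro g
  refine Cfsg.Agent.Lib.Helper5.SLGen.transvection_induction (fun A => φ (ψ A) = A) ?_ ?_ g
  · intro i j h c
    show φ (ψ _) = _
    rw [hψ i j h c, hx i j h c]
  · intro A B hA hB
    show φ (ψ (A * B)) = A * B
    rw [map_mul, map_mul, hA, hB]

/-- a surjection onto `SL(2, K)` with rank-one Steinberg lifts splits -/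
theorem section_of_stData [Finite K] {Y : Type*} [Group Y] (φ : Y →* SL(2, K)) {X Yl : K → Y}
    (S : StData X Yl) (hX : ∀ t, φ (X t) = u t) (hY : ∀ t, φ (Yl t) = l t) :
    ∃ s : SL(2, K) →* Y, ∀ g, φ (s g) = g := by
  obtain ⟨ψ, h1, h2⟩ := Cfsg.Agent.Lib.Helper98.SteinbergHom.exists_hom S
  refine ⟨ψ, ?_⟩
  have htop : MonoidHom.eqLocus (φ.comp ψ) (MonoidHom.id _) = ⊤ := by
    apply eq_top_of_u_l
    · intro z
      show φ (ψ (u z)) = u z
      rw [h1, hX]
    · intro z
      show φ (ψ (l z)) = l z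
      rw [h2, hY]
  intro g
  have hg : g ∈ MonoidHom.eqLocus (φ.comp ψ) (MonoidHom.id _) := by rw [htop]; trivial
  exact hg

end

end Cfsg.Agent.Lib.Helper98.StN
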