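import Mathlib
import Cfsg.Agent.Lib.Helper54.S68Stmt

set_option autoImplicit false

/-! S1368 piece [TI] (second seat helper98): `z, g z g⁻¹ ∈ Zhat` gives `g ∈ K Ks`, from FUS.
Closure-free: the coprimality of `|K|` and `|Ks|` comes from a direct proof that the
`π`-core of a finite group is a `π`-group. -/

namespace Cfsg.Agent.Lib.Helper98.S68TI

open Cfsg Cfsg.Agent.Lib.Helper54.S68Stmt

universe u

/-- In a finite group the `π`-core is a `π`-group. -/
theorem piCore_pi {H : Type u} [Group H] [Finite H] (π : Set ℕ) (p : ℕ) (hp : p.Prime)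
    (hd : p ∣ Nat.card (Cfsg.piCore π H)) : p ∈ π := by
  haveI : Finite (Subgroup H) :=
    Finite.of_injective (fun N : Subgroup H => (N : Set H)) SetLike.coe_injective
  obtain ⟨S, hS⟩ : ∃ S : Set (Subgroup H), S =
      {N : Subgroup H | N.Normal ∧ ∀ q : ℕ, q.Prime → q ∣ Nat.card N → q ∈ π} := ⟨_, rfl⟩
  have hbot : (⊥ : Subgroup H) ∈ S := by
    rw [hS]
    refine ⟨inferInstance, ?_⟩
    intro q hq hqd
    rw [Subgroup.card_bot] at hqd
    exact absurd (Nat.dvd_one.mp hqd) hq.one_lt.ne'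
  obtain ⟨N0, hN0, hmax⟩ := (wellFounded_gt (α := Subgroup H)).has_min S ⟨⊥, hbot⟩
  have hN0' : N0.Normal ∧ ∀ q : ℕ, q.Prime → q ∣ Nat.card N0 → q ∈ π := by
    rw [hS] at hN0
    exact hN0
  have hle : ∀ N ∈ S, N ≤ N0 := by
    intro N hN
    have hN' : N.Normal ∧ ∀ q : ℕ, q.Prime → q ∣ Nat.card N → q ∈ π := by
      rw [hS] at hN
      exact hN
    obtain ⟨hNn, hNp⟩ := hN'
    obtain ⟨hN0n, hN0p⟩ := hN0'
    haveI := hNn
    haveI := hN0n
    have hsup : N0 ⊔ N ∈ S := by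
      rw [hS]
      refine ⟨inferInstance, ?_⟩
      intro q hq hqd
      have h1 : Nat.card ↥(N0 ⊔ N) = Nat.card N0 * N0.relIndex N := by
        have e1 : (⊥ : Subgroup H).relIndex N0 * N0.relIndex (N0 ⊔ N) =
            (⊥ : Subgroup H).relIndex (N0 ⊔ N) :=
          Subgroup.relIndex_mul_relIndex (H := ⊥) (K := N0) (L := N0 ⊔ N) bot_le le_sup_left
        rw [Subgroup.relIndex_bot_left, Subgroup.relIndex_bot_left,
          Subgroup.relIndex_sup_left] at e1
        exact e1.symm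
      rw [h1] at hqd
      rcases (Nat.Prime.dvd_mul hq).mp hqd with h | h
      · exact hN0p q hq h
      · exact hNp q hq (h.trans (Subgroup.relIndex_dvd_card N0 N))
    have hnot := hmax (N0 ⊔ N) hsup
    have heq : N0 = N0 ⊔ N := eq_of_le_of_not_lt le_sup_left hnot
    calc N ≤ N0 ⊔ N := le_sup_right
      _ = N0 := heq.symm
  have hcore : Cfsg.piCore π H = N0 := by
    apply le_antisymm
    · unfold Cfsg.piCore
      apply sSup_le
      intro N hN
      exact hle N (by rw [hS]; exact hN)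
    · unfold Cfsg.piCore
      apply le_sSup
      exact hN0'
  rw [hcore] at hd
  exact hN0'.2 p hp hd

/-- Elementwise commuting subgroups: every element of the join is a product. -/
theorem mem_sup_comm {G : Type u} [Group G] (A B : Subgroup G)
    (hc : ∀ a ∈ A, ∀ b ∈ B, a * b = b * a) {x : G} (hx : x ∈ A ⊔ B) :
    ∃ a ∈ A, ∃ b ∈ B, x = a * b := by
  let W : Subgroup G :=
    { carrier := {x | ∃ a ∈ A, ∃ b ∈ B, x = a * b}
      mul_mem' := by
        rintro _ _ ⟨a, ha, b, hb, rfl⟩ ⟨a', ha', b', hb', rfl⟩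
        refine ⟨a * a', A.mul_mem ha ha', b * b', B.mul_mem hb hb', ?_⟩
        have h := hc a' ha' b hb
        calc a * b * (a' * b') = a * (b * a') * b' := by group
          _ = a * (a' * b) * b' := by rw [← h]
          _ = a * a' * (b * b') := by group
      one_mem' := ⟨1, A.one_mem, 1, B.one_mem, by simp⟩
      inv_mem' := by
        rintro _ ⟨a, ha, b, hb, rfl⟩
        refine ⟨a⁻¹, A.inv_mem ha, b⁻¹, B.inv_mem hb, ?_⟩
        have h := hc a⁻¹ (A.inv_mem ha) b⁻¹ (B.inv_mem hb)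
        rw [mul_inv_rev, h] }
  have hA : A ≤ W := fun a ha => ⟨a, ha, 1, B.one_mem, by simp⟩
  have hB : B ≤ W := fun b hb => ⟨1, A.one_mem, b, hb, by simp⟩
  exact (sup_le hA hB) hx

theorem main (hFus : Fus.{u}) : TI.{u} := by
  intro G _ _ hG M K Ms Ks hP hInt z hz g hgz
  obtain ⟨hz1, hz2⟩ := hz
  obtain ⟨hgz1, -⟩ := hgz
  have hz1' : z ∈ K ⊔ Ks := hz1
  have hgz1' : g * z * g⁻¹ ∈ K ⊔ Ks := hgz1
  have hKsle : Ks ≤ Cfsg.sigmaCore M ⊓ Subgroup.centralizer (K : Set G) := le_of_eq hP.eKs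
  have hKsS : Ks ≤ Cfsg.sigmaCore M := hKsle.trans inf_le_left
  have hc : ∀ a ∈ K, ∀ b ∈ Ks, a * b = b * a := fun a ha b hb =>
    Subgroup.mem_centralizer_iff.mp (hKsle hb).2 a ha
  -- coprimality of `|K|` and `|Ks|`
  have hcop : (Nat.card K).Coprime (Nat.card Ks) := by
    by_contra h
    obtain ⟨p, hp, hpa, hpb⟩ := Nat.Prime.not_coprime_iff_dvd.mp h
    have h1 : p ∉ Cfsg.sigma M := (hP.hK.2.1 p hp hpa).2.2.1
    apply h1
    have h2 : p ∣ Nat.card (Cfsg.sigmaCore M) := hpb.trans (Subgroup.card_dvd_of_le hKsS)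
    have h3 : Nat.card (Cfsg.sigmaCore M) = Nat.card (Cfsg.piCore (Cfsg.sigma M) M) :=
      (Nat.card_congr
        ((Cfsg.piCore (Cfsg.sigma M) M).equivMapOfInjective M.subtype
          M.subtype_injective).toEquiv).symm
    rw [h3] at h2
    exact piCore_pi (Cfsg.sigma M) p hp h2
  obtain ⟨k, hk, s, hs, rfl⟩ := mem_sup_comm K Ks hc hz1'
  have hcomm : Commute k s := hc k hk s hs
  have hk1 : k ≠ 1 := by
    intro h
    apply hz2
    right
    rw [h, one_mul]
    exact hs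
  have hs1 : s ≠ 1 := by
    intro h
    apply hz2
    left
    rw [h, mul_one]
    exact hk
  have hka : k ^ Nat.card K = 1 :=
    orderOf_dvd_iff_pow_eq_one.mp (Subgroup.orderOf_dvd_natCard K hk)
  have hsb : s ^ Nat.card Ks = 1 :=
    orderOf_dvd_iff_pow_eq_one.mp (Subgroup.orderOf_dvd_natCard Ks hs)
  have hsupM : K ⊔ Ks ≤ M := by rw [← hInt]; exact inf_le_left
  have hsupMs : K ⊔ Ks ≤ Ms := by rw [← hInt]; exact inf_le_right
  have hx1 : s ^ Nat.card K ≠ 1 := by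
    intro h
    have hd1 : orderOf s ∣ Nat.card K := orderOf_dvd_iff_pow_eq_one.mpr h
    have hd2 : orderOf s ∣ Nat.card Ks := Subgroup.orderOf_dvd_natCard Ks hs
    have hd : orderOf s ∣ 1 := by
      have h3 := Nat.dvd_gcd hd1 hd2
      rwa [Nat.Coprime.gcd_eq_one hcop] at h3
    exact hs1 (orderOf_eq_one_iff.mp (Nat.dvd_one.mp hd))
  have hy1 : k ^ Nat.card Ks ≠ 1 := by
    intro h
    have hd1 : orderOf k ∣ Nat.card Ks := orderOf_dvd_iff_pow_eq_one.mpr h
    have hd2 : orderOf k ∣ Nat.card K := Subgroup.orderOf_dvd_natCard K hk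
    have hd : orderOf k ∣ 1 := by
      have h3 := Nat.dvd_gcd hd2 hd1
      rwa [Nat.Coprime.gcd_eq_one hcop] at h3
    exact hk1 (orderOf_eq_one_iff.mp (Nat.dvd_one.mp hd))
  have hcx : g * s ^ Nat.card K * g⁻¹ ∈ M := by
    have h1 : g * s ^ Nat.card K * g⁻¹ = (g * (k * s) * g⁻¹) ^ Nat.card K := by
      rw [conj_pow, hcomm.mul_pow, hka, one_mul]
    rw [h1]
    exact hsupM (Subgroup.pow_mem _ hgz1' _)
  have hcy : g * k ^ Nat.card Ks * g⁻¹ ∈ Ms := by
    have h1 : g * k ^ Nat.card Ks * g⁻¹ = (g * (k * s) * g⁻¹) ^ Nat.card Ks := by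
      rw [conj_pow, hcomm.mul_pow, hsb, mul_one]
    rw [h1]
    exact hsupMs (Subgroup.pow_mem _ hgz1' _)
  have hgM : g ∈ M := hFus hG M K Ms Ks hP _ (Ks.pow_mem hs _) hx1 g hcx
  have hgMs : g ∈ Ms := hFus hG Ms Ks M K hP.symm _ (K.pow_mem hk _) hy1 g hcy
  rw [← hInt]
  exact ⟨hgM, hgMs⟩

end Cfsg.Agent.Lib.Helper98.S68TI
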