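import Mathlib
import Cfsg.Prelude.Def_RootSubgroups
import Cfsg.Agent.Lib.Helper83.RankOne
import Cfsg.Agent.Lib.Helper98.Steinberg

set_option autoImplicit false

/-!
# Special rank one groups with abelian unipotent subgroups (helper98)

For a special rank one pair `(A, B)` with abelian `A`, `B` (`SP A B`) and the partner relation
`PRel A B a b` (`a ∈ A`, `b ∈ B` non-identity with `A^b = B^a`) we prove:

* `n(a) = a b⁻¹ a` interchanges `A` and `B` (`conjBy_n`), `PRel.inv`;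
* the basic identity `b(c) b(ac)⁻¹ = b(c (aμ_c)⁻¹)` (`hua`);
* `pow_partner`: if `A` has no torsion below `n` and `x ^ n ≠ 1` then `b(x ^ n) ^ n = b(x)`;
* `elementary_or_divisible`: `A` has prime exponent or is torsion-free and divisible;
* `stData_epow`: if `A` has exponent `p` then `t ↦ a ^ t`, `t ↦ b(a) ^ t` (`t : ZMod p`) satisfy
  the rank-one Steinberg relations.
-/

namespace Cfsg.Agent.Lib.Helper98.RankOneSp

open Cfsg Cfsg.Agent.Lib.Helper83.RankOne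

variable {G : Type*} [Group G]

/-- the partner relation `A^b = B^a` for non-identity `a ∈ A`, `b ∈ B` -/
def PRel (A B : Subgroup G) (a b : G) : Prop :=
  a ∈ A ∧ a ≠ 1 ∧ b ∈ B ∧ b ≠ 1 ∧ conjBy A b⁻¹ = conjBy B a⁻¹

lemma PRel.symm {A B : Subgroup G} {a b : G} (h : PRel A B a b) : PRel B A b a :=
  ⟨h.2.2.1, h.2.2.2.1, h.1, h.2.1, h.2.2.2.2.symm⟩

/-- special rank one pairs with abelian unipotent subgroups -/
structure SP (A B : Subgroup G) : Prop where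
  pair : IsRankOnePair A B
  commA : ∀ x ∈ A, ∀ y ∈ A, x * y = y * x
  commB : ∀ x ∈ B, ∀ y ∈ B, x * y = y * x
  braid : ∀ a b, PRel A B a b → a * b⁻¹ * a = b⁻¹ * a * b⁻¹

variable {A B : Subgroup G}

lemma SP.symm (S : SP A B) : SP B A where
  pair := RankOnePair_symm S.pair
  commA := S.commB
  commB := S.commA
  braid := by
    intro b a h
    have h1 := S.braid a b h.symm
    calc b * a⁻¹ * b = (b⁻¹ * a * b⁻¹)⁻¹ := by group
      _ = (a * b⁻¹ * a)⁻¹ := by rw [h1]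
      _ = a⁻¹ * b * a⁻¹ := by group

lemma SP.of_special (hp : IsRankOnePair A B) (hab : HasAbelianUnipotents A B)
    (hs : IsSpecialRankOnePair A B) : SP A B where
  pair := hp
  commA := fun x hx y hy => by
    haveI := hab.1
    exact setLike_mul_comm hx hy
  commB := fun x hx y hy => by
    haveI := hab.2
    exact setLike_mul_comm hx hy
  braid := by
    rintro a b ⟨ha, ha1, hb, hb1, hR⟩
    have h := hs.2 a ha ha1 b hb hb1 hR
    calc a * b⁻¹ * a = a * (b⁻¹ * a * b) * b⁻¹ := by group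
      _ = a * (a⁻¹ * b⁻¹ * a) * b⁻¹ := by rw [h]
      _ = b⁻¹ * a * b⁻¹ := by group

lemma exB (S : SP A B) {a : G} (ha : a ∈ A) (ha1 : a ≠ 1) : ∃ b, PRel A B a b := by
  obtain ⟨b, hb, hb1, h⟩ := S.pair.cond_left a ha ha1
  exact ⟨b, ha, ha1, hb, hb1, h⟩

lemma exA (S : SP A B) {b : G} (hb : b ∈ B) (hb1 : b ≠ 1) : ∃ a, PRel A B a b := by
  obtain ⟨a, h⟩ := exB S.symm hb hb1
  exact ⟨a, h.symm⟩

lemma unique_right (S : SP A B) {a b b' : G} (h : PRel A B a b) (h' : PRel A B a b') : b = b' :=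
  partner_unique S.pair h.2.2.1 h'.2.2.1 h.2.2.2.2 h'.2.2.2.2

lemma unique_left (S : SP A B) {a a' b : G} (h : PRel A B a b) (h' : PRel A B a' b) : a = a' :=
  partner_unique_left S.pair h.1 h'.1 h.2.2.2.2 h'.2.2.2.2

lemma inter_eq_one (S : SP A B) {x : G} (hA : x ∈ A) (hB : x ∈ B) : x = 1 :=
  eq_one_of_conjBy_eq S.pair hA (conjBy_of_mem hB)

/-- `n(a) = a b⁻¹ a` -/
def nE (a b : G) : G := a * b⁻¹ * a

lemma n_conj_a (S : SP A B) {a b : G} (h : PRel A B a b) : (nE a b)⁻¹ * a * nE a b = b⁻¹ := by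
  have hn := S.braid a b h
  unfold nE
  calc (a * b⁻¹ * a)⁻¹ * a * (a * b⁻¹ * a)
      = (a * b⁻¹ * a)⁻¹ * a * (b⁻¹ * a * b⁻¹) := by rw [← hn]
    _ = b⁻¹ := by group

lemma n_conj_b (S : SP A B) {a b : G} (h : PRel A B a b) : (nE a b)⁻¹ * b * nE a b = a⁻¹ := by
  have hn := S.braid a b h
  unfold nE
  calc (a * b⁻¹ * a)⁻¹ * b * (a * b⁻¹ * a)
      = (a * b⁻¹ * a)⁻¹ * b * (b⁻¹ * a * b⁻¹) := by rw [← hn]
    _ = a⁻¹ := by group

lemma n_conj_a' (S : SP A B) {a b : G} (h : PRel A B a b) : nE a b * a * (nE a b)⁻¹ = b⁻¹ := by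
  have h2 := n_conj_b S h
  calc nE a b * a * (nE a b)⁻¹ = (nE a b * a⁻¹ * (nE a b)⁻¹)⁻¹ := by group
    _ = (nE a b * ((nE a b)⁻¹ * b * nE a b) * (nE a b)⁻¹)⁻¹ := by rw [h2]
    _ = b⁻¹ := by group

lemma n_conj_b' (S : SP A B) {a b : G} (h : PRel A B a b) : nE a b * b * (nE a b)⁻¹ = a⁻¹ := by
  have h1 := n_conj_a S h
  calc nE a b * b * (nE a b)⁻¹ = (nE a b * b⁻¹ * (nE a b)⁻¹)⁻¹ := by group
    _ = (nE a b * ((nE a b)⁻¹ * a * nE a b) * (nE a b)⁻¹)⁻¹ := by rw [h1]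
    _ = a⁻¹ := by group

lemma n_mem {a b : G} (ha : a ∈ A) (hb : b ∈ B) : nE a b ∈ A ⊔ B := by
  have h1 : a ∈ A ⊔ B := Subgroup.mem_sup_left ha
  have h2 : b ∈ A ⊔ B := Subgroup.mem_sup_right hb
  exact mul_mem (mul_mem h1 (inv_mem h2)) h1

/-- an element of `⟨A, B⟩` centralizing a non-identity element of `A` normalizes `A` -/
lemma conjBy_eq_of_comm (S : SP A B) {g a : G} (hg : g ∈ A ⊔ B) (ha : a ∈ A) (ha1 : a ≠ 1)
    (hc : g * a * g⁻¹ = a) : conjBy A g = A := by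
  have h1 : conjBy A g = A ∨ ∃ a' ∈ A, conjBy A g = conjBy B a' :=
    conjBy_mem_OmegaSet S.pair hg A (Or.inl rfl)
  rcases h1 with h1 | ⟨a', ha', h1⟩
  · exact h1
  · exfalso
    have h2 : a ∈ conjBy A g := by
      have := conj_mem_conjBy ha g
      rwa [hc] at this
    rw [h1, mem_conjBy] at h2
    have h3 : a'⁻¹ * a * a' = a := by
      rw [S.commA a'⁻¹ (A.inv_mem ha') a ha]; group
    rw [h3] at h2
    exact ha1 (inter_eq_one S ha h2)

lemma n_sq_comm_a (S : SP A B) {a b : G} (h : PRel A B a b) :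
    (nE a b * nE a b) * a * (nE a b * nE a b)⁻¹ = a := by
  have h1 := n_conj_a S h
  have h2 := n_conj_a' S h
  calc (nE a b * nE a b) * a * (nE a b * nE a b)⁻¹
      = nE a b * (nE a b * a * (nE a b)⁻¹) * (nE a b)⁻¹ := by group
    _ = nE a b * ((nE a b)⁻¹ * a * nE a b) * (nE a b)⁻¹ := by rw [h2, h1]
    _ = a := by group

/-- `n(a)` interchanges `A` and `B` -/
lemma conjBy_n (S : SP A B) {a b : G} (h : PRel A B a b) :
    conjBy A (nE a b) = B ∧ conjBy B (nE a b) = A := by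
  have hn : nE a b ∈ A ⊔ B := n_mem h.1 h.2.2.1
  have hnn : nE a b * nE a b ∈ A ⊔ B := mul_mem hn hn
  have h1 : conjBy A (nE a b) = B := by
    unfold nE
    rw [← conjBy_conjBy, conjBy_of_mem h.1, ← conjBy_conjBy, h.2.2.2.2, conjBy_inv_cancel']
  have h2 : conjBy A (nE a b * nE a b) = A :=
    conjBy_eq_of_comm S hnn h.1 h.2.1 (n_sq_comm_a S h)
  refine ⟨h1, ?_⟩
  calc conjBy B (nE a b) = conjBy (conjBy A (nE a b)) (nE a b) := by rw [h1]
    _ = conjBy A (nE a b * nE a b) := conjBy_conjBy _ _ _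
    _ = A := h2

/-- `b(a⁻¹) = b(a)⁻¹` -/
lemma PRel.inv (S : SP A B) {a b : G} (h : PRel A B a b) : PRel A B a⁻¹ b⁻¹ := by
  obtain ⟨-, hB⟩ := conjBy_n S h
  have hn := S.braid a b h
  obtain ⟨ha, ha1, hb, hb1, hR⟩ := h
  refine ⟨A.inv_mem ha, inv_ne_one.mpr ha1, B.inv_mem hb, inv_ne_one.mpr hb1, ?_⟩
  rw [inv_inv, inv_inv]
  unfold nE at hB
  rw [hn] at hB
  rw [← conjBy_conjBy, conjBy_of_mem (B.inv_mem hb), ← conjBy_conjBy] at hB
  have h3 := conjBy_eq_iff.mp hB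
  rw [inv_inv] at h3
  exact h3.symm

lemma pt_mul (C : Subgroup G) (x g : G) : conjBy C (x * g)⁻¹ = conjBy (conjBy C x⁻¹) g⁻¹ := by
  rw [conjBy_conjBy, mul_inv_rev]

lemma pt_congr {C D : Subgroup G} {g g' : G} (h : conjBy C g⁻¹ = conjBy D g'⁻¹) (k : G) :
    conjBy C (g * k)⁻¹ = conjBy D (g' * k)⁻¹ := by
  rw [pt_mul, pt_mul, h]

lemma pt_injective (S : SP A B) {x x' : G} (hx : x ∈ A) (hx' : x' ∈ A)
    (h : conjBy B x⁻¹ = conjBy B x'⁻¹) : x = x' := by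
  have h1 : conjBy B (x' * x⁻¹) = B := by
    rw [← conjBy_conjBy, h, conjBy_inv_cancel']
  have h2 := eq_one_of_conjBy_eq S.pair (A.mul_mem hx' (A.inv_mem hx)) h1
  exact (mul_inv_eq_one.mp h2).symm

/-- the basic identity `b(c) b(ac)⁻¹ = b(c (aμ_c)⁻¹)`, where `b(aμ_c) = n(c)⁻¹ a n(c)` -/
lemma hua (S : SP A B) {c β a γ e : G} (hc : PRel A B c β) (ha : a ∈ A) (ha1 : a ≠ 1)
    (hac : PRel A B (a * c) γ) (he : PRel A B e ((nE c β)⁻¹ * a * nE c β)) :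
    PRel A B (c * e⁻¹) (β * γ⁻¹) := by
  have hγβ : γ * β⁻¹ ≠ 1 := by
    intro h
    have h' : γ = β := mul_inv_eq_one.mp h
    rw [h'] at hac
    have h5 : a * c = c := unique_left S hac hc
    exact ha1 (mul_right_cancel (b := c) (h5.trans (one_mul c).symm))
  obtain ⟨F, hF⟩ := exA S (B.mul_mem hac.2.2.1 (B.inv_mem hc.2.2.1)) hγβ
  have hswap := conjBy_n S hc
  have hn1 : a * nE c β = (a * c) * (β⁻¹ * c) := by unfold nE; group
  have e1 : conjBy B (a * nE c β)⁻¹ = conjBy B (F * c)⁻¹ := by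
    rw [hn1]
    calc conjBy B ((a * c) * (β⁻¹ * c))⁻¹ = conjBy A (γ * (β⁻¹ * c))⁻¹ :=
          pt_congr hac.2.2.2.2.symm _
      _ = conjBy A ((γ * β⁻¹) * c)⁻¹ := by rw [mul_assoc]
      _ = conjBy B (F * c)⁻¹ := pt_congr hF.2.2.2.2 _
  have h3 : conjBy B (nE c β)⁻¹ = A := (conjBy_eq_iff.mp hswap.1).symm
  have hn2 : a * nE c β = nE c β * ((nE c β)⁻¹ * a * nE c β) := by group
  have e2 : conjBy B (a * nE c β)⁻¹ = conjBy B e⁻¹ := by
    calc conjBy B (a * nE c β)⁻¹ = conjBy B (nE c β * ((nE c β)⁻¹ * a * nE c β))⁻¹ := by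
          rw [← hn2]
      _ = conjBy (conjBy B (nE c β)⁻¹) ((nE c β)⁻¹ * a * nE c β)⁻¹ := pt_mul _ _ _
      _ = conjBy A ((nE c β)⁻¹ * a * nE c β)⁻¹ := by rw [h3]
      _ = conjBy B e⁻¹ := he.2.2.2.2
  have hFc : F * c = e := pt_injective S (A.mul_mem hF.1 hc.1) he.1 (e1.symm.trans e2)
  have hF' : F = e * c⁻¹ := by rw [← hFc]; group
  have hR := PRel.inv S hF
  have e3 : F⁻¹ = c * e⁻¹ := by rw [hF']; group
  have e4 : (γ * β⁻¹)⁻¹ = β * γ⁻¹ := by group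
  rw [e3, e4] at hR
  exact hR

lemma conj_pow_eq {n x y : G} (h : n⁻¹ * x * n = y) (k : ℕ) : n⁻¹ * x ^ k * n = y ^ k := by
  subst h
  have h2 := conj_pow (i := k) (a := n⁻¹) (b := x)
  rw [inv_inv] at h2
  exact h2.symm

lemma pow_eq_one_iff' (S : SP A B) {x y : G} (h : PRel A B x y) (k : ℕ) :
    x ^ k = 1 ↔ y ^ k = 1 := by
  have h1 := conj_pow_eq (n_conj_a S h) k
  constructor
  · intro hx
    rw [hx] at h1
    have h2 : (y⁻¹) ^ k = 1 := by rw [← h1]; group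
    rwa [inv_pow, inv_eq_one] at h2
  · intro hy
    have h2 : (y⁻¹) ^ k = 1 := by rw [inv_pow, hy, inv_one]
    rw [h2] at h1
    generalize x ^ k = z at h1 ⊢
    have h3 : z = nE x y * ((nE x y)⁻¹ * z * nE x y) * (nE x y)⁻¹ := by group
    rw [h3, h1]; group

lemma exp_symm (S : SP A B) {p : ℕ} (hA : ∀ x ∈ A, x ^ p = 1) : ∀ z ∈ B, z ^ p = 1 := by
  intro z hz
  by_cases hz1 : z = 1
  · rw [hz1, one_pow]
  · obtain ⟨w, hw⟩ := exA S hz hz1
    exact (pow_eq_one_iff' S hw p).mp (hA w hw.1)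

/-- no torsion below `n` -/
def NT (A : Subgroup G) (n : ℕ) : Prop := ∀ z ∈ A, z ≠ 1 → ∀ j, 1 ≤ j → j < n → z ^ j ≠ 1

lemma NT.mono {n m : ℕ} (h : NT A n) (hm : m ≤ n) : NT A m :=
  fun z hz hz1 j hj hjm => h z hz hz1 j hj (lt_of_lt_of_le hjm hm)

lemma NT.symm (S : SP A B) {n : ℕ} (h : NT A n) : NT B n := by
  intro z hz hz1 j hj hjn hzj
  obtain ⟨w, hw⟩ := exA S hz hz1
  exact h w hw.1 hw.2.1 j hj hjn ((pow_eq_one_iff' S hw j).mpr hzj)

/-- **The power identity** `b(x ^ n) ^ n = b(x)`. -/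
theorem pow_partner (n : ℕ) (hn : 1 ≤ n) : ∀ (A B : Subgroup G), SP A B → ∀ x y, PRel A B x y →
    NT A n → x ^ n ≠ 1 → ∃ z, PRel A B (x ^ n) z ∧ z ^ n = y := by
  induction n, hn using Nat.le_induction with
  | base =>
    intro A B S x y h _ _
    exact ⟨y, by rwa [pow_one], pow_one y⟩
  | succ k hk ih =>
    intro A B S x y h hNT hx
    have hNTk : NT A k := hNT.mono (Nat.le_succ k)
    have hxk : x ^ k ≠ 1 := hNT x h.1 h.2.1 k hk (Nat.lt_succ_self k)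
    have hyk : y ^ k ≠ 1 := fun hy => hxk ((pow_eq_one_iff' S h k).mpr hy)
    obtain ⟨d, hd, hdk⟩ := ih B A S.symm y x h.symm (hNTk.symm S) hyk
    have hd' : PRel A B d (y ^ k) := hd.symm
    have hd'' : PRel A B d⁻¹ (y ^ k)⁻¹ := PRel.inv S hd'
    have hu : (nE x y)⁻¹ * x ^ k * nE x y = (y ^ k)⁻¹ := by
      rw [conj_pow_eq (n_conj_a S h) k, inv_pow]
    have hxA : x ^ (k + 1) ∈ A := A.pow_mem h.1 _
    obtain ⟨γ, hγ⟩ := exB S hxA hx
    have hac : PRel A B (x ^ k * x) γ := by rwa [← pow_succ]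
    have he : PRel A B d⁻¹ ((nE x y)⁻¹ * x ^ k * nE x y) := by rw [hu]; exact hd''
    have hH := hua S h (A.pow_mem h.1 k) hxk hac he
    rw [inv_inv] at hH
    have hw : x * d = d ^ (k + 1) := by rw [pow_succ, hdk]
    have hwk : (x * d) ^ k = x ^ (k + 1) := by
      rw [hw, ← pow_mul, mul_comm, pow_mul, hdk]
    have hwk1 : (x * d) ^ k ≠ 1 := by rw [hwk]; exact hx
    obtain ⟨z, hz, hzk⟩ := ih A B S (x * d) (y * γ⁻¹) hH hNTk hwk1
    rw [hwk] at hz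
    have hzγ : z = γ := unique_right S hz hγ
    rw [hzγ] at hzk
    refine ⟨γ, hγ, ?_⟩
    rw [pow_succ, hzk]; group

lemma exists_prime_pow_eq_one {z : G} (hz : z ∈ A) (hz1 : z ≠ 1) {j : ℕ} (hj : 1 ≤ j)
    (hzj : z ^ j = 1) : ∃ q : ℕ, q.Prime ∧ q ≤ j ∧ ∃ w ∈ A, w ≠ 1 ∧ w ^ q = 1 := by
  obtain ⟨M, hM⟩ : ∃ M, M = orderOf z := ⟨_, rfl⟩
  have hdvd : M ∣ j := by rw [hM]; exact orderOf_dvd_of_pow_eq_one hzj
  have hpos : 0 < M := Nat.pos_of_dvd_of_pos hdvd hj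
  have hne1 : M ≠ 1 := fun h => hz1 (orderOf_eq_one_iff.mp (hM ▸ h))
  have hqp : M.minFac.Prime := Nat.minFac_prime hne1
  have hqM : M.minFac ∣ M := Nat.minFac_dvd M
  refine ⟨M.minFac, hqp, le_trans (Nat.le_of_dvd hpos hqM) (Nat.le_of_dvd hj hdvd),
    z ^ (M / M.minFac), A.pow_mem hz _, ?_, ?_⟩
  · intro h
    have h2 : M ∣ M / M.minFac := by rw [hM]; exact orderOf_dvd_of_pow_eq_one (hM ▸ h)
    have h3 : M / M.minFac < M := Nat.div_lt_self hpos hqp.one_lt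
    have h4 : 0 < M / M.minFac := Nat.div_pos (Nat.le_of_dvd hpos hqM) hqp.pos
    exact absurd (Nat.le_of_dvd h4 h2) (not_le.mpr h3)
  · rw [← pow_mul, Nat.div_mul_cancel hqM, hM, pow_orderOf_eq_one]

/-- **Timmesfeld I(5.2)**: `A` has prime exponent, or is torsion-free and divisible. -/
theorem elementary_or_divisible (S : SP A B) :
    (∃ p : ℕ, p.Prime ∧ ∀ a ∈ A, a ^ p = 1) ∨
    ((∀ a ∈ A, a ≠ 1 → ¬ IsOfFinOrder a) ∧ ∀ a ∈ A, ∀ n : ℕ, 0 < n → ∃ c ∈ A, c ^ n = a) := by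
  classical
  by_cases hT : ∃ q : ℕ, q.Prime ∧ ∃ y ∈ A, y ≠ 1 ∧ y ^ q = 1
  · left
    obtain ⟨hp, y, hy, hy1, hyp⟩ := Nat.find_spec hT
    have hmin : ∀ q, q < Nat.find hT → ¬ (q.Prime ∧ ∃ y ∈ A, y ≠ 1 ∧ y ^ q = 1) :=
      fun q hq => Nat.find_min hT hq
    have hNT : NT A (Nat.find hT) := by
      intro z hz hz1 j hj hjp hzj
      obtain ⟨q, hq, hqj, w, hw, hw1, hwq⟩ := exists_prime_pow_eq_one hz hz1 hj hzj
      exact hmin q (lt_of_le_of_lt hqj hjp) ⟨hq, w, hw, hw1, hwq⟩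
    refine ⟨Nat.find hT, hp, ?_⟩
    intro c hc
    by_contra hcp
    have hc1 : c ≠ 1 := by
      rintro rfl
      exact hcp (one_pow _)
    have hyc1 : y * c ≠ 1 := by
      intro h
      have h2 : c = y⁻¹ := eq_inv_of_mul_eq_one_right h
      apply hcp
      rw [h2, inv_pow, hyp, inv_one]
    have hpow : (y * c) ^ (Nat.find hT) = c ^ (Nat.find hT) := by
      have hcm : Commute y c := S.commA y hy c hc
      rw [hcm.mul_pow, hyp, one_mul]
    obtain ⟨β, hβ⟩ := exB S hc hc1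
    obtain ⟨β', hβ'⟩ := exB S (A.mul_mem hy hc) hyc1
    have hp1 : 1 ≤ Nat.find hT := hp.one_lt.le
    obtain ⟨z, hz, hzp⟩ := pow_partner _ hp1 A B S c β hβ hNT hcp
    obtain ⟨z', hz', hzp'⟩ := pow_partner _ hp1 A B S (y * c) β' hβ' hNT
      (by rw [hpow]; exact hcp)
    rw [hpow] at hz'
    have hzz : z = z' := unique_right S hz hz'
    have hββ : β = β' := by rw [← hzp, ← hzp', hzz]
    rw [← hββ] at hβ'
    have h5 : c = y * c := unique_left S hβ hβ'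
    exact hy1 (mul_right_cancel (b := c) (h5.symm.trans (one_mul c).symm))
  · right
    push Not at hT
    have htf : ∀ a ∈ A, a ≠ 1 → ∀ j, 1 ≤ j → a ^ j ≠ 1 := by
      intro a ha ha1 j hj haj
      obtain ⟨q, hq, _, w, hw, hw1, hwq⟩ := exists_prime_pow_eq_one ha ha1 hj haj
      exact hT q hq w hw hw1 hwq
    refine ⟨?_, ?_⟩
    · intro a ha ha1 hfin
      obtain ⟨n, hn, hn1⟩ := isOfFinOrder_iff_pow_eq_one.mp hfin
      exact htf a ha ha1 n hn hn1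
    · intro a ha n hn
      by_cases ha1 : a = 1
      · exact ⟨1, A.one_mem, by rw [one_pow, ha1]⟩
      · obtain ⟨y, hy⟩ := exB S ha ha1
        have hNT : NT A n := fun z hz hz1 j hj _ => htf z hz hz1 j hj
        have hyn : y ^ n ≠ 1 := fun h => htf a ha ha1 n hn ((pow_eq_one_iff' S hy n).mpr h)
        obtain ⟨z, hz, hzn⟩ := pow_partner n hn B A S.symm y a hy.symm (hNT.symm S) hyn
        exact ⟨z, hz.2.2.1, hzn⟩

/-- a non-identity element of `B` is not conjugated into `B` by a non-identity element of `A` -/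
lemma eq_one_of_conj_mem (S : SP A B) {a₀ y : G} (ha₀ : a₀ ∈ A) (hy : y ∈ B) (hy1 : y ≠ 1)
    (h : a₀ * y * a₀⁻¹ ∈ B) : a₀ = 1 := by
  by_contra h1
  obtain ⟨b₁, hb₁⟩ := exB S (A.inv_mem ha₀) (inv_ne_one.mpr h1)
  have hR := hb₁.2.2.2.2
  rw [inv_inv] at hR
  have h2 : a₀ * y * a₀⁻¹ ∈ conjBy B a₀ := conj_mem_conjBy hy a₀
  rw [← hR, mem_conjBy, inv_inv] at h2
  have h3 : b₁ * (a₀ * y * a₀⁻¹) * b₁⁻¹ = a₀ * y * a₀⁻¹ := by
    rw [S.commB b₁ hb₁.2.2.1 _ h]; group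
  rw [h3] at h2
  have h4 := inter_eq_one S h2 h
  apply hy1
  have h5 : y = a₀⁻¹ * (a₀ * y * a₀⁻¹) * a₀ := by group
  rw [h5, h4]; group

/-! ### exponent `p` -/

section prime
variable {p : ℕ} [Fact p.Prime]

/-- `x ^ t` for `t : ZMod p` -/
def epow (x : G) (t : ZMod p) : G := x ^ t.val

lemma pow_mod_p {x : G} (hx : x ^ p = 1) (m : ℕ) : x ^ (m % p) = x ^ m := by
  conv_rhs => rw [← Nat.mod_add_div m p]
  rw [pow_add, pow_mul, hx, one_pow, mul_one]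

lemma epow_mem {x : G} (hx : x ∈ A) (t : ZMod p) : epow x t ∈ A := A.pow_mem hx _

lemma epow_add {x : G} (hx : x ^ p = 1) (t u : ZMod p) : epow x (t + u) = epow x t * epow x u := by
  unfold epow
  rw [ZMod.val_add, pow_mod_p hx, pow_add]

lemma epow_zero (x : G) : epow x (0 : ZMod p) = 1 := by
  unfold epow; rw [ZMod.val_zero, pow_zero]

lemma epow_one (x : G) : epow x (1 : ZMod p) = x := by
  unfold epow
  rw [ZMod.val_one_eq_one_mod, Nat.mod_eq_of_lt (Fact.out : p.Prime).one_lt, pow_one]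

lemma epow_neg {x : G} (hx : x ^ p = 1) (t : ZMod p) : epow x (-t) = (epow x t)⁻¹ := by
  apply eq_inv_of_mul_eq_one_left
  rw [← epow_add hx, neg_add_cancel, epow_zero]

lemma epow_pow {x : G} (hx : x ^ p = 1) (t u : ZMod p) : (epow x t) ^ u.val = epow x (t * u) := by
  unfold epow
  rw [← pow_mul, ZMod.val_mul, pow_mod_p hx]

lemma epow_injective {x : G} (hx : x ^ p = 1) (hx1 : x ≠ 1) :
    Function.Injective (epow (p := p) x) := by
  intro t u h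
  unfold epow at h
  have ho : orderOf x = p := orderOf_eq_prime hx hx1
  have h2 := pow_eq_pow_iff_modEq.mp h
  rw [ho] at h2
  have h3 : t.val = u.val := Nat.ModEq.eq_of_lt_of_lt h2 (ZMod.val_lt t) (ZMod.val_lt u)
  exact ZMod.val_injective p h3

/-- `b(a ^ t) = b(a) ^ (t⁻¹)` -/
lemma prel_epow (S : SP A B) (hA : ∀ x ∈ A, x ^ p = 1) {a b : G} (h : PRel A B a b)
    (t : ZMod p) (ht : t ≠ 0) : PRel A B (epow a t) (epow b t⁻¹) := by
  have hB : ∀ z ∈ B, z ^ p = 1 := exp_symm S hA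
  have hNTp : NT A p := by
    intro z hz hz1 j hj hjp hzj
    have ho : orderOf z = p := orderOf_eq_prime (hA z hz) hz1
    have h2 := orderOf_dvd_of_pow_eq_one hzj
    rw [ho] at h2
    exact absurd (Nat.le_of_dvd hj h2) (not_le.mpr hjp)
  have hv1 : 1 ≤ t.val := Nat.one_le_iff_ne_zero.mpr (fun h0 => ht ((ZMod.val_eq_zero t).mp h0))
  have hvp : t.val < p := ZMod.val_lt t
  have hat : a ^ t.val ≠ 1 := hNTp a h.1 h.2.1 t.val hv1 hvp
  obtain ⟨z, hz, hzt⟩ := pow_partner t.val hv1 A B S a b h (hNTp.mono hvp.le) hat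
  have hzp : z ^ p = 1 := hB z hz.2.2.1
  have hzE : z = epow b t⁻¹ := by
    calc z = epow z (t * t⁻¹) := by rw [mul_inv_cancel₀ ht, epow_one]
      _ = (epow z t) ^ (t⁻¹).val := (epow_pow hzp t t⁻¹).symm
      _ = epow b t⁻¹ := by unfold epow; rw [hzt]
  rw [← hzE]
  exact hz

open Cfsg.Agent.Lib.Helper98.Steinberg in
/-- **The Steinberg relations** for `t ↦ a ^ t`, `t ↦ b(a) ^ t`. -/
theorem stData_epow (S : SP A B) (hA : ∀ x ∈ A, x ^ p = 1) {a b : G} (h : PRel A B a b) :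
    StData (epow (p := p) a) (epow b) := by
  have ha := hA a h.1
  have hb := exp_symm S hA b h.2.2.1
  refine ⟨fun t u => (epow_add ha t u).symm, fun t u => (epow_add hb t u).symm, ?_, ?_⟩
  · intro t u ht
    have hR := prel_epow S hA h t ht
    have e1 : epow b (-t⁻¹) = (epow b t⁻¹)⁻¹ := epow_neg hb _
    rw [e1]
    have hc : (epow a t * (epow b t⁻¹)⁻¹ * epow a t) * epow a t *
        (epow a t * (epow b t⁻¹)⁻¹ * epow a t)⁻¹ = (epow b t⁻¹)⁻¹ := n_conj_a' S hR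
    have e2 : epow a u = (epow a t) ^ (t⁻¹ * u).val := by
      rw [epow_pow ha, ← mul_assoc, mul_inv_cancel₀ ht, one_mul]
    rw [e2, ← conj_pow, hc, inv_pow, epow_pow hb, ← epow_neg hb]
    congr 1
    ring
  · intro t u ht
    have hR := prel_epow S hA h t⁻¹ (inv_ne_zero ht)
    rw [inv_inv] at hR
    have e1 : epow a (-t⁻¹) = (epow a t⁻¹)⁻¹ := epow_neg ha _
    rw [e1]
    have hc : (epow b t * (epow a t⁻¹)⁻¹ * epow b t) * epow b t *
        (epow b t * (epow a t⁻¹)⁻¹ * epow b t)⁻¹ = (epow a t⁻¹)⁻¹ := n_conj_a' S.symm hR.symm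
    have e2 : epow b u = (epow b t) ^ (t⁻¹ * u).val := by
      rw [epow_pow hb, ← mul_assoc, mul_inv_cancel₀ ht, one_mul]
    rw [e2, ← conj_pow, hc, inv_pow, epow_pow ha, ← epow_neg ha]
    congr 1
    ring

end prime

end Cfsg.Agent.Lib.Helper98.RankOneSp
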