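import Mathlib
import Cfsg.Prelude.Def_RootSubgroups
import Cfsg.Agent.Lib.Helper83.RankOne
import Cfsg.Agent.Lib.Helper98.RankOneSp

set_option autoImplicit false

/-!
# Special rank one groups with abelian unipotent subgroups, II (helper98)

`le_comm_diag`: if `A` has more than three elements then `A ≤ ⁅A, H⁆`, `H = N(A) ∩ N(B)` the
diagonal subgroup; `commutator_eq_top`: then `⟨A, B⟩` is perfect.
-/

namespace Cfsg.Agent.Lib.Helper98.RankOneSp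

open Cfsg Cfsg.Agent.Lib.Helper83.RankOne

variable {G : Type*} [Group G] {A B : Subgroup G}

/-- conjugating the partner relation by `n(c)` -/
lemma PRel.conj_n (S : SP A B) {c β e ε : G} (hc : PRel A B c β) (he : PRel A B e ε) :
    PRel A B ((nE c β)⁻¹ * ε * nE c β) ((nE c β)⁻¹ * e * nE c β) := by
  obtain ⟨hAn, hBn⟩ := conjBy_n S hc
  refine ⟨?_, ?_, ?_, ?_, ?_⟩
  · have h1 : ε ∈ conjBy A (nE c β) := by rw [hAn]; exact he.2.2.1
    exact mem_conjBy.mp h1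
  · intro h1
    apply he.2.2.2.1
    have h2 : ε = nE c β * ((nE c β)⁻¹ * ε * nE c β) * (nE c β)⁻¹ := by group
    rw [h2, h1]; group
  · have h1 : e ∈ conjBy B (nE c β) := by rw [hBn]; exact he.1
    exact mem_conjBy.mp h1
  · intro h1
    apply he.2.1
    have h2 : e = nE c β * ((nE c β)⁻¹ * e * nE c β) * (nE c β)⁻¹ := by group
    rw [h2, h1]; group
  · have e1 : ((nE c β)⁻¹ * e * nE c β)⁻¹ = ((nE c β)⁻¹ * e⁻¹) * nE c β := by group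
    have e2 : ((nE c β)⁻¹ * ε * nE c β)⁻¹ = ((nE c β)⁻¹ * ε⁻¹) * nE c β := by group
    rw [e1, e2]
    calc conjBy A (((nE c β)⁻¹ * e⁻¹) * nE c β)
        = conjBy (conjBy A (nE c β)) ((nE c β)⁻¹ * e⁻¹) := (conjBy_conjBy _ _ _).symm
      _ = conjBy B ((nE c β)⁻¹ * e⁻¹) := by rw [hAn]
      _ = conjBy (conjBy B e⁻¹) (nE c β)⁻¹ := (conjBy_conjBy _ _ _).symm
      _ = conjBy (conjBy A ε⁻¹) (nE c β)⁻¹ := by rw [he.2.2.2.2]
      _ = conjBy A ((nE c β)⁻¹ * ε⁻¹) := conjBy_conjBy _ _ _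
      _ = conjBy (conjBy B (nE c β)) ((nE c β)⁻¹ * ε⁻¹) := by rw [hBn]
      _ = conjBy B (((nE c β)⁻¹ * ε⁻¹) * nE c β) := conjBy_conjBy _ _ _

/-- the Hua element `n(e)⁻¹ n(c)` lies in the diagonal subgroup -/
lemma hua_mem (S : SP A B) {c β e ε : G} (hc : PRel A B c β) (he : PRel A B e ε) :
    (nE e ε)⁻¹ * nE c β ∈ rankOneDiagonal A B := by
  obtain ⟨hAc, hBc⟩ := conjBy_n S hc
  obtain ⟨hAe, hBe⟩ := conjBy_n S he
  have hnc : nE c β ∈ A ⊔ B := n_mem hc.1 hc.2.2.1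
  have hne : nE e ε ∈ A ⊔ B := n_mem he.1 he.2.2.1
  show (nE e ε)⁻¹ * nE c β ∈
    (A ⊔ B) ⊓ Subgroup.normalizer (A : Set G) ⊓ Subgroup.normalizer (B : Set G)
  refine ⟨⟨(A ⊔ B).mul_mem ((A ⊔ B).inv_mem hne) hnc, ?_⟩, ?_⟩
  · show (nE e ε)⁻¹ * nE c β ∈ Subgroup.normalizer (A : Set G)
    rw [mem_normalizer_iff_conjBy, ← conjBy_conjBy, hAc]
    exact (conjBy_eq_iff.mp hAe).symm
  · show (nE e ε)⁻¹ * nE c β ∈ Subgroup.normalizer (B : Set G)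
    rw [mem_normalizer_iff_conjBy, ← conjBy_conjBy, hBc]
    exact (conjBy_eq_iff.mp hBe).symm

lemma half (S : SP A B) {c s β σ : G} (hc : PRel A B c β) (hs : PRel A B s σ) (hcs : c ≠ s) :
    ∃ t, s⁻¹ * t ∈ ⁅A, rankOneDiagonal A B⁆ ∧ PRel A B t (β * σ⁻¹) := by
  have he_mem : s * c⁻¹ ∈ A := A.mul_mem hs.1 (A.inv_mem hc.1)
  have he1 : s * c⁻¹ ≠ 1 := fun h => hcs (mul_inv_eq_one.mp h).symm
  obtain ⟨ε, hε⟩ := exB S he_mem he1
  have hh := hua_mem S hc hε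
  have hm := PRel.conj_n S hc hε
  have hac : PRel A B (s * c⁻¹ * c) σ := by
    rw [inv_mul_cancel_right]; exact hs
  have hH := hua S hc he_mem he1 hac hm
  refine ⟨c * ((nE c β)⁻¹ * ε * nE c β)⁻¹, ?_, hH⟩
  have h1 := Subgroup.commutator_mem_commutator (A.inv_mem he_mem)
    ((rankOneDiagonal A B).inv_mem hh)
  rw [commutatorElement_def] at h1
  have h2 : (s * c⁻¹)⁻¹ * ((nE (s * c⁻¹) ε)⁻¹ * nE c β)⁻¹ * (s * c⁻¹)⁻¹⁻¹ *
        ((nE (s * c⁻¹) ε)⁻¹ * nE c β)⁻¹⁻¹ =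
      (s * c⁻¹)⁻¹ * ((nE c β)⁻¹ * ε * nE c β)⁻¹ := by
    have h3 : (s * c⁻¹)⁻¹ * ((nE (s * c⁻¹) ε)⁻¹ * nE c β)⁻¹ * (s * c⁻¹)⁻¹⁻¹ *
        ((nE (s * c⁻¹) ε)⁻¹ * nE c β)⁻¹⁻¹ =
        (s * c⁻¹)⁻¹ * ((nE c β)⁻¹ * (nE (s * c⁻¹) ε * (s * c⁻¹) * (nE (s * c⁻¹) ε)⁻¹) *
          nE c β) := by group
    rw [h3, n_conj_a' S hε]
    group
  rw [h2] at h1
  have hcomm : c * s⁻¹ = s⁻¹ * c := S.commA c hc.1 s⁻¹ (A.inv_mem hs.1)
  have e5 : s⁻¹ * (c * ((nE c β)⁻¹ * ε * nE c β)⁻¹) =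
      (s * c⁻¹)⁻¹ * ((nE c β)⁻¹ * ε * nE c β)⁻¹ := by
    have e6 : (s * c⁻¹)⁻¹ = c * s⁻¹ := by group
    rw [e6, hcomm]
    exact (mul_assoc _ _ _).symm
  rw [e5]
  exact h1

/-- `c * s ∈ ⁅A, H⁆` for distinct non-identity `c, s ∈ A` -/
lemma mul_mem_comm (S : SP A B) {c s : G} (hc : c ∈ A) (hc1 : c ≠ 1) (hs : s ∈ A) (hs1 : s ≠ 1)
    (hcs : c ≠ s) : c * s ∈ ⁅A, rankOneDiagonal A B⁆ := by
  obtain ⟨β, hβ⟩ := exB S hc hc1
  obtain ⟨σ, hσ⟩ := exB S hs hs1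
  obtain ⟨t, ht1, ht2⟩ := half S hβ hσ hcs
  obtain ⟨t', ht1', ht2'⟩ := half S hσ hβ (Ne.symm hcs)
  have h3 := PRel.inv S ht2
  have e4 : (β * σ⁻¹)⁻¹ = σ * β⁻¹ := by group
  rw [e4] at h3
  have htt : t' = t⁻¹ := unique_left S ht2' h3
  rw [htt] at ht1'
  have h5 := mul_mem ht1 ht1'
  have ht : t ∈ A := ht2.1
  have hcomm : t * c⁻¹ = c⁻¹ * t := S.commA t ht c⁻¹ (A.inv_mem hc)
  have e6 : (s⁻¹ * t) * (c⁻¹ * t⁻¹) = (c * s)⁻¹ := by
    calc (s⁻¹ * t) * (c⁻¹ * t⁻¹) = s⁻¹ * (t * c⁻¹) * t⁻¹ := by group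
      _ = s⁻¹ * (c⁻¹ * t) * t⁻¹ := by rw [hcomm]
      _ = (c * s)⁻¹ := by group
  rw [e6] at h5
  exact inv_mem_iff.mp h5

lemma exists_not_mem3 (hcard : ¬ ENat.card A ≤ 3) (x y z : G) :
    ∃ c ∈ A, c ≠ x ∧ c ≠ y ∧ c ≠ z := by
  by_contra hcon
  push Not at hcon
  apply hcard
  have hsub : (A : Set G) ⊆ {x, y, z} := by
    intro c hc
    by_cases h1 : c = x
    · simp [h1]
    · by_cases h2 : c = y
      · simp [h2]
      · have h3 := hcon c hc h1 h2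
        simp [h3]
  have h1 : (A : Set G).encard ≤ ({x, y, z} : Set G).encard := Set.encard_le_encard hsub
  have h2 : ({x, y, z} : Set G).encard ≤ 3 := by
    calc ({x, y, z} : Set G).encard ≤ ({y, z} : Set G).encard + 1 := Set.encard_insert_le _ _
      _ ≤ (({z} : Set G).encard + 1) + 1 := by
          gcongr
          exact Set.encard_insert_le _ _
      _ = 3 := by rw [Set.encard_singleton]; norm_num
  exact le_trans h1 h2

/-- **`A = ⁅A, H⁆`** when `A` has more than three elements. -/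
theorem le_comm_diag (S : SP A B) (hcard : ¬ ENat.card A ≤ 3) :
    A ≤ ⁅A, rankOneDiagonal A B⁆ := by
  intro x hx
  by_cases hx1 : x = 1
  · rw [hx1]; exact one_mem _
  obtain ⟨c₁, hc₁, h11, h12, -⟩ := exists_not_mem3 hcard 1 x x
  obtain ⟨c₂, hc₂, h21, h22, h23⟩ := exists_not_mem3 hcard 1 x c₁
  have key : ∃ c ∈ A, c ≠ 1 ∧ c ≠ x ∧ c * c ≠ x := by
    by_cases hsq1 : c₁ * c₁ = x
    · by_cases hsq2 : c₂ * c₂ = x
      · exfalso
        have hg1 : c₁ * c₂⁻¹ ≠ 1 := fun h => h23 (mul_inv_eq_one.mp h).symm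
        have hgA : c₁ * c₂⁻¹ ∈ A := A.mul_mem hc₁ (A.inv_mem hc₂)
        have hcomm : c₂⁻¹ * c₁ = c₁ * c₂⁻¹ := S.commA _ (A.inv_mem hc₂) _ hc₁
        have hg2 : (c₁ * c₂⁻¹) ^ 2 = 1 := by
          have e : (c₁ * c₂⁻¹) ^ 2 = c₁ * (c₂⁻¹ * c₁) * c₂⁻¹ := by rw [pow_two]; group
          rw [e, hcomm]
          have e2 : c₁ * (c₁ * c₂⁻¹) * c₂⁻¹ = (c₁ * c₁) * (c₂ * c₂)⁻¹ := by group
          rw [e2, hsq1, hsq2, mul_inv_cancel]
        rcases elementary_or_divisible S with ⟨p, hp, hexp⟩ | ⟨htf, -⟩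
        · have ho : orderOf (c₁ * c₂⁻¹) = 2 := orderOf_eq_prime hg2 hg1
          have hdvd := orderOf_dvd_of_pow_eq_one (hexp _ hgA)
          rw [ho] at hdvd
          have hp2 : 2 = p := (Nat.prime_dvd_prime_iff_eq Nat.prime_two hp).mp hdvd
          have h4 : c₁ ^ 2 = 1 := by rw [hp2]; exact hexp c₁ hc₁
          rw [pow_two, hsq1] at h4
          exact hx1 h4
        · exact htf _ hgA hg1 (isOfFinOrder_iff_pow_eq_one.mpr ⟨2, by norm_num, hg2⟩)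
      · exact ⟨c₂, hc₂, h21, h22, hsq2⟩
    · exact ⟨c₁, hc₁, h11, h12, hsq1⟩
  obtain ⟨c, hc, hc1, hcx, hcc⟩ := key
  have hs : c⁻¹ * x ∈ A := A.mul_mem (A.inv_mem hc) hx
  have hs1 : c⁻¹ * x ≠ 1 := fun h => hcx (inv_mul_eq_one.mp h)
  have hcs : c ≠ c⁻¹ * x := by
    intro h
    apply hcc
    calc c * c = c * (c⁻¹ * x) := by rw [← h]
      _ = x := by group
  have h5 := mul_mem_comm S hc hc1 hs hs1 hcs
  rwa [mul_inv_cancel_left] at h5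

/-- `⟨A, B⟩ = G` is perfect when `A` has more than three elements -/
theorem commutator_eq_top (S : SP A B) (hAB : A ⊔ B = ⊤) (hcard : ¬ ENat.card A ≤ 3) :
    commutator G = ⊤ := by
  have h1 : ⁅A, rankOneDiagonal A B⁆ ≤ commutator G := by
    rw [_root_.commutator_def]
    exact Subgroup.commutator_mono le_top le_top
  have hA' : A ≤ commutator G := le_trans (le_comm_diag S hcard) h1
  obtain ⟨a, ha, ha1⟩ := exists_mem_ne_one (left_ne_bot S.pair)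
  obtain ⟨b, hb⟩ := exB S ha ha1
  have hBn := (conjBy_n S hb).1
  have hB' : B ≤ commutator G := by
    rw [← hBn]
    intro y hy
    rw [mem_conjBy] at hy
    have h2 := hA' hy
    have h3 := (inferInstance : (commutator G).Normal).conj_mem _ h2 (nE a b)
    have e : nE a b * ((nE a b)⁻¹ * y * nE a b) * (nE a b)⁻¹ = y := by group
    rwa [e] at h3
  rw [eq_top_iff, ← hAB]
  exact sup_le hA' hB'

end Cfsg.Agent.Lib.Helper98.RankOneSp
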