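import Mathlib
import Cfsg.Agent.Lib.Helper98.CExt
import Cfsg.Agent.Lib.Helper98.StNF

set_option autoImplicit false

/-!
# Central extensions of `SL_n(F)`, `n ≥ 4`, split (helper98)

Given a surjection `φ : Y →* SL_n(F)` with central kernel (`F` a finite field, `n ≥ 4`) such that
lifts of elementary matrices `x_ij`, `x_kl` on four distinct indices commute (`F1Hyp`; automatic
for `n ≥ 5`), the elements `s_ij(t) = ⁅lift x_ih(1), lift x_hj(t)⁆` satisfy the Steinberg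
relations, so `φ` has a section.
-/

open scoped commutatorElement

namespace Cfsg.Agent.Lib.Helper98.SplitN

open Matrix
open Cfsg.Agent.Lib.Helper98.CExt Cfsg.Agent.Lib.Helper98.StN

/-- additivity of a commutator in the second variable -/
lemma comm_mul_right {G : Type*} [Group G] (y z₁ z₂ : G)
    (h : z₁ * ⁅y, z₂⁆ = ⁅y, z₂⁆ * z₁) : ⁅y, z₁ * z₂⁆ = ⁅y, z₁⁆ * ⁅y, z₂⁆ := by
  calc ⁅y, z₁ * z₂⁆ = ⁅y, z₁⁆ * (z₁ * ⁅y, z₂⁆) * z₁⁻¹ := by
        simp only [commutatorElement_def]; group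
    _ = ⁅y, z₁⁆ * (⁅y, z₂⁆ * z₁) * z₁⁻¹ := by rw [h]
    _ = ⁅y, z₁⁆ * ⁅y, z₂⁆ := by group

/-- the Yang–Baxter type identity -/
lemma yb_aux {G : Type*} [Group G] (u v w : G) (huw : u * w = w * u)
    (hab : ⁅u, v⁆ * ⁅v, w⁆ = ⁅v, w⁆ * ⁅u, v⁆)
    (hcb : ⁅u, ⁅v, w⁆⁆ * ⁅v, w⁆ = ⁅v, w⁆ * ⁅u, ⁅v, w⁆⁆) :
    ⁅⁅u, v⁆, w⁆ = ⁅u, ⁅v, w⁆⁆ := by
  have h1 : ⁅u, v⁆ * ⁅v, w⁆ * w * v * u = u * v * w := by
    calc ⁅u, v⁆ * ⁅v, w⁆ * w * v * u = ⁅u, v⁆ * v * (w * u) := by
          simp only [commutatorElement_def]; group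
      _ = ⁅u, v⁆ * v * (u * w) := by rw [huw]
      _ = u * v * w := by simp only [commutatorElement_def]; group
  have h2 : ⁅u, ⁅v, w⁆⁆ * ⁅v, w⁆ * w * ⁅u, v⁆ * v * u = u * v * w := by
    calc ⁅u, ⁅v, w⁆⁆ * ⁅v, w⁆ * w * ⁅u, v⁆ * v * u
        = ⁅u, ⁅v, w⁆⁆ * ⁅v, w⁆ * (w * u) * v := by
          simp only [commutatorElement_def]; group
      _ = ⁅u, ⁅v, w⁆⁆ * ⁅v, w⁆ * (u * w) * v := by rw [huw]
      _ = u * v * w := by simp only [commutatorElement_def]; group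
  have h3 : ⁅u, v⁆ * ⁅v, w⁆ * w = ⁅u, ⁅v, w⁆⁆ * ⁅v, w⁆ * w * ⁅u, v⁆ := by
    have e : ⁅u, v⁆ * ⁅v, w⁆ * w * (v * u) =
        ⁅u, ⁅v, w⁆⁆ * ⁅v, w⁆ * w * ⁅u, v⁆ * (v * u) := by
      have h12 := h1.trans h2.symm
      simpa only [mul_assoc] using h12
    exact mul_right_cancel e
  have h4 : ⁅u, v⁆ * w = ⁅u, ⁅v, w⁆⁆ * w * ⁅u, v⁆ := by
    have e1 : ⁅v, w⁆ * (⁅u, v⁆ * w) = ⁅v, w⁆ * (⁅u, ⁅v, w⁆⁆ * w * ⁅u, v⁆) := by
      calc ⁅v, w⁆ * (⁅u, v⁆ * w) = ⁅u, v⁆ * ⁅v, w⁆ * w := by rw [← mul_assoc, ← hab]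
        _ = ⁅u, ⁅v, w⁆⁆ * ⁅v, w⁆ * w * ⁅u, v⁆ := h3
        _ = ⁅v, w⁆ * (⁅u, ⁅v, w⁆⁆ * w * ⁅u, v⁆) := by rw [hcb]; simp only [mul_assoc]
    exact mul_left_cancel e1
  rw [commutatorElement_def ⁅u, v⁆ w, h4]
  group

variable {n : ℕ} {F : Type*} [Field F] {Y : Type*} [Group Y]

/-- the commutator of two elementary matrices -/
lemma tv_bracket {i j l : Fin n} (hij : i ≠ j) (hjl : j ≠ l) (hil : i ≠ l) (t u : F) :
    ⁅(SpecialLinearGroup.transvection hij t : SpecialLinearGroup (Fin n) F),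
      SpecialLinearGroup.transvection hjl u⁆ = SpecialLinearGroup.transvection hil (t * u) := by
  rw [commutatorElement_def, tv_comm3 hij hjl hil t u]

lemma exists_fourth (hn : 4 ≤ n) (a b c : Fin n) : ∃ h, h ≠ a ∧ h ≠ b ∧ h ≠ c := by
  by_contra hne
  push_neg at hne
  have hsub : (Finset.univ : Finset (Fin n)) ⊆ {a, b, c} := by
    intro h _
    simp only [Finset.mem_insert, Finset.mem_singleton]
    by_cases h1 : h = a
    · exact Or.inl h1
    · by_cases h2 : h = b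
      · exact Or.inr (Or.inl h2)
      · exact Or.inr (Or.inr (hne h h1 h2))
  have h1 := Finset.card_le_card hsub
  have h2 : ({a, b, c} : Finset (Fin n)).card ≤ 3 := Finset.card_le_three
  rw [Finset.card_univ, Fintype.card_fin] at h1
  omega

lemma exists_fifth (hn : 5 ≤ n) (a b c d : Fin n) : ∃ h, h ≠ a ∧ h ≠ b ∧ h ≠ c ∧ h ≠ d := by
  by_contra hne
  push_neg at hne
  have hsub : (Finset.univ : Finset (Fin n)) ⊆ {a, b, c, d} := by
    intro h _
    simp only [Finset.mem_insert, Finset.mem_singleton]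
    by_cases h1 : h = a
    · exact Or.inl h1
    · by_cases h2 : h = b
      · exact Or.inr (Or.inl h2)
      · by_cases h3 : h = c
        · exact Or.inr (Or.inr (Or.inl h3))
        · exact Or.inr (Or.inr (Or.inr (hne h h1 h2 h3)))
  have h1 := Finset.card_le_card hsub
  have h2 : ({a, b, c, d} : Finset (Fin n)).card ≤ 4 := Finset.card_le_four
  rw [Finset.card_univ, Fintype.card_fin] at h1
  omega

/-- lifts of elementary matrices on four distinct indices commute -/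
def F1Hyp (φ : Y →* Matrix.SpecialLinearGroup (Fin n) F) : Prop :=
  ∀ (i j k l : Fin n) (hij : i ≠ j) (hkl : k ≠ l), i ≠ k → i ≠ l → j ≠ k → j ≠ l →
    ∀ (t u : F) (y₁ y₂ : Y), φ y₁ = SpecialLinearGroup.transvection hij t →
      φ y₂ = SpecialLinearGroup.transvection hkl u → y₁ * y₂ = y₂ * y₁

section core

variable (φ : Y →* Matrix.SpecialLinearGroup (Fin n) F) (hφ : Function.Surjective φ)
  (hc : φ.ker ≤ Subgroup.center Y)

include hc in
/-- commuting with one lift implies commuting with every lift -/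
lemma comm_lift {w y y' : Y} (h : φ y = φ y') (hw : w * y = y * w) : w * y' = y' * w := by
  have hz : y⁻¹ * y' ∈ Subgroup.center Y :=
    hc (by rw [MonoidHom.mem_ker, map_mul, map_inv, h, inv_mul_cancel])
  have hz' := Subgroup.mem_center_iff.mp hz
  have e : y' = y * (y⁻¹ * y') := by group
  rw [e]
  calc w * (y * (y⁻¹ * y')) = (w * y) * (y⁻¹ * y') := by group
    _ = (y * w) * (y⁻¹ * y') := by rw [hw]
    _ = y * (w * (y⁻¹ * y')) := by group
    _ = y * ((y⁻¹ * y') * w) := by rw [hz' w]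
    _ = y * (y⁻¹ * y') * w := by group

include hφ hc in
/-- lifts of `x_ij`, `x_kl` commute when a further index is available -/
lemma comm_of_extra {i j k l h : Fin n} (hij : i ≠ j) (hkl : k ≠ l) (hil : i ≠ l) (hjk : j ≠ k)
    (hhi : h ≠ i) (hhj : h ≠ j) (hhk : h ≠ k) (hhl : h ≠ l) (t u : F) {y₁ y₂ : Y}
    (h1 : φ y₁ = SpecialLinearGroup.transvection hij t)
    (h2 : φ y₂ = SpecialLinearGroup.transvection hkl u) : y₁ * y₂ = y₂ * y₁ := by
  have hkh : k ≠ h := hhk.symm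
  have e1 : φ y₁ * SpecialLinearGroup.transvection hkh 1 =
      SpecialLinearGroup.transvection hkh 1 * φ y₁ := by
    rw [h1]; exact tv_comm hij hkh hhi.symm hjk t 1
  have e2 : φ y₁ * SpecialLinearGroup.transvection hhl u =
      SpecialLinearGroup.transvection hhl u * φ y₁ := by
    rw [h1]; exact tv_comm hij hhl hil hhj.symm t u
  have e3 := commute_kap φ hc hφ e1 e2
  have e4 : φ (kap φ hφ (SpecialLinearGroup.transvection hkh (1 : F))
      (SpecialLinearGroup.transvection hhl u)) = φ y₂ := by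
    rw [map_kap, tv_bracket hkh hhl hkl, one_mul, h2]
  exact comm_lift φ hc e4 e3

include hφ hc in
/-- for `n ≥ 5` the hypothesis `F1Hyp` is automatic -/
theorem f1_of_five (hn : 5 ≤ n) : F1Hyp φ := by
  intro i j k l hij hkl hik hil hjk hjl t u y₁ y₂ h1 h2
  obtain ⟨h, ha, hb, hc', hd⟩ := exists_fifth hn i j k l
  exact comm_of_extra φ hφ hc hij hkl hil hjk ha hb hc' hd t u h1 h2

include hφ hc in
/-- lifts of commuting elementary matrices commute -/
lemma lift_comm (hn : 4 ≤ n) (hF1 : F1Hyp φ) {i j k l : Fin n} (hij : i ≠ j) (hkl : k ≠ l)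
    (hil : i ≠ l) (hjk : j ≠ k) (t u : F) {y₁ y₂ : Y}
    (h1 : φ y₁ = SpecialLinearGroup.transvection hij t)
    (h2 : φ y₂ = SpecialLinearGroup.transvection hkl u) : y₁ * y₂ = y₂ * y₁ := by
  by_cases hik : i = k
  · obtain ⟨h, ha, hb, hc'⟩ := exists_fourth hn i j l
    exact comm_of_extra φ hφ hc hij hkl hil hjk ha hb (hik ▸ ha) hc' t u h1 h2
  · by_cases hjl : j = l
    · obtain ⟨h, ha, hb, hc'⟩ := exists_fourth hn i j k
      exact comm_of_extra φ hφ hc hij hkl hil hjk ha hb hc' (hjl ▸ hb) t u h1 h2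
    · exact hF1 i j k l hij hkl hik hil hjk hjl t u y₁ y₂ h1 h2

include hc in
/-- Yang–Baxter: the symbol `⁅x_ik(λ), x_kj(μ)⁆` through a fourth index -/
lemma yb (hn : 4 ≤ n) (hF1 : F1Hyp φ) {i j k h : Fin n} (hik : i ≠ k) (hkj : k ≠ j)
    (hih : i ≠ h) (hhj : h ≠ j) (hij : i ≠ j) (hhk : h ≠ k) (lam mu : F) :
    kap φ hφ (SpecialLinearGroup.transvection hik lam) (SpecialLinearGroup.transvection hkj mu) =
      kap φ hφ (SpecialLinearGroup.transvection hih 1)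
        (SpecialLinearGroup.transvection hhj (lam * mu)) := by
  obtain ⟨u, hu⟩ := hφ (SpecialLinearGroup.transvection hih 1)
  obtain ⟨v, hv⟩ := hφ (SpecialLinearGroup.transvection hhk lam)
  obtain ⟨w, hw⟩ := hφ (SpecialLinearGroup.transvection hkj mu)
  have ha : φ ⁅u, v⁆ = SpecialLinearGroup.transvection hik lam := by
    rw [map_commutatorElement, hu, hv, tv_bracket hih hhk hik, one_mul]
  have hb : φ ⁅v, w⁆ = SpecialLinearGroup.transvection hhj (lam * mu) := by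
    rw [map_commutatorElement, hv, hw, tv_bracket hhk hkj hhj]
  have hc2 : φ ⁅u, ⁅v, w⁆⁆ = SpecialLinearGroup.transvection hij (1 * (lam * mu)) := by
    rw [map_commutatorElement, hu, hb, tv_bracket hih hhj hij]
  rw [kap_eq' φ hc hφ ha hw, kap_eq' φ hc hφ hu hb]
  have huw : u * w = w * u := lift_comm φ hφ hc hn hF1 hih hkj hij hhk 1 mu hu hw
  have hab : ⁅u, v⁆ * ⁅v, w⁆ = ⁅v, w⁆ * ⁅u, v⁆ :=
    lift_comm φ hφ hc hn hF1 hik hhj hij hhk.symm lam (lam * mu) ha hb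
  have hcb : ⁅u, ⁅v, w⁆⁆ * ⁅v, w⁆ = ⁅v, w⁆ * ⁅u, ⁅v, w⁆⁆ :=
    lift_comm φ hφ hc hn hF1 hij hhj hij hhj.symm _ _ hc2 hb
  exact yb_aux u v w huw hab hcb

include hc in
/-- the symbol does not depend on the middle index -/
lemma K_eq (hn : 4 ≤ n) (hF1 : F1Hyp φ) {i j k k' : Fin n} (hik : i ≠ k) (hkj : k ≠ j)
    (hik' : i ≠ k') (hk'j : k' ≠ j) (hij : i ≠ j) (lam mu : F) :
    kap φ hφ (SpecialLinearGroup.transvection hik lam) (SpecialLinearGroup.transvection hkj mu) =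
      kap φ hφ (SpecialLinearGroup.transvection hik' 1)
        (SpecialLinearGroup.transvection hk'j (lam * mu)) := by
  by_cases hkk : k' = k
  · subst hkk
    obtain ⟨h, ha, hb, hd⟩ := exists_fourth hn i j k'
    rw [yb φ hφ hc hn hF1 hik hkj ha.symm hb hij hd lam mu,
      yb φ hφ hc hn hF1 hik hkj ha.symm hb hij hd 1 (lam * mu), one_mul]
  · exact yb φ hφ hc hn hF1 hik hkj hik' hk'j hij hkk lam mu

/-- the chosen Steinberg lifts -/
noncomputable def sx (hn : 3 ≤ n) (i j : Fin n) (t : F) : Y :=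
  if i ≠ j then
    kap φ hφ (SpecialLinearGroup.transvection (Classical.choose_spec (exists_third hn i j)).1.symm 1)
      (SpecialLinearGroup.transvection (Classical.choose_spec (exists_third hn i j)).2 t)
  else 1

include hc in
lemma K_eq_sx (hn : 4 ≤ n) (hF1 : F1Hyp φ) {i j k : Fin n} (hik : i ≠ k) (hkj : k ≠ j)
    (hij : i ≠ j) (lam mu : F) :
    kap φ hφ (SpecialLinearGroup.transvection hik lam) (SpecialLinearGroup.transvection hkj mu) =
      sx φ hφ (by omega : 3 ≤ n) i j (lam * mu) := by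
  rw [sx, if_pos hij]
  exact K_eq φ hφ hc hn hF1 hik hkj _ _ hij lam mu

lemma map_sx (hn : 3 ≤ n) {i j : Fin n} (hij : i ≠ j) (t : F) :
    φ (sx φ hφ hn i j t) = SpecialLinearGroup.transvection hij t := by
  rw [sx, if_pos hij, map_kap, tv_bracket _ _ hij, one_mul]

include hc in
theorem preSys_sx (hn : 4 ≤ n) (hF1 : F1Hyp φ) :
    PreSys (sx φ hφ (by omega : 3 ≤ n)) where
  add := by
    intro i j hij t u
    obtain ⟨h, hhi, hhj⟩ := exists_third (by omega : 3 ≤ n) i j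
    have hih : i ≠ h := hhi.symm
    have e : ∀ s : F, sx φ hφ (by omega : 3 ≤ n) i j s =
        kap φ hφ (SpecialLinearGroup.transvection hih 1) (SpecialLinearGroup.transvection hhj s) := by
      intro s
      rw [K_eq_sx φ hφ hc hn hF1 hih hhj hij 1 s, one_mul]
    rw [e t, e u, e (t + u)]
    obtain ⟨y, hy⟩ := hφ (SpecialLinearGroup.transvection hih 1)
    obtain ⟨z₁, hz₁⟩ := hφ (SpecialLinearGroup.transvection hhj t)
    obtain ⟨z₂, hz₂⟩ := hφ (SpecialLinearGroup.transvection hhj u)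
    have hz : φ (z₁ * z₂) = SpecialLinearGroup.transvection hhj (t + u) := by
      rw [map_mul, hz₁, hz₂, SpecialLinearGroup.transvection_add]
    rw [kap_eq' φ hc hφ hy hz₁, kap_eq' φ hc hφ hy hz₂, kap_eq' φ hc hφ hy hz]
    have hb : φ ⁅y, z₂⁆ = SpecialLinearGroup.transvection hij (1 * u) := by
      rw [map_commutatorElement, hy, hz₂, tv_bracket hih hhj hij]
    have hcomm : z₁ * ⁅y, z₂⁆ = ⁅y, z₂⁆ * z₁ :=
      lift_comm φ hφ hc hn hF1 hhj hij hhj hij.symm t _ hz₁ hb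
    exact (comm_mul_right y z₁ z₂ hcomm).symm
  comm := by
    intro i j k l hij hkl hil hjk t u
    exact lift_comm φ hφ hc hn hF1 hij hkl hil hjk t u (map_sx φ hφ _ hij t) (map_sx φ hφ _ hkl u)
  comm3 := by
    intro i j l hij hjl hil t u
    rw [← commutatorElement_def,
      ← kap_eq' φ hc hφ (map_sx φ hφ _ hij t) (map_sx φ hφ _ hjl u)]
    exact K_eq_sx φ hφ hc hn hF1 hij hjl hil t u

include hφ hc in
/-- **Splitting for `n ≥ 4`** under the four-index commutation hypothesis. -/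
theorem split_of_F1 [Finite F] (hn : 4 ≤ n) (hF1 : F1Hyp φ) :
    ∃ s : Matrix.SpecialLinearGroup (Fin n) F →* Y, ∀ g, φ (s g) = g :=
  section_of_preSys (by omega : 3 ≤ n) φ (preSys_sx φ hφ hc hn hF1)
    (fun _ _ hij t => map_sx φ hφ _ hij t)

include hφ hc in
/-- **Splitting for `n ≥ 5`.** -/
theorem split_five [Finite F] (hn : 5 ≤ n) :
    ∃ s : Matrix.SpecialLinearGroup (Fin n) F →* Y, ∀ g, φ (s g) = g :=
  split_of_F1 φ hφ hc (by omega) (f1_of_five φ hφ hc hn)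

end core

end Cfsg.Agent.Lib.Helper98.SplitN
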