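import Mathlib

set_option autoImplicit false

/-!
# Diagonal matrices of determinant one and their action on elementary matrices (helper98)
-/

namespace Cfsg.Agent.Lib.Helper98.Torus

open Matrix

variable {n : ℕ} {F : Type*} [Field F]

/-- the diagonal matrix with entries `d`, of determinant one -/
def dg (d : Fin n → F) (hd : ∏ m, d m = 1) : Matrix.SpecialLinearGroup (Fin n) F :=
  ⟨Matrix.diagonal d, by rw [Matrix.det_diagonal]; exact hd⟩

lemma dg_ne_zero (d : Fin n → F) (hd : ∏ m, d m = 1) (j : Fin n) : d j ≠ 0 := by
  intro h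
  rw [Finset.prod_eq_zero (Finset.mem_univ j) h] at hd
  exact zero_ne_one hd

/-- a diagonal matrix scales the elementary matrix `x_ij(t)` by `d i / d j` -/
theorem dg_mul (d : Fin n → F) (hd : ∏ m, d m = 1) {i j : Fin n} (hij : i ≠ j) (t : F) :
    dg d hd * Matrix.SpecialLinearGroup.transvection hij t =
      Matrix.SpecialLinearGroup.transvection hij (d i * (d j)⁻¹ * t) * dg d hd := by
  have hj := dg_ne_zero d hd j
  apply Subtype.ext
  show Matrix.diagonal d * Matrix.transvection i j t =
    Matrix.transvection i j (d i * (d j)⁻¹ * t) * Matrix.diagonal d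
  ext a b
  rw [Matrix.diagonal_mul, Matrix.mul_diagonal]
  simp only [Matrix.transvection, Matrix.add_apply, Matrix.one_apply, Matrix.single_apply]
  by_cases hab : a = b
  · subst hab
    by_cases h : i = a ∧ j = a
    · exact absurd (h.1.trans h.2.symm) hij
    · rw [if_neg h, if_neg h, if_pos rfl]; ring
  · rw [if_neg hab]
    by_cases h : i = a ∧ j = b
    · obtain ⟨rfl, rfl⟩ := h
      rw [if_pos ⟨rfl, rfl⟩, if_pos ⟨rfl, rfl⟩]
      field_simp
      ring
    · rw [if_neg h, if_neg h]; ring

theorem dg_conj (d : Fin n → F) (hd : ∏ m, d m = 1) {i j : Fin n} (hij : i ≠ j) (t : F) :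
    dg d hd * Matrix.SpecialLinearGroup.transvection hij t * (dg d hd)⁻¹ =
      Matrix.SpecialLinearGroup.transvection hij (d i * (d j)⁻¹ * t) := by
  rw [dg_mul d hd hij t, mul_inv_cancel_right]

/-- the elementary matrices in one root subgroup multiply additively -/
theorem tv_add {i j : Fin n} (hij : i ≠ j) (t u : F) :
    (Matrix.SpecialLinearGroup.transvection hij t : Matrix.SpecialLinearGroup (Fin n) F) *
      Matrix.SpecialLinearGroup.transvection hij u =
      Matrix.SpecialLinearGroup.transvection hij (t + u) :=
  (Matrix.SpecialLinearGroup.transvection_add hij t u).symm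

end Cfsg.Agent.Lib.Helper98.Torus
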