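import Mathlib
import Cfsg.Agent.Lib.Helper98.ClassEq
import Cfsg.Agent.Lib.Helper98.SL2Core

set_option autoImplicit false

/-!
# The class equation with a large centralizer

In the setting of `ClassEq.main`: if some non-central element has a centralizer of order at least
`6 |Z|`, then the squares commute.  For `p'`-subgroups of `SL(2, F)` containing `-1`: if the
subgroup has an element of order at least `12`, its squares commute (`sq_comm_of_order`).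
-/

namespace Cfsg.Agent.Lib.Helper98.ClassEq6

open Cfsg.Agent.Lib.Helper98.ClassEq

/-- two classes, the first with a large centralizer -/
lemma arith2_6 (h m1 e1 c1 m2 e2 c2 : ℕ) (he1 : e1 = 1 ∨ e1 = 2) (hc1 : 6 ≤ c1) (hm1 : 1 ≤ m1)
    (he2 : e2 = 1 ∨ e2 = 2) (hc2 : 2 ≤ c2) (hm2 : 1 ≤ m2)
    (h1 : h = m1 * e1 * c1) (h2 : h = m2 * e2 * c2)
    (hs : h = 1 + m1 * (c1 - 1) + m2 * (c2 - 1)) : m1 = 1 ∨ m2 = 1 := by
  have q1 : m1 * (c1 - 1) = m1 * c1 - m1 := Nat.mul_sub_one m1 c1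
  have q2 : m2 * (c2 - 1) = m2 * c2 - m2 := Nat.mul_sub_one m2 c2
  have p1 : m1 * 6 ≤ m1 * c1 := Nat.mul_le_mul_left _ hc1
  have p2 : m2 * 2 ≤ m2 * c2 := Nat.mul_le_mul_left _ hc2
  have r1 : m1 * e1 * c1 = e1 * (m1 * c1) := by ring
  have r2 : m2 * e2 * c2 = e2 * (m2 * c2) := by ring
  rw [r1] at h1
  rw [r2] at h2
  rw [q1, q2] at hs
  by_cases hc22 : c2 = 2
  · rw [hc22] at h2 hs p2
    rcases he1 with rfl | rfl <;> rcases he2 with rfl | rfl <;> omega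
  · have p3 : m2 * 3 ≤ m2 * c2 := Nat.mul_le_mul_left _ (by omega)
    rcases he1 with rfl | rfl <;> rcases he2 with rfl | rfl <;> omega

/-- three classes, the first with a large centralizer -/
lemma arith3_6 (h m1 e1 c1 m2 e2 c2 m3 e3 c3 : ℕ) (he1 : e1 = 1 ∨ e1 = 2) (hc1 : 6 ≤ c1)
    (hm1 : 1 ≤ m1) (he2 : e2 = 1 ∨ e2 = 2) (hc2 : 2 ≤ c2) (hm2 : 1 ≤ m2)
    (he3 : e3 = 1 ∨ e3 = 2) (hc3 : 2 ≤ c3) (hm3 : 1 ≤ m3)
    (h1 : h = m1 * e1 * c1) (h2 : h = m2 * e2 * c2) (h3 : h = m3 * e3 * c3)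
    (hs : h = 1 + m1 * (c1 - 1) + m2 * (c2 - 1) + m3 * (c3 - 1)) :
    m1 = 1 ∨ m2 = 1 ∨ m3 = 1 := by
  have q1 : m1 * (c1 - 1) = m1 * c1 - m1 := Nat.mul_sub_one m1 c1
  have q2 : m2 * (c2 - 1) = m2 * c2 - m2 := Nat.mul_sub_one m2 c2
  have q3 : m3 * (c3 - 1) = m3 * c3 - m3 := Nat.mul_sub_one m3 c3
  have p1 : m1 * 6 ≤ m1 * c1 := Nat.mul_le_mul_left _ hc1
  have p2 : m2 * 2 ≤ m2 * c2 := Nat.mul_le_mul_left _ hc2
  have p3 : m3 * 2 ≤ m3 * c3 := Nat.mul_le_mul_left _ hc3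
  have r1 : m1 * e1 * c1 = e1 * (m1 * c1) := by ring
  have r2 : m2 * e2 * c2 = e2 * (m2 * c2) := by ring
  have r3 : m3 * e3 * c3 = e3 * (m3 * c3) := by ring
  rw [r1] at h1
  rw [r2] at h2
  rw [r3] at h3
  rw [q1, q2, q3] at hs
  by_cases hc22 : c2 = 2
  · by_cases hc32 : c3 = 2
    · rw [hc22] at h2 hs p2
      rw [hc32] at h3 hs p3
      rcases he1 with rfl | rfl <;> rcases he2 with rfl | rfl <;> rcases he3 with rfl | rfl <;>
        omega
    · have p3' : m3 * 3 ≤ m3 * c3 := Nat.mul_le_mul_left _ (by omega)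
      rw [hc22] at h2 hs p2
      rcases he1 with rfl | rfl <;> rcases he2 with rfl | rfl <;> rcases he3 with rfl | rfl <;>
        omega
  · have p2' : m2 * 3 ≤ m2 * c2 := Nat.mul_le_mul_left _ (by omega)
    rcases he1 with rfl | rfl <;> rcases he2 with rfl | rfl <;> rcases he3 with rfl | rfl <;>
      omega

variable {K : Type*} [Group K]

section main
variable {Z : Subgroup K}

/-- the data of a class, with the order of the centralizer made explicit -/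
theorem data' [Finite K] (hZ : ∀ z ∈ Z, ∀ x : K, z * x = x * z)
    (H1 : ∀ a b c : K, b ∉ Z → a * b = b * a → b * c = c * b → a * c = c * a)
    (H2 : ∀ g y : K, g ∉ Z → (y * g * y⁻¹) * g = g * (y * g * y⁻¹) →
      y * g * y⁻¹ = g ∨ y * g * y⁻¹ = g⁻¹) (g : K) (hg : g ∉ Z) (c : ℕ)
    (hc : Nat.card (Subgroup.centralizer ({g} : Set K)) = Nat.card Z * c) :
    ∃ m e : ℕ, (e = 1 ∨ e = 2) ∧ 1 ≤ m ∧ Nat.card K = Nat.card Z * (m * e * c) ∧
      (Ws Z g).ncard = Nat.card Z * (m * (c - 1)) ∧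
      (m = 1 → ∀ x y : K, x ^ 2 * y ^ 2 = y ^ 2 * x ^ 2) := by
  obtain ⟨C, hC⟩ : ∃ C : Subgroup K, C = Subgroup.centralizer ({g} : Set K) := ⟨_, rfl⟩
  rw [← hC] at hc
  have hZC : Z ≤ C := fun z hz => by
    rw [hC, Subgroup.mem_centralizer_singleton_iff]; exact hZ z hz g
  have hgC : g ∈ C := by rw [hC, Subgroup.mem_centralizer_singleton_iff]
  have hzpos : 0 < Nat.card Z := Nat.card_pos
  obtain ⟨e, he, hNe⟩ : ∃ e, (e = 1 ∨ e = 2) ∧ Nat.card (Ng g) = e * Nat.card C := by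
    rcases card_Ng g with h | h
    · exact ⟨1, Or.inl rfl, by rw [h, one_mul, hC]⟩
    · exact ⟨2, Or.inr rfl, by rw [h, hC]⟩
  obtain ⟨m, hm⟩ := Subgroup.card_subgroup_dvd_card (Ng g)
  have hKpos : 0 < Nat.card K := Nat.card_pos
  have hm1 : 1 ≤ m := by
    rcases Nat.eq_zero_or_pos m with h | h
    · rw [h, mul_zero] at hm; omega
    · exact h
  have hcount := count hZ H1 H2 g hg
  have hCs : (Cs Z g).ncard = Nat.card C - Nat.card Z := by
    have : Cs Z g = (C : Set K) \ (Z : Set K) := by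
      ext b
      simp only [Cs, Set.mem_setOf_eq, Set.mem_diff, SetLike.mem_coe, hC,
        Subgroup.mem_centralizer_singleton_iff]
    rw [this, Set.ncard_sdiff (fun x hx => hZC hx) (Set.toFinite _)]
    rfl
  refine ⟨m, e, he, hm1, ?_, ?_, ?_⟩
  · rw [hm, hNe, hc]; ring
  · have hNpos : 0 < Nat.card (Ng g) := Nat.card_pos
    rw [hCs, hm, hc] at hcount
    have h5 : Nat.card Z * c - Nat.card Z = Nat.card Z * (c - 1) := by rw [Nat.mul_sub_one]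
    rw [h5] at hcount
    have h3 : Nat.card (Ng g) * (m * (Nat.card Z * (c - 1))) =
        Nat.card (Ng g) * (Ws Z g).ncard := by
      rw [← mul_assoc, hcount, mul_comm]
    have h4 := Nat.eq_of_mul_eq_mul_left hNpos h3
    rw [← h4]; ring
  · intro hm1' x y
    rw [hm1', mul_one] at hm
    have htop : Ng g = ⊤ := Subgroup.eq_top_of_card_eq _ hm.symm
    have hsq : ∀ x : K, x ^ 2 * g = g * x ^ 2 := by
      intro x
      have hx : x ∈ Ng g := by rw [htop]; exact Subgroup.mem_top x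
      rcases hx with h | h
      · have h' : x * g = g * x := mul_inv_eq_iff_eq_mul.1 h
        rw [pow_two, mul_assoc, h', ← mul_assoc, h', mul_assoc]
      · have h' : x * g = g⁻¹ * x := mul_inv_eq_iff_eq_mul.1 h
        have h'' : x * g⁻¹ = g * x := by
          have h6 : x * g⁻¹ * x⁻¹ = g := by
            have : x * g⁻¹ * x⁻¹ = (x * g * x⁻¹)⁻¹ := by group
            rw [this, h, inv_inv]
          exact mul_inv_eq_iff_eq_mul.1 h6
        rw [pow_two, mul_assoc, h', ← mul_assoc, h'', mul_assoc]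
    exact H1 (x ^ 2) g (y ^ 2) hg (hsq x) (hsq y).symm

/-- **The class equation with a large centralizer.** -/
theorem main6 [Finite K] (Z : Subgroup K) (hZ : ∀ z ∈ Z, ∀ x : K, z * x = x * z)
    (H1 : ∀ a b c : K, b ∉ Z → a * b = b * a → b * c = c * b → a * c = c * a)
    (H2 : ∀ g y : K, g ∉ Z → (y * g * y⁻¹) * g = g * (y * g * y⁻¹) →
      y * g * y⁻¹ = g ∨ y * g * y⁻¹ = g⁻¹) (g₁ : K) (hg₁ : g₁ ∉ Z)
    (h6 : 6 * Nat.card Z ≤ Nat.card (Subgroup.centralizer ({g₁} : Set K))) :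
    ∀ x y : K, x ^ 2 * y ^ 2 = y ^ 2 * x ^ 2 := by
  classical
  have hzpos : 0 < Nat.card Z := Nat.card_pos
  have hKpos : 0 < Nat.card K := Nat.card_pos
  obtain ⟨h, hh⟩ := Subgroup.card_subgroup_dvd_card Z
  have hh1 : 1 ≤ h := by
    rcases Nat.eq_zero_or_pos h with h0 | h0
    · rw [h0, mul_zero] at hh; omega
    · exact h0
  have hT : ((Z : Set K)ᶜ).ncard = Nat.card Z * h - Nat.card Z := by
    rw [Set.ncard_compl, hh]; rfl
  have hWsub : ∀ g, Ws Z g ⊆ (Z : Set K)ᶜ := fun g x hx => hx.1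
  have hZC : Z ≤ Subgroup.centralizer ({g₁} : Set K) := fun z hz => by
    rw [Subgroup.mem_centralizer_singleton_iff]; exact hZ z hz g₁
  obtain ⟨c1, hc1d⟩ := Subgroup.card_dvd_of_le hZC
  have hc1 : 6 ≤ c1 := by
    rw [hc1d] at h6
    by_contra hcon
    push Not at hcon
    have : Nat.card Z * c1 ≤ Nat.card Z * 5 := Nat.mul_le_mul_left _ (by omega)
    omega
  obtain ⟨m1, e1, he1, hm1, hn1, hw1, hsq1⟩ := data' hZ H1 H2 g₁ hg₁ c1 hc1d
  have hh1' : h = m1 * e1 * c1 := Nat.eq_of_mul_eq_mul_left hzpos (hh.symm.trans hn1)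
  by_cases hex2 : ∃ g₂, g₂ ∉ Z ∧ g₂ ∉ Ws Z g₁
  swap
  · push Not at hex2
    have hEq : (Z : Set K)ᶜ = Ws Z g₁ :=
      Set.Subset.antisymm (fun x hx => hex2 x hx) (hWsub g₁)
    rw [hEq, hw1] at hT
    have hs := cancel_z _ _ _ hzpos hh1 hT
    exact hsq1 (arith1 h m1 e1 c1 he1 (by omega) hm1 hh1' hs)
  obtain ⟨g₂, hg₂, hg₂W⟩ := hex2
  obtain ⟨m2, e2, c2, he2, hc2, hm2, hn2, hw2, hsq2⟩ := data hZ H1 H2 g₂ hg₂
  have hh2' : h = m2 * e2 * c2 := Nat.eq_of_mul_eq_mul_left hzpos (hh.symm.trans hn2)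
  have hd12 : Disjoint (Ws Z g₁) (Ws Z g₂) := disjoint_Ws hZ H1 g₁ g₂ hg₂W hg₂
  by_cases hex3 : ∃ g₃, g₃ ∉ Z ∧ g₃ ∉ Ws Z g₁ ∧ g₃ ∉ Ws Z g₂
  swap
  · push Not at hex3
    have hEq : (Z : Set K)ᶜ = Ws Z g₁ ∪ Ws Z g₂ := by
      apply Set.Subset.antisymm
      · intro x hx
        by_cases h1 : x ∈ Ws Z g₁
        · exact Or.inl h1
        · exact Or.inr (hex3 x hx h1)
      · exact Set.union_subset (hWsub g₁) (hWsub g₂)
    rw [hEq, Set.ncard_union_eq hd12 (Set.toFinite _) (Set.toFinite _), hw1, hw2,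
      ← mul_add] at hT
    have hs := cancel_z _ _ _ hzpos hh1 hT
    rcases arith2_6 h m1 e1 c1 m2 e2 c2 he1 hc1 hm1 he2 hc2 hm2 hh1' hh2' (by rw [hs]; ring)
      with h | h
    · exact hsq1 h
    · exact hsq2 h
  obtain ⟨g₃, hg₃, hg₃W1, hg₃W2⟩ := hex3
  obtain ⟨m3, e3, c3, he3, hc3, hm3, hn3, hw3, hsq3⟩ := data hZ H1 H2 g₃ hg₃
  have hh3' : h = m3 * e3 * c3 := Nat.eq_of_mul_eq_mul_left hzpos (hh.symm.trans hn3)
  have hd13 : Disjoint (Ws Z g₁) (Ws Z g₃) := disjoint_Ws hZ H1 g₁ g₃ hg₃W1 hg₃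
  have hd23 : Disjoint (Ws Z g₂) (Ws Z g₃) := disjoint_Ws hZ H1 g₂ g₃ hg₃W2 hg₃
  have hd123 : Disjoint (Ws Z g₁ ∪ Ws Z g₂) (Ws Z g₃) := Set.disjoint_union_left.2 ⟨hd13, hd23⟩
  by_cases hex4 : ∃ g₄, g₄ ∉ Z ∧ g₄ ∉ Ws Z g₁ ∧ g₄ ∉ Ws Z g₂ ∧ g₄ ∉ Ws Z g₃
  swap
  · push Not at hex4
    have hEq : (Z : Set K)ᶜ = Ws Z g₁ ∪ Ws Z g₂ ∪ Ws Z g₃ := by
      apply Set.Subset.antisymm
      · intro x hx
        by_cases h1 : x ∈ Ws Z g₁
        · exact Or.inl (Or.inl h1)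
        · by_cases h2 : x ∈ Ws Z g₂
          · exact Or.inl (Or.inr h2)
          · exact Or.inr (hex4 x hx h1 h2)
      · exact Set.union_subset (Set.union_subset (hWsub g₁) (hWsub g₂)) (hWsub g₃)
    rw [hEq, Set.ncard_union_eq hd123 (Set.toFinite _) (Set.toFinite _),
      Set.ncard_union_eq hd12 (Set.toFinite _) (Set.toFinite _), hw1, hw2, hw3,
      ← mul_add, ← mul_add] at hT
    have hs := cancel_z _ _ _ hzpos hh1 hT
    rcases arith3_6 h m1 e1 c1 m2 e2 c2 m3 e3 c3 he1 hc1 hm1 he2 hc2 hm2 he3 hc3 hm3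
      hh1' hh2' hh3' (by rw [hs]; ring) with h | h | h
    · exact hsq1 h
    · exact hsq2 h
    · exact hsq3 h
  exfalso
  obtain ⟨g₄, hg₄, hg₄W1, hg₄W2, hg₄W3⟩ := hex4
  obtain ⟨m4, e4, c4, he4, hc4, hm4, hn4, hw4, hsq4⟩ := data hZ H1 H2 g₄ hg₄
  have hh4' : h = m4 * e4 * c4 := Nat.eq_of_mul_eq_mul_left hzpos (hh.symm.trans hn4)
  have hd14 : Disjoint (Ws Z g₁) (Ws Z g₄) := disjoint_Ws hZ H1 g₁ g₄ hg₄W1 hg₄
  have hd24 : Disjoint (Ws Z g₂) (Ws Z g₄) := disjoint_Ws hZ H1 g₂ g₄ hg₄W2 hg₄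
  have hd34 : Disjoint (Ws Z g₃) (Ws Z g₄) := disjoint_Ws hZ H1 g₃ g₄ hg₄W3 hg₄
  have hd1234 : Disjoint (Ws Z g₁ ∪ Ws Z g₂ ∪ Ws Z g₃) (Ws Z g₄) :=
    Set.disjoint_union_left.2 ⟨Set.disjoint_union_left.2 ⟨hd14, hd24⟩, hd34⟩
  have hsub : Ws Z g₁ ∪ Ws Z g₂ ∪ Ws Z g₃ ∪ Ws Z g₄ ⊆ (Z : Set K)ᶜ :=
    Set.union_subset (Set.union_subset (Set.union_subset (hWsub g₁) (hWsub g₂)) (hWsub g₃))
      (hWsub g₄)
  have hle := Set.ncard_le_ncard hsub (Set.toFinite _)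
  rw [Set.ncard_union_eq hd1234 (Set.toFinite _) (Set.toFinite _),
    Set.ncard_union_eq hd123 (Set.toFinite _) (Set.toFinite _),
    Set.ncard_union_eq hd12 (Set.toFinite _) (Set.toFinite _), hw1, hw2, hw3, hw4,
    ← mul_add, ← mul_add, ← mul_add, hT] at hle
  have hs := cancel_z_le _ _ _ hzpos hh1 hle
  exact arith4 h m1 e1 c1 m2 e2 c2 m3 e3 c3 m4 e4 c4 he1 (by omega) he2 hc2 he3 hc3 he4 hc4
    hh1' hh2' hh3' hh4' (by omega)

end main

section sl2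
open Matrix MatrixGroups
open Cfsg.Agent.Lib.Helper98.SL2Sub Cfsg.Agent.Lib.Helper98.SL2Core
open Cfsg.Agent.Lib.Helper53.SL2Inv Cfsg.Agent.Lib.Helper53.SL2Unip

variable {F : Type*} [Field F]

/-- a `p'`-subgroup of `SL(2, F)` containing `-1` and an element of order at least `12` has
commuting squares -/
theorem sq_comm_of_order (p : ℕ) [Fact p.Prime] [CharP F p] (h2 : (2 : F) ≠ 0)
    (H : Subgroup SL(2, F)) [Finite H] (hneg : negOne ∈ H) (hp : ¬ p ∣ Nat.card H)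
    (τ : SL(2, F)) (hτ : τ ∈ H) (h12 : 12 ≤ orderOf τ) :
    ∀ x ∈ H, ∀ y ∈ H, x ^ 2 * y ^ 2 = y ^ 2 * x ^ 2 := by
  have hpp : p.Prime := Fact.out
  have hZH : (Zc : Subgroup SL(2, F)) ≤ H := by
    rintro x (rfl | rfl)
    · exact H.one_mem
    · exact hneg
  have hcardZ : Nat.card ((Zc : Subgroup SL(2, F)).subgroupOf H) = 2 := by
    rw [Nat.card_congr (Subgroup.subgroupOfEquivOfLe hZH).toEquiv, card_Zc h2]
  have hmem : ∀ b : H, b ∉ (Zc : Subgroup SL(2, F)).subgroupOf H → b.1 ≠ 1 ∧ b.1 ≠ negOne := by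
    intro b hb
    rw [Subgroup.mem_subgroupOf] at hb
    exact ⟨fun h => hb (Or.inl h), fun h => hb (Or.inr h)⟩
  have hτ1 : τ ≠ 1 := by
    rintro rfl
    rw [orderOf_one] at h12
    omega
  have hτ2 : τ ≠ negOne := by
    rintro rfl
    have h1 : (negOne : SL(2, F)) ^ 2 = 1 := by rw [pow_two, negOne_mul_negOne]
    have := orderOf_le_of_pow_eq_one (by norm_num) h1
    omega
  have key := main6 (K := H) ((Zc : Subgroup SL(2, F)).subgroupOf H) ?_ ?_ ?_ ⟨τ, hτ⟩ ?_ ?_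
  · intro x hx y hy
    have := key ⟨x, hx⟩ ⟨y, hy⟩
    exact congrArg Subtype.val this
  · rintro ⟨z, hz⟩ hzZ ⟨x, hx⟩
    rw [Subgroup.mem_subgroupOf] at hzZ
    apply Subtype.ext
    show z * x = x * z
    rcases hzZ with h | h
    · have h' : z = 1 := h
      rw [h']; simp
    · have h' : z = negOne := h
      rw [h']; exact negOne_comm x
  · intro a b c hb hab hbc
    obtain ⟨hb1, hb2⟩ := hmem b hb
    apply Subtype.ext
    exact comm_trans a.1 b.1 c.1 hb1 hb2 (congrArg Subtype.val hab) (congrArg Subtype.val hbc)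
  · intro g y hg hc
    obtain ⟨hg1, hg2⟩ := hmem g hg
    have hord : (orderOf g.1).Coprime p := by
      rw [Subgroup.orderOf_coe]
      have hdvd : orderOf g ∣ Nat.card H := orderOf_dvd_natCard g
      exact Nat.Coprime.coprime_dvd_left hdvd ((Nat.Prime.coprime_iff_not_dvd hpp).2 hp).symm
    rcases conj_eq_or p h2 g.1 y.1 hord hg1 hg2 (congrArg Subtype.val hc) with h | h
    · left; exact Subtype.ext h
    · right; exact Subtype.ext h
  · rw [Subgroup.mem_subgroupOf]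
    rintro (h | h)
    · exact hτ1 h
    · exact hτ2 h
  · rw [hcardZ]
    have hle : Subgroup.zpowers (⟨τ, hτ⟩ : H) ≤ Subgroup.centralizer ({⟨τ, hτ⟩} : Set H) := by
      rw [Subgroup.zpowers_le]
      exact Subgroup.mem_centralizer_singleton_iff.2 rfl
    have h1 := Subgroup.card_le_of_le hle
    rw [Nat.card_zpowers, Subgroup.orderOf_mk] at h1
    omega

end sl2

end Cfsg.Agent.Lib.Helper98.ClassEq6
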