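import Mathlib
import Cfsg.Agent.Lib.Helper75.DCStmt

/-!
S4719, piece PG (second seat, helper98): a `p`-group `P` (`p` odd) normalized by commuting
involutions `v`, `w` has `|P| ≤ |C_P(v)| |C_P(w)| |C_P(v w)|`.
-/

set_option autoImplicit false

namespace Cfsg.Agent.Lib.Helper98.DCPG

open Cfsg.Agent.Lib.Helper75.DCStmt

universe u

theorem card_subgroupOf_of_le {Γ : Type u} [Group Γ] {H N : Subgroup Γ} (h : H ≤ N) :
    Nat.card ↥(H.subgroupOf N) = Nat.card ↥H :=
  Nat.card_congr (Subgroup.subgroupOfEquivOfLe h).toEquiv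

theorem cent_subgroupOf {Γ : Type u} [Group Γ] (N P : Subgroup Γ) (y : ↥N) :
    P.subgroupOf N ⊓ Subgroup.centralizer ({y} : Set ↥N)
      = (P ⊓ Subgroup.centralizer ({(y : Γ)} : Set Γ)).subgroupOf N := by
  ext t
  rw [Subgroup.mem_inf, Subgroup.mem_subgroupOf, Subgroup.mem_subgroupOf, Subgroup.mem_inf,
    Subgroup.mem_centralizer_singleton_iff, Subgroup.mem_centralizer_singleton_iff]
  constructor
  · rintro ⟨h1, h2⟩
    exact ⟨h1, congrArg Subtype.val h2⟩
  · rintro ⟨h1, h2⟩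
    exact ⟨h1, Subtype.ext h2⟩

theorem inf_cent_one {G : Type u} [Group G] (H : Subgroup G) :
    H ⊓ Subgroup.centralizer ({1} : Set G) = H := by
  apply inf_eq_left.mpr
  intro x _
  rw [Subgroup.mem_centralizer_singleton_iff, mul_one, one_mul]

theorem le_mul3 (p a b c : ℕ) (ha : 0 < a) (hb : 0 < b) (hc : 0 < c)
    (h : a = p ∨ b = p ∨ c = p) : p ≤ a * b * c := by
  rcases h with h | h | h
  · rw [h]
    exact (Nat.le_mul_of_pos_right p hb).trans (Nat.le_mul_of_pos_right _ hc)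
  · rw [h]
    exact (Nat.le_mul_of_pos_left p ha).trans (Nat.le_mul_of_pos_right _ hc)
  · rw [h]
    exact Nat.le_mul_of_pos_left p (Nat.mul_pos ha hb)

theorem aux (hZ : PGZ.{u}) (hQ : PGQ.{u}) (p : ℕ) (hp : p.Prime) (hp2 : p ≠ 2) :
    ∀ n : ℕ, ∀ (Γ : Type u) [Group Γ] [Finite Γ] (P : Subgroup Γ) (v w : Γ), Nat.card P = n →
      IsPGroup p P → v * v = 1 → w * w = 1 → v * w = w * v →
      (∀ x ∈ P, v * x * v⁻¹ ∈ P) → (∀ x ∈ P, w * x * w⁻¹ ∈ P) →
      Nat.card P ≤ Nat.card ↥(P ⊓ Subgroup.centralizer ({v} : Set Γ)) *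
        Nat.card ↥(P ⊓ Subgroup.centralizer ({w} : Set Γ)) *
        Nat.card ↥(P ⊓ Subgroup.centralizer ({v * w} : Set Γ)) := by
  intro n
  induction n using Nat.strong_induction_on with
  | _ n ih =>
    intro Γ _ _ P v w hn hP hv hw hvw hPv hPw
    by_cases hbot : P = ⊥
    · have h1 : Nat.card P = 1 := by rw [hbot]; exact Subgroup.card_bot
      have ha : 0 < Nat.card ↥(P ⊓ Subgroup.centralizer ({v} : Set Γ)) := Nat.card_pos
      have hb : 0 < Nat.card ↥(P ⊓ Subgroup.centralizer ({w} : Set Γ)) := Nat.card_pos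
      have hc : 0 < Nat.card ↥(P ⊓ Subgroup.centralizer ({v * w} : Set Γ)) := Nat.card_pos
      rw [h1]
      exact Nat.succ_le_of_lt (Nat.mul_pos (Nat.mul_pos ha hb) hc)
    · obtain ⟨Z, hZP, hZcard, hZcent, hZv, hZw⟩ :=
        hZ Γ p hp hp2 P v w hP hbot hv hw hvw hPv hPw
      obtain ⟨N, hNdef⟩ : ∃ N : Subgroup Γ, N = Subgroup.normalizer (Z : Set Γ) := ⟨_, rfl⟩
      have hnorm : (Z.subgroupOf N).Normal := by
        rw [hNdef]; exact Subgroup.normal_in_normalizer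
      have hmemN : ∀ g, (∀ z, z ∈ Z ↔ g * z * g⁻¹ ∈ Z) → g ∈ N := by
        intro g h
        rw [hNdef, Subgroup.mem_normalizer_iff]
        exact h
      have hv_inv : v⁻¹ = v := inv_eq_of_mul_eq_one_left hv
      have hw_inv : w⁻¹ = w := inv_eq_of_mul_eq_one_left hw
      have hvZ : ∀ z ∈ Z, v * z * v⁻¹ ∈ Z := by
        intro z hz
        rcases hZv with h | h
        · rw [h z hz]; exact hz
        · rw [h z hz]; exact Z.inv_mem hz
      have hwZ : ∀ z ∈ Z, w * z * w⁻¹ ∈ Z := by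
        intro z hz
        rcases hZw with h | h
        · rw [h z hz]; exact hz
        · rw [h z hz]; exact Z.inv_mem hz
      have hinvol : ∀ g : Γ, g * g = 1 → (∀ z ∈ Z, g * z * g⁻¹ ∈ Z) → g ∈ N := by
        intro g hg hgZ
        have hg_inv : g⁻¹ = g := inv_eq_of_mul_eq_one_left hg
        refine hmemN g (fun z => ⟨hgZ z, fun h => ?_⟩)
        have h2 := hgZ _ h
        have e : g * (g * z * g⁻¹) * g⁻¹ = z := by
          rw [hg_inv]
          have e1 : g * (g * z * g) * g = (g * g) * z * (g * g) := by simp only [mul_assoc]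
          rw [e1, hg, one_mul, mul_one]
        rw [e] at h2
        exact h2
      have hvN : v ∈ N := hinvol v hv hvZ
      have hwN : w ∈ N := hinvol w hw hwZ
      have hPN : P ≤ N := by
        intro x hx
        apply hmemN
        intro z
        constructor
        · intro hz
          have e : x * z * x⁻¹ = z := by rw [hZcent z hz x hx, mul_inv_cancel_right]
          rw [e]; exact hz
        · intro h
          have h2 := hZcent _ h x⁻¹ (P.inv_mem hx)
          have h4 : x⁻¹ * (x * z * x⁻¹) = z * x⁻¹ := by group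
          rw [h4] at h2
          have h3 : z = x * z * x⁻¹ := mul_right_cancel h2
          rw [h3]; exact h
      have hZN : Z ≤ N := hZP.trans hPN
      -- work in `↥N`
      obtain ⟨v₁, hv₁⟩ : ∃ v₁ : ↥N, (v₁ : Γ) = v := ⟨⟨v, hvN⟩, rfl⟩
      obtain ⟨w₁, hw₁⟩ : ∃ w₁ : ↥N, (w₁ : Γ) = w := ⟨⟨w, hwN⟩, rfl⟩
      have hvw₁ : ((v₁ * w₁ : ↥N) : Γ) = v * w := by rw [Subgroup.coe_mul, hv₁, hw₁]
      obtain ⟨Z₁, hZ₁⟩ : ∃ Z₁ : Subgroup ↥N, Z₁ = Z.subgroupOf N := ⟨_, rfl⟩
      obtain ⟨P₁, hP₁⟩ : ∃ P₁ : Subgroup ↥N, P₁ = P.subgroupOf N := ⟨_, rfl⟩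
      haveI hnorm₁ : Z₁.Normal := by rw [hZ₁]; exact hnorm
      have hcZ₁ : Nat.card ↥Z₁ = p := by
        rw [hZ₁]; exact (card_subgroupOf_of_le hZN).trans hZcard
      have hcP₁ : Nat.card ↥P₁ = Nat.card P := by
        rw [hP₁]; exact card_subgroupOf_of_le hPN
      have hodd : Odd (Nat.card ↥Z₁) := by rw [hcZ₁]; exact hp.odd_of_ne_two hp2
      have hZP₁ : Z₁ ≤ P₁ := by
        rw [hZ₁, hP₁]
        intro y hy
        exact Subgroup.mem_subgroupOf.mpr (hZP (Subgroup.mem_subgroupOf.mp hy))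
      have hA : ∀ y : ↥N, Nat.card ↥(P₁ ⊓ Subgroup.centralizer ({y} : Set ↥N))
          = Nat.card ↥(P ⊓ Subgroup.centralizer ({(y : Γ)} : Set Γ)) := by
        intro y
        rw [hP₁, cent_subgroupOf]
        exact card_subgroupOf_of_le (inf_le_left.trans hPN)
      have hCz : ∀ y : ↥N, Nat.card ↥(Z₁ ⊓ Subgroup.centralizer ({y} : Set ↥N))
          = Nat.card ↥(Z ⊓ Subgroup.centralizer ({(y : Γ)} : Set Γ)) := by
        intro y
        rw [hZ₁, cent_subgroupOf]
        exact card_subgroupOf_of_le (inf_le_left.trans hZN)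
      have hCp : ∀ y : ↥N, (∀ z ∈ Z, (y : Γ) * z * (y : Γ)⁻¹ = z) →
          Nat.card ↥(Z₁ ⊓ Subgroup.centralizer ({y} : Set ↥N)) = p := by
        intro y hy
        rw [hCz y]
        have e : Z ⊓ Subgroup.centralizer ({(y : Γ)} : Set Γ) = Z := by
          apply inf_eq_left.mpr
          intro z hz
          rw [Subgroup.mem_centralizer_singleton_iff]
          have h1 := hy z hz
          rw [mul_inv_eq_iff_eq_mul] at h1
          exact h1.symm
        rw [e]; exact hZcard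
      -- the quotient
      have hq1 := hQ ↥N Z₁ P₁ 1 hodd hZP₁ (one_mul 1)
      rw [map_one, inf_cent_one, inf_cent_one, inf_cent_one, hcZ₁, hcP₁] at hq1
      have hqv := hQ ↥N Z₁ P₁ v₁ hodd hZP₁ (Subtype.ext (by rw [Subgroup.coe_mul, hv₁]; exact hv))
      have hqw := hQ ↥N Z₁ P₁ w₁ hodd hZP₁ (Subtype.ext (by rw [Subgroup.coe_mul, hw₁]; exact hw))
      have hqvw := hQ ↥N Z₁ P₁ (v₁ * w₁) hodd hZP₁ (Subtype.ext (by
        rw [Subgroup.coe_mul, hvw₁]
        have e : v * w * (v * w) = (v * v) * (w * w) := by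
          rw [mul_assoc, ← mul_assoc w v w, ← hvw]; simp only [mul_assoc]
        rw [e, hv, hw, one_mul]; rfl))
      rw [hA, hv₁] at hqv
      rw [hA, hw₁] at hqw
      rw [hA, hvw₁, map_mul] at hqvw
      have hqpos : 0 < Nat.card ↥(P₁.map (QuotientGroup.mk' Z₁)) := Nat.card_pos
      have hlt : Nat.card ↥(P₁.map (QuotientGroup.mk' Z₁)) < n := by
        have h1 : Nat.card ↥(P₁.map (QuotientGroup.mk' Z₁)) * 2
            ≤ Nat.card ↥(P₁.map (QuotientGroup.mk' Z₁)) * p := Nat.mul_le_mul_left _ hp.two_le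
        omega
      have hP₁p : IsPGroup p ↥P₁ := by rw [hP₁]; exact hP.comap_subtype
      have hinv₁ : ∀ (g₁ : ↥N) (g : Γ), (g₁ : Γ) = g → (∀ x ∈ P, g * x * g⁻¹ ∈ P) →
          ∀ x ∈ P₁.map (QuotientGroup.mk' Z₁),
            QuotientGroup.mk' Z₁ g₁ * x * (QuotientGroup.mk' Z₁ g₁)⁻¹
              ∈ P₁.map (QuotientGroup.mk' Z₁) := by
        intro g₁ g hg hgP x hx
        obtain ⟨y, hy, rfl⟩ := Subgroup.mem_map.mp hx
        refine Subgroup.mem_map.mpr ⟨g₁ * y * g₁⁻¹, ?_, by simp⟩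
        rw [hP₁] at hy ⊢
        rw [Subgroup.mem_subgroupOf] at hy ⊢
        rw [Subgroup.coe_mul, Subgroup.coe_mul, Subgroup.coe_inv, hg]
        exact hgP _ hy
      have hih := ih _ hlt (↥N ⧸ Z₁) (P₁.map (QuotientGroup.mk' Z₁)) (QuotientGroup.mk' Z₁ v₁)
        (QuotientGroup.mk' Z₁ w₁) rfl (hP₁p.map _)
        (by
          rw [← map_mul]
          have e : v₁ * v₁ = 1 := Subtype.ext (by rw [Subgroup.coe_mul, hv₁]; exact hv)
          rw [e, map_one])
        (by
          rw [← map_mul]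
          have e : w₁ * w₁ = 1 := Subtype.ext (by rw [Subgroup.coe_mul, hw₁]; exact hw)
          rw [e, map_one])
        (by
          rw [← map_mul, ← map_mul]
          have e : v₁ * w₁ = w₁ * v₁ :=
            Subtype.ext (by rw [Subgroup.coe_mul, Subgroup.coe_mul, hv₁, hw₁]; exact hvw)
          rw [e])
        (hinv₁ v₁ v hv₁ hPv) (hinv₁ w₁ w hw₁ hPw)
      -- one of `v`, `w`, `v * w` centralizes `Z`
      have hC : p ≤ Nat.card ↥(Z₁ ⊓ Subgroup.centralizer ({v₁} : Set ↥N)) *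
          Nat.card ↥(Z₁ ⊓ Subgroup.centralizer ({w₁} : Set ↥N)) *
          Nat.card ↥(Z₁ ⊓ Subgroup.centralizer ({v₁ * w₁} : Set ↥N)) := by
        apply le_mul3 p _ _ _ Nat.card_pos Nat.card_pos Nat.card_pos
        rcases hZv with h | h
        · left
          exact hCp v₁ (by rw [hv₁]; exact h)
        · rcases hZw with h' | h'
          · right; left
            exact hCp w₁ (by rw [hw₁]; exact h')
          · right; right
            apply hCp (v₁ * w₁)
            rw [hvw₁]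
            intro z hz
            have e : v * w * z * (v * w)⁻¹ = v * (w * z * w⁻¹) * v⁻¹ := by group
            rw [e, h' z hz, h z⁻¹ (Z.inv_mem hz), inv_inv]
      calc Nat.card P = Nat.card ↥(P₁.map (QuotientGroup.mk' Z₁)) * p := hq1.symm
        _ ≤ (Nat.card ↥(P₁.map (QuotientGroup.mk' Z₁) ⊓
              Subgroup.centralizer ({QuotientGroup.mk' Z₁ v₁} : Set (↥N ⧸ Z₁))) *
            Nat.card ↥(P₁.map (QuotientGroup.mk' Z₁) ⊓
              Subgroup.centralizer ({QuotientGroup.mk' Z₁ w₁} : Set (↥N ⧸ Z₁))) *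
            Nat.card ↥(P₁.map (QuotientGroup.mk' Z₁) ⊓
              Subgroup.centralizer
                ({QuotientGroup.mk' Z₁ v₁ * QuotientGroup.mk' Z₁ w₁} : Set (↥N ⧸ Z₁)))) *
            (Nat.card ↥(Z₁ ⊓ Subgroup.centralizer ({v₁} : Set ↥N)) *
              Nat.card ↥(Z₁ ⊓ Subgroup.centralizer ({w₁} : Set ↥N)) *
              Nat.card ↥(Z₁ ⊓ Subgroup.centralizer ({v₁ * w₁} : Set ↥N))) :=
          Nat.mul_le_mul hih hC
        _ = (Nat.card ↥(P₁.map (QuotientGroup.mk' Z₁) ⊓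
              Subgroup.centralizer ({QuotientGroup.mk' Z₁ v₁} : Set (↥N ⧸ Z₁))) *
              Nat.card ↥(Z₁ ⊓ Subgroup.centralizer ({v₁} : Set ↥N))) *
            (Nat.card ↥(P₁.map (QuotientGroup.mk' Z₁) ⊓
              Subgroup.centralizer ({QuotientGroup.mk' Z₁ w₁} : Set (↥N ⧸ Z₁))) *
              Nat.card ↥(Z₁ ⊓ Subgroup.centralizer ({w₁} : Set ↥N))) *
            (Nat.card ↥(P₁.map (QuotientGroup.mk' Z₁) ⊓
              Subgroup.centralizer
                ({QuotientGroup.mk' Z₁ v₁ * QuotientGroup.mk' Z₁ w₁} : Set (↥N ⧸ Z₁))) *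
              Nat.card ↥(Z₁ ⊓ Subgroup.centralizer ({v₁ * w₁} : Set ↥N))) := by ring
        _ = _ := by rw [hqv, hqw, hqvw]

theorem main (hZ : PGZ.{u}) (hQ : PGQ.{u}) : PG.{u} := by
  intro Γ _ _ p hp hp2 P v w hP hv hw hvw hPv hPw
  exact aux hZ hQ p hp hp2 _ Γ P v w rfl hP hv hw hvw hPv hPw

end Cfsg.Agent.Lib.Helper98.DCPG
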