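import Mathlib
import Cfsg.Agent.Lib.Helper98.DOdd10
import Cfsg.Agent.Lib.Helper98.ClassEq6
import Cfsg.Agent.Lib.Helper20.DihQuat

set_option autoImplicit false

/-!
# Torus normalizers of `SL(2, F)` are maximal, and dihedral modulo the centre (odd `q`)

Let `τ ∈ SL(2, F)` have order `M` and centralizer of order `M`, with `M = q - 1` (`q ≥ 13`) or
`M = q + 1` (`q ≠ 7, 9`), and let `n₀` invert `τ`.  Then `NorInv τ` is a maximal subgroup of
`SL(2, F)` (`norInv_coatom`) and its image in `PSL(2, F)` is dihedral of order `M`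
(`dihedral_range`); `psl_dihedral` combines the two.
-/

namespace Cfsg.Agent.Lib.Helper98.DOdd11a

open Matrix MatrixGroups
open Cfsg.Agent.Lib.Helper98.SL2Sub Cfsg.Agent.Lib.Helper98.SL2Gen
open Cfsg.Agent.Lib.Helper98.SL2Field Cfsg.Agent.Lib.Helper98.SL2Quad
open Cfsg.Agent.Lib.Helper98.SL2Core Cfsg.Agent.Lib.Helper98.DicksonOdd
open Cfsg.Agent.Lib.Helper98.SL2Tor Cfsg.Agent.Lib.Helper98.DicksonB
open Cfsg.Agent.Lib.Helper98.PSL2Max Cfsg.Agent.Lib.Helper98.ClassEq6
open Cfsg.Agent.Lib.Helper98.DOdd10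
open Cfsg.Agent.Lib.Helper53.SL2Inv Cfsg.Agent.Lib.Helper53.SL2Unip
open Cfsg.Agent.Lib.Helper20.ZP Cfsg.Agent.Lib.Helper20.DihQuat
open Cfsg.Agent.S5941 (Pk Sk_le_Pk)

/-! ### arithmetic -/

lemma arith_borel_split (q : ℕ) (hq : 3 ≤ q) (hodd : q % 2 = 1)
    (h : 2 * (q - 1) ∣ q * (q - 1)) : False := by
  rw [mul_comm 2 (q - 1), mul_comm q (q - 1)] at h
  have h4 : 2 ∣ q := Nat.dvd_of_mul_dvd_mul_left (by omega) h
  omega

lemma arith_borel_nonsplit (q : ℕ) (hq : 3 ≤ q) (h : 2 * (q + 1) ∣ q * (q - 1)) : False := by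
  obtain ⟨c, rfl⟩ : ∃ c, q = c + 2 := ⟨q - 2, by omega⟩
  have h1 : (c + 2 + 1) ∣ (c + 2) * (c + 2 - 1) := (Dvd.intro_left 2 rfl).trans h
  have e : (c + 2) * (c + 2 - 1) = (c + 2 + 1) * c + 2 := by
    have : c + 2 - 1 = c + 1 := by omega
    rw [this]; ring
  rw [e] at h1
  have h2 : (c + 2 + 1) ∣ 2 := (Nat.dvd_add_right (Dvd.intro _ rfl)).1 h1
  have := Nat.le_of_dvd (by norm_num) h2
  omega

lemma arith_top (q M : ℕ) (hq : 3 ≤ q) (hM : M ≤ q + 1) (h : 2 * M = q * (q ^ 2 - 1)) : False := by
  have h1 : 3 * q ≤ q * q := Nat.mul_le_mul_right q hq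
  have h2 : q ^ 2 = q * q := sq q
  have h3 : 3 * (q ^ 2 - 1) ≤ q * (q ^ 2 - 1) := Nat.mul_le_mul_right _ hq
  omega

variable {F : Type*} [Field F]

/-! ### the torus -/

section torus
variable [Finite F]

lemma ker_le_norInv (τ : SL(2, F)) : (proj (F := F)).ker ≤ NorInv τ := by
  intro x hx
  rw [MonoidHom.mem_ker, QuotientGroup.mk'_apply, QuotientGroup.eq_one_iff, center_eq] at hx
  rcases hx with h | h
  · rw [h]; exact Subgroup.one_mem _
  · rw [h]; left; rw [negOne_comm]; group

lemma centralizer_eq_zpowers (τ : SL(2, F)) (M : ℕ) (hord : orderOf τ = M)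
    (hcent : Nat.card (Subgroup.centralizer {τ}) = M) :
    Subgroup.centralizer {τ} = Subgroup.zpowers τ := by
  haveI : Finite SL(2, F) := finite_SL
  symm
  apply Subgroup.eq_of_le_of_card_ge
  · rw [Subgroup.zpowers_le]
    exact Subgroup.mem_centralizer_singleton_iff.2 rfl
  · rw [Nat.card_zpowers, hord, hcent]

omit [Finite F] in
lemma pow_half (h2 : (2 : F) ≠ 0) (τ : SL(2, F)) (M : ℕ) (hM : 4 ≤ M) (hev : Even M)
    (hord : orderOf τ = M) : τ ^ (M / 2) = negOne := by
  have h1 : τ ^ (M / 2) * τ ^ (M / 2) = 1 := by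
    rw [← pow_add]
    have : M / 2 + M / 2 = M := by obtain ⟨c, rfl⟩ := hev; omega
    rw [this, ← hord, pow_orderOf_eq_one]
  rcases sq_eq_one h2 _ h1 with h | h
  · exfalso
    have hlt : M / 2 < orderOf τ := by rw [hord]; omega
    exact pow_ne_one_of_lt_orderOf (by omega) hlt h
  · exact h

omit [Finite F] in
lemma tau_ne (τ : SL(2, F)) (M : ℕ) (hM : 4 ≤ M) (hord : orderOf τ = M) :
    τ ≠ 1 ∧ τ ≠ negOne ∧ τ ≠ τ⁻¹ := by
  have hsq : τ * τ ≠ 1 := by
    intro h
    have h1 : orderOf τ ∣ 2 := orderOf_dvd_of_pow_eq_one (by rw [pow_two]; exact h)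
    have := Nat.le_of_dvd (by norm_num) h1
    omega
  refine ⟨?_, ?_, ?_⟩
  · rintro rfl; exact hsq (by simp)
  · rintro rfl; exact hsq negOne_mul_negOne
  · intro h
    apply hsq
    have e : τ * τ = τ * τ⁻¹ := congrArg (fun x => τ * x) h
    rw [e, mul_inv_cancel]

/-- an element inverting `τ` squares to `-1` -/
lemma sq_of_inverting (h2 : (2 : F) ≠ 0) (τ : SL(2, F)) (M : ℕ) (hM : 4 ≤ M)
    (hord : orderOf τ = M) (hcent : Nat.card (Subgroup.centralizer {τ}) = M) (n : SL(2, F))
    (hn : n * τ * n⁻¹ = τ⁻¹) : n * n = negOne := by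
  haveI : Finite SL(2, F) := finite_SL
  obtain ⟨hτ1, hτ2, hτ3⟩ := tau_ne τ M hM hord
  have hC := centralizer_eq_zpowers τ M hord hcent
  have hnn : n * n ∈ Subgroup.centralizer {τ} := by
    rw [Subgroup.mem_centralizer_singleton_iff]
    have e1 : n * τ = τ⁻¹ * n := by rw [← hn]; group
    have e2 : n * τ⁻¹ = τ * n := by
      have h' : n * τ⁻¹ * n⁻¹ = τ := by
        have e : n * τ⁻¹ * n⁻¹ = (n * τ * n⁻¹)⁻¹ := by group
        rw [e, hn, inv_inv]
      calc n * τ⁻¹ = (n * τ⁻¹ * n⁻¹) * n := by group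
        _ = τ * n := by rw [h']
    symm
    calc τ * (n * n) = (τ * n) * n := by group
      _ = (n * τ⁻¹) * n := by rw [e2]
      _ = n * (τ⁻¹ * n) := by group
      _ = n * (n * τ) := by rw [e1]
      _ = n * n * τ := by group
  rw [hC, Subgroup.mem_zpowers_iff] at hnn
  obtain ⟨j, hj⟩ := hnn
  have h3 : n * τ ^ j * n⁻¹ = τ ^ j := by rw [hj]; group
  have h4 : n * τ ^ j * n⁻¹ = (τ ^ j)⁻¹ := by
    have e : n * τ ^ j * n⁻¹ = (n * τ * n⁻¹) ^ j := conj_zpow.symm
    rw [e, hn, _root_.inv_zpow]
  have h5 : τ ^ j = (τ ^ j)⁻¹ := h3.symm.trans h4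
  have h6 : (n * n) * (n * n) = 1 := by
    rw [← hj]
    have e : τ ^ j * τ ^ j = τ ^ j * (τ ^ j)⁻¹ := congrArg (fun x => τ ^ j * x) h5
    rw [e, mul_inv_cancel]
  rcases sq_eq_one h2 (n * n) h6 with h | h
  · exfalso
    apply hτ3
    rcases sq_eq_one h2 n h with h' | h'
    · rw [← hn, h']; group
    · rw [← hn, h', negOne_comm]; group
  · exact h

/-- the image of the torus normalizer in `PSL(2, F)` is dihedral -/
theorem dihedral_range (h2 : (2 : F) ≠ 0) (τ n₀ : SL(2, F)) (M : ℕ) (hM : 4 ≤ M)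
    (hev : Even M) (hord : orderOf τ = M) (hcent : Nat.card (Subgroup.centralizer {τ}) = M)
    (hinv : n₀ * τ * n₀⁻¹ = τ⁻¹) :
    ∃ f : DihedralGroup (M / 2) →* Matrix.ProjectiveSpecialLinearGroup (Fin 2) F,
      Function.Injective f ∧ f.range = (NorInv τ).map proj := by
  haveI : Finite SL(2, F) := finite_SL
  haveI : NeZero (M / 2) := ⟨by omega⟩
  obtain ⟨hτ1, hτ2, hτ3⟩ := tau_ne τ M hM hord
  have hhalf := pow_half h2 τ M hM hev hord
  have hn₀ := sq_of_inverting h2 τ M hM hord hcent n₀ hinv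
  have hMM : M / 2 + M / 2 = M := by obtain ⟨c, rfl⟩ := hev; omega
  have hprojneg : proj (negOne : SL(2, F)) = 1 := by
    rw [QuotientGroup.mk'_apply, QuotientGroup.eq_one_iff, center_eq]
    exact Or.inr rfl
  have hker : ∀ x : SL(2, F), proj x = 1 → x = 1 ∨ x = negOne := by
    intro x hx
    rw [QuotientGroup.mk'_apply, QuotientGroup.eq_one_iff, center_eq] at hx
    exact hx
  have ha : orderOf (proj τ) = M / 2 := by
    rw [orderOf_eq_iff (by omega)]
    refine ⟨by rw [← map_pow, hhalf, hprojneg], ?_⟩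
    intro m hm hm0 hcon
    rw [← map_pow] at hcon
    have h1 : τ ^ (m + m) = 1 := by
      rw [pow_add]
      rcases hker _ hcon with h | h
      · rw [h, one_mul]
      · rw [h, negOne_mul_negOne]
    have hlt : m + m < orderOf τ := by rw [hord]; omega
    exact pow_ne_one_of_lt_orderOf (by omega) hlt h1
  have hb : proj n₀ * proj n₀ = 1 := by rw [← map_mul, hn₀, hprojneg]
  have hab : proj n₀ * proj τ * (proj n₀)⁻¹ = (proj τ)⁻¹ := by
    rw [← map_inv, ← map_mul, ← map_mul, hinv, map_inv]
  have hba : ∀ i : ZMod (M / 2), proj n₀ ≠ zp (proj τ) (M / 2) i := by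
    intro i hcon
    have hcon' : proj n₀ = proj (τ ^ i.val) := by rw [map_pow]; exact hcon
    have h1 : proj (n₀⁻¹ * τ ^ i.val) = 1 := by
      rw [map_mul, map_inv, ← hcon', inv_mul_cancel]
    have hcomm : n₀ * τ = τ * n₀ := by
      rcases hker _ h1 with h | h
      · have e : n₀ = τ ^ i.val := inv_mul_eq_one.1 h
        rw [e, ← pow_succ, ← pow_succ']
      · have e1 : τ ^ i.val = n₀ * negOne := by rw [← h]; group
        have e : n₀ = τ ^ i.val * negOne := by
          rw [e1, mul_assoc, negOne_mul_negOne, mul_one]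
        rw [e]
        calc τ ^ i.val * negOne * τ = τ ^ i.val * (negOne * τ) := by group
          _ = τ ^ i.val * (τ * negOne) := by rw [negOne_comm]
          _ = (τ ^ i.val * τ) * negOne := by group
          _ = (τ * τ ^ i.val) * negOne := by rw [← pow_succ, ← pow_succ']
          _ = τ * (τ ^ i.val * negOne) := by group
    apply hτ3
    rw [← hinv, hcomm]; group
  have hinj : Function.Injective (dihHom ha hb hab) := dihHom_injective ha hb hab hba
  refine ⟨dihHom ha hb hab, hinj, ?_⟩
  have hτN : τ ∈ NorInv τ := Or.inl (by group)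
  have hn₀N : n₀ ∈ NorInv τ := Or.inr hinv
  have hle : (dihHom ha hb hab).range ≤ (NorInv τ).map proj := by
    rintro _ ⟨x, rfl⟩
    rcases x with i | i
    · have e : (dihHom ha hb hab) (DihedralGroup.r i) = proj (τ ^ i.val) := by
        rw [dihHom_r, map_pow]; rfl
      rw [e]
      exact Subgroup.mem_map_of_mem _ (Subgroup.pow_mem _ hτN _)
    · have e : (dihHom ha hb hab) (DihedralGroup.sr i) = proj (n₀ * τ ^ i.val) := by
        rw [dihHom_sr, map_mul, map_pow]; rfl
      rw [e]
      exact Subgroup.mem_map_of_mem _ (Subgroup.mul_mem _ hn₀N (Subgroup.pow_mem _ hτN _))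
  apply Subgroup.eq_of_le_of_card_ge hle
  have hc1 : Nat.card (dihHom ha hb hab).range = 2 * (M / 2) := by
    rw [Nat.card_congr (MonoidHom.ofInjective hinj).symm.toEquiv, DihedralGroup.nat_card]
  have hc2 : 2 * Nat.card ((NorInv τ).map (proj (F := F))) = Nat.card (NorInv τ) := by
    rw [← card_comap h2, Subgroup.comap_map_eq_self (ker_le_norInv τ)]
  have hc3 := card_norInv_eq τ n₀ hinv hτ3
  rw [hcent] at hc3
  rw [hc1]
  omega

/-- the order of a `p'`-element of `SL(2, k)` is at most `|k| + 1` -/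
theorem orderOf_le_of_mem_Sk (p : ℕ) [Fact p.Prime] [CharP F p] (h2 : (2 : F) ≠ 0)
    (k : Subfield F) (z : SL(2, F)) (hz : z ∈ Sk k) (hcop : (orderOf z).Coprime p) :
    orderOf z ≤ Nat.card k + 1 := by
  classical
  haveI : Fintype k := Fintype.ofFinite k
  have hι : Function.Injective k.subtype := Subtype.val_injective
  haveI : CharP k p := RingHom.charP k.subtype hι p
  have hr := range_map k.subtype
  rw [Subfield.fieldRange_subtype] at hr
  rw [← hr] at hz
  obtain ⟨A, rfl⟩ := hz
  have hinj : Function.Injective (Matrix.SpecialLinearGroup.map (n := Fin 2) k.subtype) := by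
    intro A B hAB
    have h00 := congrArg (fun g : SL(2, F) => g.1 0 0) hAB
    have h01 := congrArg (fun g : SL(2, F) => g.1 0 1) hAB
    have h10 := congrArg (fun g : SL(2, F) => g.1 1 0) hAB
    have h11 := congrArg (fun g : SL(2, F) => g.1 1 1) hAB
    simp only [map_entry] at h00 h01 h10 h11
    exact sl2_ext A B (hι h00) (hι h01) (hι h10) (hι h11)
  rw [orderOf_injective _ hinj A] at hcop ⊢
  have h2k : (2 : k) ≠ 0 := by
    intro h
    apply h2
    have h' := congrArg k.subtype h
    rw [map_ofNat, map_zero] at h'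
    exact h'
  have hk2 := card_subfield_two_le k
  by_cases hA1 : A = 1
  · rw [hA1, orderOf_one]; omega
  by_cases hA2 : A = negOne
  · have h' : orderOf A ∣ 2 :=
      orderOf_dvd_of_pow_eq_one (by rw [hA2, pow_two, negOne_mul_negOne])
    have := Nat.le_of_dvd (by norm_num) h'
    omega
  have htr := tr_sq_ne_four p h2k A hcop hA1 hA2
  haveI : Finite SL(2, k) := finite_SL
  have hdvd : orderOf A ∣ Nat.card (Subgroup.centralizer {A}) := by
    rw [← Nat.card_zpowers]
    apply Subgroup.card_dvd_of_le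
    rw [Subgroup.zpowers_le]
    exact Subgroup.mem_centralizer_singleton_iff.2 rfl
  have hpos : 0 < Nat.card (Subgroup.centralizer ({A} : Set SL(2, k))) := Nat.card_pos
  have hle := Nat.le_of_dvd hpos hdvd
  rcases card_centralizer_cases h2k A htr with h | h
  · rw [h, ← Nat.card_eq_fintype_card] at hle; omega
  · rw [h, ← Nat.card_eq_fintype_card] at hle; omega

end torus

/-! ### maximality -/

/-- **The torus normalizers are maximal.** -/
theorem norInv_coatom [Fintype F] (p : ℕ) [Fact p.Prime] [CharP F p]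
    (hodd : Odd (Fintype.card F)) (τ n₀ : SL(2, F)) (M : ℕ)
    (hord : orderOf τ = M) (hcent : Nat.card (Subgroup.centralizer {τ}) = M)
    (hinv : n₀ * τ * n₀⁻¹ = τ⁻¹)
    (hM : (M = Fintype.card F - 1 ∧ 13 ≤ Fintype.card F) ∨
      (M = Fintype.card F + 1 ∧ Fintype.card F ≠ 7 ∧ Fintype.card F ≠ 9)) :
    IsCoatom (NorInv τ) := by
  classical
  haveI : Finite SL(2, F) := finite_SL
  have hpp : p.Prime := Fact.out
  have h2 : (2 : F) ≠ 0 := Cfsg.Agent.Lib.Helper98.DOdd10.two_ne_zero_of_odd hodd
  have hoddq : Fintype.card F % 2 = 1 := Nat.odd_iff.1 hodd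
  have hq1 := Fintype.one_lt_card (α := F)
  have hq3 : 3 ≤ Fintype.card F := by omega
  obtain ⟨n, -, hn⟩ := FiniteField.card F p
  have hpq : p ∣ Fintype.card F := by rw [hn]; exact dvd_pow_self p n.ne_zero
  have hM4 : 4 ≤ M := by rcases hM with ⟨h, h'⟩ | ⟨h, -, -⟩ <;> omega
  have hMev : Even M := by
    rw [Nat.even_iff]; rcases hM with ⟨h, h'⟩ | ⟨h, -, -⟩ <;> omega
  have hMle : M ≤ Fintype.card F + 1 := by rcases hM with ⟨h, h'⟩ | ⟨h, -, -⟩ <;> omega
  have hMcop : M.Coprime p := by
    rw [Nat.coprime_comm, Nat.Prime.coprime_iff_not_dvd hpp]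
    intro hdvd
    have h1 : p ∣ 1 := by
      rcases hM with ⟨h, h'⟩ | ⟨h, -, -⟩
      · rw [h] at hdvd
        have e : Fintype.card F - 1 + 1 = Fintype.card F := by omega
        exact (Nat.dvd_add_right hdvd).1 (by rw [e]; exact hpq)
      · rw [h] at hdvd
        exact (Nat.dvd_add_right hpq).1 hdvd
    exact hpp.one_lt.ne' (Nat.dvd_one.1 h1)
  obtain ⟨hτ1, hτ2, hτ3⟩ := tau_ne τ M hM4 hord
  have hcardN : Nat.card (NorInv τ) = 2 * M := by
    rw [card_norInv_eq τ n₀ hinv hτ3, hcent]
  have hτN : τ ∈ NorInv τ := Or.inl (by group)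
  have hnegN : negOne ∈ NorInv τ := by
    left; rw [negOne_comm]; group
  have hcardSL : Nat.card SL(2, F) = Fintype.card F * (Fintype.card F ^ 2 - 1) :=
    Cfsg.Agent.Lib.Helper5.SL2Card.card_SL_two rfl
  have hτcop : (orderOf τ).Coprime p := by rw [hord]; exact hMcop
  have key : ∀ X : Subgroup SL(2, F), NorInv τ ≤ X → X ≠ ⊤ → X ≤ NorInv τ := by
    intro X hNX hX
    have hneg : negOne ∈ X := hNX hnegN
    have hτX : τ ∈ X := hNX hτN
    have hdvdX : 2 * M ∣ Nat.card X := by
      rw [← hcardN]; exact Subgroup.card_dvd_of_le hNX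
    have hXpos : 0 < Nat.card X := Nat.card_pos
    have sqcase : ¬ p ∣ Nat.card X →
        (∀ x ∈ X, ∀ y ∈ X, x ^ 2 * y ^ 2 = y ^ 2 * x ^ 2) → X ≤ NorInv τ := by
      intro hp hsq
      have hle : Nat.card X ≤ 2 * M := by
        rcases card_dvd_of_sq_comm p h2 X hneg hp hsq with h | h
        · have h1 : 2 * M ∣ 2 * (Fintype.card F - 1) := hdvdX.trans h
          have h2' := Nat.le_of_dvd (by omega) h1
          have h3 := Nat.le_of_dvd (by omega) h
          rcases hM with ⟨hM1, hM2⟩ | ⟨hM1, -, -⟩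
          · omega
          · omega
        · have h1 : 2 * M ∣ 2 * (Fintype.card F + 1) := hdvdX.trans h
          have h3 := Nat.le_of_dvd (by omega) h
          rcases hM with ⟨hM1, hM2⟩ | ⟨hM1, -, -⟩
          · exfalso
            rw [hM1] at h1
            have h4 : Fintype.card F - 1 ∣ Fintype.card F + 1 :=
              Nat.dvd_of_mul_dvd_mul_left (by norm_num) h1
            have h5 : Fintype.card F - 1 ∣ 2 := by
              have e : Fintype.card F + 1 = (Fintype.card F - 1) + 2 := by omega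
              rw [e] at h4
              exact (Nat.dvd_add_right (dvd_refl _)).1 h4
            have := Nat.le_of_dvd (by norm_num) h5
            omega
          · omega
      exact (Subgroup.eq_of_le_of_card_ge hNX (by rw [hcardN]; exact hle)).ge
    rcases proper_cases p h2 X hneg hX with
      ⟨g, hg⟩ | ⟨hp, hsq⟩ | ⟨hp, h⟩ | ⟨φ, k, ⟨x, hx⟩, h1, h2'⟩ | ⟨h3, φ, i, hi, hle, hne⟩
    · -- triangular
      exfalso
      have h1 : 2 * M ∣ Fintype.card F * (Fintype.card F - 1) :=
        hdvdX.trans (card_dvd_of_borel X g hg)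
      rcases hM with ⟨hM1, hM2⟩ | ⟨hM1, -, -⟩
      · rw [hM1] at h1
        exact arith_borel_split _ hq3 hoddq h1
      · rw [hM1] at h1
        exact arith_borel_nonsplit _ hq3 h1
    · exact sqcase hp hsq
    · -- small orders
      by_cases h12 : 12 ≤ M
      · exact sqcase hp (sq_comm_of_order p h2 X hneg hp τ hτX (by rw [hord]; exact h12))
      · rcases hM with ⟨hM1, hM2⟩ | ⟨hM1, hq7, hq9⟩
        · omega
        · have hq35 : Fintype.card F = 3 ∨ Fintype.card F = 5 := by omega
          rcases hq35 with h3 | h5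
          · exfalso
            have e24 : Fintype.card F * (Fintype.card F ^ 2 - 1) = 24 := by simp [h3]
            rw [e24] at hcardSL
            have hc : Nat.card X ∣ 24 := by
              rw [← hcardSL]; exact Subgroup.card_subgroup_dvd_card X
            apply hX
            apply Subgroup.eq_top_of_card_eq
            rw [hcardSL]
            have := Nat.le_of_dvd (by norm_num) hc
            rcases h with h | h | h <;> omega
          · have hM6 : M = 6 := by omega
            have e120 : Fintype.card F * (Fintype.card F ^ 2 - 1) = 120 := by simp [h5]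
            rw [e120] at hcardSL
            have hc : Nat.card X ∣ 120 := by
              rw [← hcardSL]; exact Subgroup.card_subgroup_dvd_card X
            rcases h with h | h | h
            · have hidx : ((NorInv τ).subgroupOf X).index = 2 := by
                have h1 := Subgroup.card_mul_index ((NorInv τ).subgroupOf X)
                rw [Nat.card_congr (Subgroup.subgroupOfEquivOfLe hNX).toEquiv, hcardN, h, hM6]
                  at h1
                omega
              have hnorm : ((NorInv τ).subgroupOf X).Normal :=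
                Subgroup.normal_of_index_eq_two hidx
              intro x hx
              have hconj : x * τ * x⁻¹ ∈ NorInv τ := by
                have h1 := hnorm.conj_mem ⟨τ, hτX⟩
                  (by rw [Subgroup.mem_subgroupOf]; exact hτN) ⟨x, hx⟩
                rw [Subgroup.mem_subgroupOf] at h1
                exact h1
              have hcomm : (x * τ * x⁻¹) * τ = τ * (x * τ * x⁻¹) := by
                rcases hconj with h' | h'
                · exact (conj_eq_iff τ _).1 h'
                · exfalso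
                  have hsq := sq_of_inverting h2 τ M hM4 hord hcent _ h'
                  have e : τ * τ = negOne := by
                    have e1 : τ * τ = x⁻¹ * ((x * τ * x⁻¹) * (x * τ * x⁻¹)) * x := by group
                    rw [e1, hsq, mul_assoc, negOne_comm x]; group
                  have h4 : τ ^ (2 * 2) = 1 := by
                    rw [pow_mul, pow_two τ, e, pow_two, negOne_mul_negOne]
                  have h5' := orderOf_dvd_of_pow_eq_one h4
                  rw [hord, hM6] at h5'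
                  omega
              exact conj_eq_or p h2 τ x hτcop hτ1 hτ2 hcomm
            · exfalso; rw [h] at hc; omega
            · exfalso
              apply hX
              apply Subgroup.eq_top_of_card_eq
              rw [hcardSL, h]
    · -- subfield
      exfalso
      have hzP : φ τ ∈ Pk k := h2' (Subgroup.mem_map_of_mem φ.toMonoidHom hτX)
      have hzS : φ τ * φ τ ∈ Sk k := sq_mem_Sk k (φ τ) hzP
      have hordz : orderOf (φ τ * φ τ) = M / 2 := by
        have e : φ τ * φ τ = φ (τ ^ 2) := by rw [pow_two, map_mul]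
        rw [e, MulEquiv.orderOf_eq, orderOf_pow' τ two_ne_zero, hord,
          Nat.gcd_eq_right hMev.two_dvd]
      have hcopz : (orderOf (φ τ * φ τ)).Coprime p := by
        rw [hordz]
        exact Nat.Coprime.coprime_dvd_left (Nat.div_dvd_of_dvd hMev.two_dvd) hMcop
      have hle := orderOf_le_of_mem_Sk p h2 k (φ τ * φ τ) hzS hcopz
      rw [hordz] at hle
      have hsq := card_sq_le k x hx
      rw [Nat.card_eq_fintype_card (α := F)] at hsq
      obtain ⟨m, hm⟩ := exists_pow k
      rw [Nat.card_eq_fintype_card (α := F)] at hm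
      have hk2 := card_subfield_two_le k
      have hk_odd : Nat.card k % 2 = 1 := by
        rcases Nat.eq_zero_or_pos m with rfl | hmpos
        · rw [pow_zero] at hm; omega
        · by_contra hcon
          have hev : 2 ∣ Nat.card k := by omega
          have h2q : 2 ∣ Fintype.card F := by rw [hm]; exact dvd_pow hev (by omega)
          omega
      have h9 : Nat.card k ^ 2 = Nat.card k * Nat.card k := sq _
      have h10 : 3 * Nat.card k ≤ Nat.card k * Nat.card k :=
        Nat.mul_le_mul_right _ (by omega)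
      rcases hM with ⟨hM1, hM2⟩ | ⟨hM1, -, -⟩
      · omega
      · omega
    · -- the field of nine elements
      exfalso
      have hzS : φ τ ∈ Sk (k9 i hi) := hle (Subgroup.mem_map_of_mem φ.toMonoidHom hτX)
      have hordz : orderOf (φ τ) = M := by rw [MulEquiv.orderOf_eq, hord]
      have hle' := orderOf_le_of_mem_Sk p h2 (k9 i hi) (φ τ) hzS (by rw [hordz]; exact hMcop)
      rw [hordz, card_k9 h2 h3 i hi] at hle'
      obtain ⟨m, hm⟩ := exists_pow (k9 i hi)
      rw [Nat.card_eq_fintype_card (α := F), card_k9 h2 h3 i hi] at hm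
      rcases hM with ⟨hM1, hM2⟩ | ⟨hM1, hq7, hq9⟩
      · omega
      · rcases Nat.eq_zero_or_pos m with rfl | hmpos
        · rw [pow_zero] at hm; omega
        · have h9 : 9 ≤ Fintype.card F := by
            rw [hm]; exact Nat.le_self_pow (by omega) 9
          omega
  constructor
  · intro htop
    have h1 : Nat.card (NorInv τ) = Nat.card SL(2, F) := by rw [htop, Subgroup.card_top]
    rw [hcardN, hcardSL] at h1
    exact arith_top _ M hq3 hMle h1
  · intro X hlt
    by_contra hX
    exact absurd (le_antisymm hlt.le (key X hlt.le hX)) hlt.ne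

/-- **Dihedral maximal subgroups of `PSL(2, F)`** from a torus. -/
theorem psl_dihedral [Fintype F] (hodd : Odd (Fintype.card F)) (τ n₀ : SL(2, F)) (M : ℕ)
    (hord : orderOf τ = M) (hcent : Nat.card (Subgroup.centralizer {τ}) = M)
    (hinv : n₀ * τ * n₀⁻¹ = τ⁻¹)
    (hM : (M = Fintype.card F - 1 ∧ 13 ≤ Fintype.card F) ∨
      (M = Fintype.card F + 1 ∧ Fintype.card F ≠ 7 ∧ Fintype.card F ≠ 9)) :
    ∃ H : Subgroup (Matrix.ProjectiveSpecialLinearGroup (Fin 2) F),
      IsCoatom H ∧ Nonempty (H ≃* DihedralGroup (M / 2)) := by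
  obtain ⟨p, hpc⟩ := CharP.exists F
  haveI := hpc
  haveI : Fact p.Prime := ⟨CharP.char_is_prime F p⟩
  have h2 : (2 : F) ≠ 0 := Cfsg.Agent.Lib.Helper98.DOdd10.two_ne_zero_of_odd hodd
  have hoddq : Fintype.card F % 2 = 1 := Nat.odd_iff.1 hodd
  have hq1 := Fintype.one_lt_card (α := F)
  have hco := norInv_coatom p hodd τ n₀ M hord hcent hinv hM
  have hM4 : 4 ≤ M := by rcases hM with ⟨h, h'⟩ | ⟨h, -, -⟩ <;> omega
  have hMev : Even M := by
    rw [Nat.even_iff]; rcases hM with ⟨h, h'⟩ | ⟨h, -, -⟩ <;> omega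
  obtain ⟨f, hinj, hrange⟩ := dihedral_range h2 τ n₀ M hM4 hMev hord hcent hinv
  refine ⟨f.range, ?_, ⟨(MonoidHom.ofInjective hinj).symm⟩⟩
  rw [hrange]
  exact isCoatom_map proj proj_surj _ (ker_le_norInv τ) hco

end Cfsg.Agent.Lib.Helper98.DOdd11a
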