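import Mathlib
import Cfsg.Agent.Lib.Helper98.DOdd11a

set_option autoImplicit false

/-!
# Dihedral maximal subgroups of `PSL(2, q)`, `q` odd

* `exists_split_torus`: an element of order `q - 1` of `SL(2, F)` whose centralizer has order
  `q - 1`, with an element inverting it;
* `exists_nonsplit_torus`: the same with `q + 1`;
* `odd_S0811`, `odd_S0812`: the statements S0811 and S0812 with the additional hypothesis that
  `q` is odd.
-/

namespace Cfsg.Agent.Lib.Helper98.DOdd11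

open Matrix MatrixGroups
open Cfsg.Agent.Lib.Helper98.SL2Sub Cfsg.Agent.Lib.Helper98.SL2Core
open Cfsg.Agent.Lib.Helper98.SL2Tor Cfsg.Agent.Lib.Helper98.PSL2Max
open Cfsg.Agent.Lib.Helper98.DOdd11a
open Cfsg.Agent.Lib.Helper53.SL2Inv Cfsg.Agent.Lib.Helper53.SL2Unip

variable {F : Type*} [Field F]

/-! ### the split torus -/

/-- the diagonal torus -/
def dHom (F : Type*) [Field F] : Fˣ →* SL(2, F) :=
  MonoidHom.mk' (fun t => d (t : F) t.ne_zero) (by
    intro a b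
    apply sl2_ext <;>
      simp only [mul00, mul01, mul10, mul11, d00, d01, d10, d11, Units.val_mul, mul_inv] <;>
      ring)

lemma dHom_apply (t : Fˣ) : dHom F t = d (t : F) t.ne_zero := rfl

lemma dHom_injective : Function.Injective (dHom F) := by
  intro a b hab
  have h00 := congrArg (fun g : SL(2, F) => g.1 0 0) hab
  simp only [dHom_apply, d00] at h00
  exact Units.ext h00

theorem exists_split_torus [Fintype F] (h2 : (2 : F) ≠ 0) (hq : 5 ≤ Fintype.card F) :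
    ∃ τ n₀ : SL(2, F), orderOf τ = Fintype.card F - 1 ∧
      Nat.card (Subgroup.centralizer {τ}) = Fintype.card F - 1 ∧ n₀ * τ * n₀⁻¹ = τ⁻¹ := by
  classical
  obtain ⟨x₀, hx₀⟩ := IsCyclic.exists_ofOrder_eq_natCard (α := Fˣ)
  rw [Nat.card_units, Nat.card_eq_fintype_card] at hx₀
  have ht0 : (x₀ : F) ≠ 0 := x₀.ne_zero
  have htt : (x₀ : F) ^ 2 ≠ 1 := by
    intro h
    have h1 : x₀ ^ 2 = 1 := Units.ext (by rw [Units.val_pow_eq_pow_val, h, Units.val_one])
    exact pow_ne_one_of_lt_orderOf (by norm_num) (by rw [hx₀]; omega) h1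
  have hord : orderOf (d (x₀ : F) ht0) = Fintype.card F - 1 := by
    rw [← hx₀, ← orderOf_injective (dHom F) dHom_injective x₀]
    rfl
  have htr : ((d (x₀ : F) ht0).1 0 0 + (d (x₀ : F) ht0).1 1 1) ^ 2 ≠ 4 := by
    rw [d00, d11]
    intro h
    have h1 : ((x₀ : F) ^ 2 - 1) ^ 2 = 0 := by
      have : ((x₀ : F) + (x₀ : F)⁻¹) ^ 2 * (x₀ : F) ^ 2 = 4 * (x₀ : F) ^ 2 := by rw [h]
      field_simp at this
      linear_combination this
    exact htt (by
      have := pow_eq_zero_iff (two_ne_zero) |>.1 h1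
      linear_combination this)
  have hroot : (x₀ : F) ^ 2 - ((d (x₀ : F) ht0).1 0 0 + (d (x₀ : F) ht0).1 1 1) * (x₀ : F) + 1
      = 0 := by
    rw [d00, d11]; field_simp; ring
  have hcard := card_centralizer_split (d (x₀ : F) ht0) htr (x₀ : F) hroot
  have hinv : w * d (x₀ : F) ht0 * w⁻¹ = (d (x₀ : F) ht0)⁻¹ := by
    rw [d_inv]
    apply sl2_ext <;> simp [mul00, mul01, mul10, mul11, inv00, inv01, inv10, inv11]
  exact ⟨d (x₀ : F) ht0, w, hord, hcard, hinv⟩

/-! ### the nonsplit torus -/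

/-- the nonsplit torus attached to `δ` -/
def Cδ (δ : F) : Subgroup SL(2, F) where
  carrier := {g | g.1 0 0 = g.1 1 1 ∧ g.1 0 1 = δ * g.1 1 0}
  one_mem' := ⟨by rw [one00, one11], by rw [one01, one10, mul_zero]⟩
  mul_mem' := by
    rintro g h ⟨hg1, hg2⟩ ⟨hh1, hh2⟩
    refine ⟨?_, ?_⟩
    · rw [mul00, mul11, hg2, hh2, hg1, hh1]; ring
    · rw [mul01, mul10, hg2, hh2, hg1, hh1]; ring
  inv_mem' := by
    rintro g ⟨hg1, hg2⟩
    refine ⟨?_, ?_⟩
    · rw [inv00, inv11, hg1]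
    · rw [inv01, inv10, hg2]; ring

lemma mem_Cδ (δ : F) (g : SL(2, F)) :
    g ∈ Cδ δ ↔ g.1 0 0 = g.1 1 1 ∧ g.1 0 1 = δ * g.1 1 0 := Iff.rfl

lemma det_Cδ (δ : F) (g : SL(2, F)) (hg : g ∈ Cδ δ) : g.1 0 0 ^ 2 - δ * g.1 1 0 ^ 2 = 1 := by
  have h := det_eq g
  rw [← hg.1, hg.2] at h
  linear_combination h

lemma centralizer_eq_Cδ (δ : F) (b : SL(2, F)) (hb : b ∈ Cδ δ) (hb10 : b.1 1 0 ≠ 0) :
    Subgroup.centralizer {b} = Cδ δ := by
  ext g
  rw [Subgroup.mem_centralizer_singleton_iff, mem_Cδ]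
  obtain ⟨hb1, hb2⟩ := hb
  constructor
  · intro h
    have h00 := congrArg (fun x : SL(2, F) => x.1 0 0) h
    have h10 := congrArg (fun x : SL(2, F) => x.1 1 0) h
    simp only [mul00, mul10] at h00 h10
    rw [hb2] at h00
    rw [hb1] at h10
    constructor
    · apply mul_left_cancel₀ hb10
      linear_combination -h10
    · apply mul_left_cancel₀ hb10
      linear_combination h00
  · rintro ⟨hg1, hg2⟩
    apply sl2_ext
    · rw [mul00, mul00, hb2, hg2]; ring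
    · rw [mul01, mul01, hb2, hg2, hb1, hg1]; ring
    · rw [mul10, mul10, hb1, hg1]; ring
    · rw [mul11, mul11, hb2, hg2]; ring

/-- an element inverting the nonsplit torus -/
lemma exists_inverter [Fintype F] (hodd : Fintype.card F % 2 = 1) (δ : F) (hδ : δ ≠ 0) :
    ∃ n₀ : SL(2, F), ∀ g ∈ Cδ δ, n₀ * g * n₀⁻¹ = g⁻¹ := by
  obtain ⟨P, R, hPR⟩ := FiniteField.exists_root_sum_quadratic
    (f := Polynomial.C (1 : F) * Polynomial.X ^ 2 + Polynomial.C 0 * Polynomial.X +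
      Polynomial.C 1)
    (g := Polynomial.C (-δ) * Polynomial.X ^ 2 + Polynomial.C 0 * Polynomial.X +
      Polynomial.C 0)
    (Polynomial.degree_quadratic one_ne_zero) (Polynomial.degree_quadratic (neg_ne_zero.2 hδ))
    hodd
  simp only [Polynomial.eval_add, Polynomial.eval_mul, Polynomial.eval_C, Polynomial.eval_pow,
    Polynomial.eval_X, zero_mul, add_zero, one_mul] at hPR
  have hdet : P * (-P) - (-(δ * R)) * R = 1 := by linear_combination -hPR
  let n₀ : SL(2, F) := ⟨!![P, -(δ * R); R, -P], by rw [Matrix.det_fin_two_of]; exact hdet⟩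
  have e00 : n₀.1 0 0 = P := rfl
  have e01 : n₀.1 0 1 = -(δ * R) := rfl
  have e10 : n₀.1 1 0 = R := rfl
  have e11 : n₀.1 1 1 = -P := rfl
  refine ⟨n₀, ?_⟩
  rintro g ⟨hg1, hg2⟩
  rw [mul_inv_eq_iff_eq_mul]
  apply sl2_ext
  · rw [mul00, mul00, inv00, inv01, e00, e01, e10, hg2, hg1]; ring
  · rw [mul01, mul01, inv00, inv01, e00, e01, e11]; ring
  · rw [mul10, mul10, inv10, inv11, e00, e10, e11]; ring
  · rw [mul11, mul11, inv10, inv11, e01, e10, e11, hg2, hg1]; ring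

/-- the embedding of the nonsplit torus into a field containing a square root of `δ` -/
def chi {Ω : Type*} [Field Ω] (ι : F →+* Ω) (δ : F) (ρ : Ω) (hρ : ρ ^ 2 = ι δ) : Cδ δ →* Ω where
  toFun g := ι (g.1.1 0 0) + ι (g.1.1 1 0) * ρ
  map_one' := by
    show ι ((1 : SL(2, F)).1 0 0) + ι ((1 : SL(2, F)).1 1 0) * ρ = 1
    rw [one00, one10, map_one, map_zero, zero_mul, add_zero]
  map_mul' := by
    rintro ⟨g, hg1, hg2⟩ ⟨h, hh1, hh2⟩
    show ι ((g * h).1 0 0) + ι ((g * h).1 1 0) * ρ =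
      (ι (g.1 0 0) + ι (g.1 1 0) * ρ) * (ι (h.1 0 0) + ι (h.1 1 0) * ρ)
    rw [mul00, mul10, hg2, ← hg1]
    simp only [map_add, map_mul]
    linear_combination (-(ι (g.1 1 0)) * ι (h.1 1 0)) * hρ

lemma chi_injective {Ω : Type*} [Field Ω] (ι : F →+* Ω) (δ : F) (hδ : ¬ IsSquare δ) (ρ : Ω)
    (hρ : ρ ^ 2 = ι δ) : Function.Injective (chi ι δ ρ hρ) := by
  rw [injective_iff_map_eq_one]
  rintro ⟨g, hg1, hg2⟩ hg
  have hg' : ι (g.1 0 0) + ι (g.1 1 0) * ρ = 1 := hg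
  have h10 : g.1 1 0 = 0 := by
    by_contra hne
    apply hδ
    have hι : ι (g.1 1 0) ≠ 0 := (map_ne_zero ι).2 hne
    have hρ' : ρ = ι ((1 - g.1 0 0) / g.1 1 0) := by
      rw [map_div₀, map_sub, map_one, eq_div_iff hι]
      linear_combination hg'
    refine ⟨(1 - g.1 0 0) / g.1 1 0, ?_⟩
    apply ι.injective
    rw [← hρ, hρ', map_mul, pow_two]
  have h00 : g.1 0 0 = 1 := by
    apply ι.injective
    rw [h10, map_zero, zero_mul, add_zero] at hg'
    rw [hg', map_one]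
  apply Subtype.ext
  show g = (1 : SL(2, F))
  apply sl2_ext
  · rw [one00]; exact h00
  · rw [one01, hg2, h10, mul_zero]
  · rw [one10]; exact h10
  · rw [one11, ← hg1]; exact h00

theorem isCyclic_Cδ [Finite F] (δ : F) (hδ : ¬ IsSquare δ) : IsCyclic (Cδ δ) := by
  haveI : Finite SL(2, F) := finite_SL
  obtain ⟨ρ, hρ⟩ := IsAlgClosed.exists_pow_nat_eq (algebraMap F (AlgebraicClosure F) δ)
    (n := 2) (by norm_num)
  exact isCyclic_of_injective_ringHom (chi (algebraMap F (AlgebraicClosure F)) δ ρ hρ)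
    (chi_injective _ δ hδ ρ hρ)

theorem exists_nonsplit_torus [Fintype F] (h2 : (2 : F) ≠ 0) :
    ∃ τ n₀ : SL(2, F), orderOf τ = Fintype.card F + 1 ∧
      Nat.card (Subgroup.centralizer {τ}) = Fintype.card F + 1 ∧ n₀ * τ * n₀⁻¹ = τ⁻¹ := by
  classical
  haveI : Finite SL(2, F) := finite_SL
  have hch : ringChar F ≠ 2 := by
    intro h
    apply h2
    have h' := ringChar.Nat.cast_ringChar (R := F)
    rw [h] at h'
    exact_mod_cast h'
  obtain ⟨δ, hδ⟩ := FiniteField.exists_nonsquare hch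
  have hδ0 : δ ≠ 0 := by
    rintro rfl
    exact hδ ⟨0, by simp⟩
  have hδ1 : 1 - δ ≠ 0 := by
    intro h
    apply hδ
    refine ⟨1, ?_⟩
    linear_combination -h
  have hodd : Fintype.card F % 2 = 1 := by
    rcases Nat.mod_two_eq_zero_or_one (Fintype.card F) with h | h
    · exfalso; exact hch (FiniteField.even_card_iff_char_two.2 h)
    · exact h
  obtain ⟨x, hx⟩ : ∃ x : F, x = (1 + δ) / (1 - δ) := ⟨_, rfl⟩
  obtain ⟨y, hy⟩ : ∃ y : F, y = 2 / (1 - δ) := ⟨_, rfl⟩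
  have hxy : x * x - δ * y * y = 1 := by
    rw [hx, hy]; field_simp; ring
  have hy0 : y ≠ 0 := by rw [hy]; exact div_ne_zero h2 hδ1
  let a₀ : SL(2, F) := ⟨!![x, δ * y; y, x], by rw [Matrix.det_fin_two_of]; exact hxy⟩
  have f00 : a₀.1 0 0 = x := rfl
  have f11 : a₀.1 1 1 = x := rfl
  have ha₀ : a₀ ∈ Cδ δ := ⟨rfl, rfl⟩
  have ha10 : a₀.1 1 0 ≠ 0 := hy0
  have hC := centralizer_eq_Cδ δ a₀ ha₀ ha10
  have h4 : (4 : F) ≠ 0 := by
    have : (4 : F) = 2 * 2 := by norm_num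
    rw [this]; exact mul_ne_zero h2 h2
  have htr : (a₀.1 0 0 + a₀.1 1 1) ^ 2 ≠ 4 := by
    rw [f00, f11]
    intro h
    have h0 : δ * y * y = 0 := by
      apply mul_left_cancel₀ h4
      linear_combination h - 4 * hxy
    exact mul_ne_zero (mul_ne_zero hδ0 hy0) hy0 h0
  have hroot : ∀ r : F, r ^ 2 - (a₀.1 0 0 + a₀.1 1 1) * r + 1 ≠ 0 := by
    intro r h
    rw [f00, f11] at h
    apply hδ
    refine ⟨(r - x) / y, ?_⟩
    rw [div_mul_div_comm, eq_div_iff (mul_ne_zero hy0 hy0)]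
    linear_combination -hxy - h
  have hcardC : Nat.card (Cδ δ) = Fintype.card F + 1 := by
    rw [← hC]; exact card_centralizer_nonsplit h2 a₀ htr hroot
  haveI := isCyclic_Cδ δ hδ
  obtain ⟨τ', hτ'⟩ := IsCyclic.exists_ofOrder_eq_natCard (α := Cδ δ)
  rw [hcardC] at hτ'
  have hτord : orderOf (τ' : SL(2, F)) = Fintype.card F + 1 := by
    rw [Subgroup.orderOf_coe]; exact hτ'
  have hτ10 : (τ' : SL(2, F)).1 1 0 ≠ 0 := by
    intro h0
    have hdet := det_Cδ δ τ'.1 τ'.2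
    rw [h0] at hdet
    have hsq : (τ' : SL(2, F)) * τ' = 1 := by
      obtain ⟨h1, h2'⟩ := τ'.2
      apply sl2_ext
      · rw [mul00, one00, h2', h0]; linear_combination hdet
      · rw [mul01, one01, h2', h0]; ring
      · rw [mul10, one10, h0]; ring
      · rw [mul11, one11, h0, ← h1]; linear_combination hdet
    have h' : orderOf (τ' : SL(2, F)) ∣ 2 :=
      orderOf_dvd_of_pow_eq_one (by rw [pow_two]; exact hsq)
    have := Nat.le_of_dvd (by norm_num) h'
    have := Fintype.one_lt_card (α := F)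
    omega
  have hCτ := centralizer_eq_Cδ δ τ'.1 τ'.2 hτ10
  obtain ⟨n₀, hn₀⟩ := exists_inverter hodd δ hδ0
  exact ⟨τ'.1, n₀, hτord, by rw [hCτ, hcardC], hn₀ _ τ'.2⟩

/-! ### the statements -/

/-- S0811 for odd `q` -/
theorem odd_S0811 {F : Type*} [Field F] [Fintype F] {q : ℕ} (hF : Fintype.card F = q)
    (hodd : Odd q) (hq : q ∉ ({2, 7, 9} : Finset ℕ)) :
    ∃ H : Subgroup (Matrix.ProjectiveSpecialLinearGroup (Fin 2) F), IsCoatom H ∧
      Nonempty (H ≃* DihedralGroup ((q + 1) / Nat.gcd 2 (q - 1))) := by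
  subst hF
  have h2 : (2 : F) ≠ 0 := Cfsg.Agent.Lib.Helper98.DOdd10.two_ne_zero_of_odd hodd
  obtain ⟨τ, n₀, hord, hcent, hinv⟩ := exists_nonsplit_torus h2
  simp only [Finset.mem_insert, Finset.mem_singleton, not_or] at hq
  have hoddq := Nat.odd_iff.1 hodd
  have hg : Nat.gcd 2 (Fintype.card F - 1) = 2 := Nat.gcd_eq_left (by omega)
  rw [hg]
  exact psl_dihedral hodd τ n₀ (Fintype.card F + 1) hord hcent hinv
    (Or.inr ⟨rfl, hq.2.1, hq.2.2⟩)

/-- S0812 for odd `q` -/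
theorem odd_S0812 {F : Type*} [Field F] [Fintype F] {q : ℕ} (hF : Fintype.card F = q)
    (hodd : Odd q) (hq : q ∉ ({2, 3, 5, 7, 9, 11} : Finset ℕ)) :
    ∃ H : Subgroup (Matrix.ProjectiveSpecialLinearGroup (Fin 2) F), IsCoatom H ∧
      Nonempty (H ≃* DihedralGroup ((q - 1) / Nat.gcd 2 (q - 1))) := by
  subst hF
  have h2 : (2 : F) ≠ 0 := Cfsg.Agent.Lib.Helper98.DOdd10.two_ne_zero_of_odd hodd
  simp only [Finset.mem_insert, Finset.mem_singleton, not_or] at hq
  have hoddq := Nat.odd_iff.1 hodd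
  have h1 := Fintype.one_lt_card (α := F)
  have h13 : 13 ≤ Fintype.card F := by omega
  obtain ⟨τ, n₀, hord, hcent, hinv⟩ := exists_split_torus h2 (by omega)
  have hg : Nat.gcd 2 (Fintype.card F - 1) = 2 := Nat.gcd_eq_left (by omega)
  rw [hg]
  exact psl_dihedral hodd τ n₀ (Fintype.card F - 1) hord hcent hinv (Or.inl ⟨rfl, h13⟩)

end Cfsg.Agent.Lib.Helper98.DOdd11
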