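import Mathlib
import Cfsg.Prelude.Def_KGroupFacts
import Cfsg.Agent.Lib.Helper98.CExt
import Cfsg.Agent.Lib.Helper5.SLGen

set_option autoImplicit false

/-!
# The Schur multiplier of `PSL_n(F)` from the splitting of central extensions of `SL_n(F)`
(helper98)

* `exists_lift_surj`: if every central extension of `E` splits and `pr : E →* G` is onto, then
  every stem extension `σ : Γ →* G` is dominated by `E`: there is a surjection `τ : E →* Γ` with
  `σ ∘ τ = pr`.
* `schur_of_split`: the multiplier of `PSL_n(F)` is cyclic of order `gcd(n, q - 1)` as soon as all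
  central extensions of `SL_n(F)` split.
-/

open scoped commutatorElement

universe u

namespace Cfsg.Agent.Lib.Helper98.SchurRed

open Cfsg.Agent.Lib.Helper98.CExt

theorem exists_lift_surj {E G Γ : Type u} [Group E] [Group G] [Group Γ] (pr : E →* G)
    (hsplit : ∀ (Y : Type u) [Group Y] (φ : Y →* E), Function.Surjective φ →
      φ.ker ≤ Subgroup.center Y → ∃ s : E →* Y, ∀ g, φ (s g) = g)
    (σ : Γ →* G) (hσ : Function.Surjective σ) (hσc : σ.ker ≤ Subgroup.center Γ)
    (hσd : σ.ker ≤ commutator Γ) (hpr : Function.Surjective pr) :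
    ∃ τ : E →* Γ, (∀ e, σ (τ e) = pr e) ∧ Function.Surjective τ := by
  let P : Subgroup (Γ × E) :=
    (σ.comp (MonoidHom.fst Γ E)).eqLocus (pr.comp (MonoidHom.snd Γ E))
  let ρ : P →* E := (MonoidHom.snd Γ E).comp P.subtype
  have hρs : Function.Surjective ρ := by
    intro e
    obtain ⟨γ, hγ⟩ := hσ (pr e)
    exact ⟨⟨(γ, e), hγ⟩, rfl⟩
  have hρc : ρ.ker ≤ Subgroup.center P := by
    intro x hx
    rw [MonoidHom.mem_ker] at hx
    have hx2 : x.1.2 = 1 := hx
    have hx1 : x.1.1 ∈ σ.ker := by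
      rw [MonoidHom.mem_ker]
      have h' : σ x.1.1 = pr x.1.2 := x.2
      rw [h', hx2, map_one]
    have hz := Subgroup.mem_center_iff.mp (hσc hx1)
    rw [Subgroup.mem_center_iff]
    intro y
    apply Subtype.ext
    apply Prod.ext
    · exact hz y.1.1
    · show y.1.2 * x.1.2 = x.1.2 * y.1.2
      rw [hx2, mul_one, one_mul]
  obtain ⟨s, hs⟩ := hsplit P ρ hρs hρc
  let τ : E →* Γ := (MonoidHom.fst Γ E).comp (P.subtype.comp s)
  have hτ : ∀ e, σ (τ e) = pr e := by
    intro e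
    have h : σ (s e).1.1 = pr (s e).1.2 := (s e).2
    have h2 : (s e).1.2 = e := hs e
    show σ (s e).1.1 = pr e
    rw [h, h2]
  refine ⟨τ, hτ, ?_⟩
  have hcomm : commutator Γ ≤ τ.range := by
    rw [commutator_eq_closure, Subgroup.closure_le]
    rintro _ ⟨γ₁, γ₂, rfl⟩
    obtain ⟨e₁, he₁⟩ := hpr (σ γ₁)
    obtain ⟨e₂, he₂⟩ := hpr (σ γ₂)
    have h := comm_congr σ hσc (y₁ := γ₁) (y₁' := τ e₁) (y₂ := γ₂) (y₂' := τ e₂)
      (by rw [hτ, he₁]) (by rw [hτ, he₂])
    rw [h]
    exact ⟨⁅e₁, e₂⁆, map_commutatorElement τ e₁ e₂⟩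
  intro γ
  obtain ⟨e, he⟩ := hpr (σ γ)
  have hk : (τ e)⁻¹ * γ ∈ σ.ker := by
    rw [MonoidHom.mem_ker, map_mul, map_inv, hτ, he, inv_mul_cancel]
  obtain ⟨e', he'⟩ := hcomm (hσd hk)
  exact ⟨e * e', by rw [map_mul, he']; group⟩

lemma cyc_equiv {G : Type*} [Group G] (h : IsCyclic G) {d : ℕ} (hd : Nat.card G = d) :
    Nonempty (G ≃* Multiplicative (ZMod d)) := by
  subst hd
  exact ⟨(zmodCyclicMulEquiv h).symm⟩

theorem exists_sq_ne_one {K : Type*} [Field K] [Fintype K] (hK : 4 ≤ Fintype.card K) :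
    ∃ x : K, x ≠ 0 ∧ x ^ 2 ≠ 1 := by
  classical
  obtain ⟨x, hx⟩ : IsCyclic Kˣ := inferInstance
  refine ⟨x, Units.ne_zero x, fun h => ?_⟩
  have h1 : orderOf x ≤ 2 := orderOf_le_of_pow_eq_one zero_lt_two (Units.ext (by simpa using h))
  have h2 : orderOf x = Nat.card Kˣ := orderOf_eq_card_of_forall_mem_zpowers hx
  have h3 : Nat.card Kˣ = Fintype.card K - 1 := by
    rw [Nat.card_eq_fintype_card, Fintype.card_units]
  omega

theorem perfect {F : Type*} [Field F] [Fintype F] (n : ℕ) (hn : 2 ≤ n)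
    (h2 : n = 2 → 4 ≤ Fintype.card F) :
    commutator (Matrix.SpecialLinearGroup (Fin n) F) = ⊤ := by
  rcases Nat.lt_or_ge n 3 with h | h
  · have hn2 : n = 2 := by omega
    subst hn2
    obtain ⟨a, ha0, ha1⟩ := exists_sq_ne_one (h2 rfl)
    exact Matrix.SL2.commutator_eq_top ha0 ha1
  · exact Cfsg.Agent.Lib.Helper5.SLGen.commutator_eq_top_of_three
      (by rw [Fintype.card_fin]; exact h)

theorem center_equiv {F : Type*} [Field F] [Fintype F] (n : ℕ) (hn : 2 ≤ n) :
    Nonempty (Subgroup.center (Matrix.SpecialLinearGroup (Fin n) F) ≃*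
      Multiplicative (ZMod (Nat.gcd n (Fintype.card F - 1)))) := by
  classical
  have i0 : Fin n := ⟨0, by omega⟩
  have e1 := Matrix.SpecialLinearGroup.center_equiv_rootsOfUnity' (R := F) i0
  have hcyc : IsCyclic (rootsOfUnity (Fintype.card (Fin n)) F) := inferInstance
  have hcard : Nat.card (rootsOfUnity (Fintype.card (Fin n)) F) =
      Nat.gcd n (Fintype.card F - 1) := by
    have hk : rootsOfUnity (Fintype.card (Fin n)) F = (powMonoidHom n : Fˣ →* Fˣ).ker := by
      ext x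
      rw [mem_rootsOfUnity, MonoidHom.mem_ker, powMonoidHom_apply, Fintype.card_fin]
    rw [hk, IsCyclic.card_powMonoidHom_ker, Nat.card_eq_fintype_card, Fintype.card_units,
      Nat.gcd_comm]
  obtain ⟨e2⟩ := cyc_equiv hcyc hcard
  exact ⟨e1.trans e2⟩

/-- **Reduction of the Schur multiplier of `PSL_n(F)` to the splitting of central extensions
of `SL_n(F)`.** -/
theorem schur_of_split {F : Type u} [Field F] [Fintype F] (n : ℕ) (hn : 2 ≤ n)
    (h2 : n = 2 → 4 ≤ Fintype.card F)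
    (hsplit : ∀ (Y : Type u) [Group Y] (φ : Y →* Matrix.SpecialLinearGroup (Fin n) F),
      Function.Surjective φ → φ.ker ≤ Subgroup.center Y →
      ∃ s : Matrix.SpecialLinearGroup (Fin n) F →* Y, ∀ g, φ (s g) = g) :
    Cfsg.HasCyclicSchurMultiplier (Matrix.ProjectiveSpecialLinearGroup (Fin n) F)
      (Nat.gcd n (Fintype.card F - 1)) := by
  obtain ⟨ez⟩ := center_equiv (F := F) n hn
  refine And.intro ?_ ?_
  · refine ⟨Matrix.SpecialLinearGroup (Fin n) F, inferInstance, inferInstance,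
      QuotientGroup.mk' (Subgroup.center (Matrix.SpecialLinearGroup (Fin n) F)),
      ⟨QuotientGroup.mk'_surjective _, ?_, ?_⟩, ?_⟩
    · rw [QuotientGroup.ker_mk']
    · rw [perfect n hn h2]; exact le_top
    · rw [QuotientGroup.ker_mk']; exact ⟨ez⟩
  · intro Γ _ _ σ hσ
    obtain ⟨hσ1, hσ2, hσ3⟩ := hσ
    obtain ⟨τ, hτ, hτs⟩ := exists_lift_surj
      (QuotientGroup.mk' (Subgroup.center (Matrix.SpecialLinearGroup (Fin n) F))) hsplit σ
      hσ1 hσ2 hσ3 (QuotientGroup.mk'_surjective _)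
    let π₀ : Subgroup.center (Matrix.SpecialLinearGroup (Fin n) F) →* σ.ker :=
      { toFun := fun z => ⟨τ z.1, by
          rw [MonoidHom.mem_ker, hτ]
          exact (QuotientGroup.eq_one_iff _).mpr z.2⟩
        map_one' := Subtype.ext (map_one τ)
        map_mul' := fun a b => Subtype.ext (map_mul τ a.1 b.1) }
    refine ⟨π₀.comp ez.symm.toMonoidHom, ?_⟩
    rintro ⟨z, hz⟩
    obtain ⟨e, rfl⟩ := hτs z
    have he : e ∈ Subgroup.center (Matrix.SpecialLinearGroup (Fin n) F) := by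
      rw [MonoidHom.mem_ker, hτ] at hz
      exact (QuotientGroup.eq_one_iff e).mp hz
    refine ⟨ez ⟨e, he⟩, ?_⟩
    show π₀ (ez.symm (ez ⟨e, he⟩)) = _
    rw [ez.symm_apply_apply]
    rfl

end Cfsg.Agent.Lib.Helper98.SchurRed
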