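import Mathlib
import Cfsg.Agent.Lib.Helper98.CExt
import Cfsg.Agent.Lib.Helper98.StNF
import Cfsg.Agent.Lib.Helper98.Torus
import Cfsg.Agent.Lib.Helper98.SplitN
import Cfsg.Agent.Lib.Helper98.SchurRed

set_option autoImplicit false

/-!
# Central extensions of `SL_4(F)`, `|F| ≠ 2`: lifts of `x_ij`, `x_kl` on four distinct indices
commute (helper98)

Even `q ≥ 4`: the symbol `⁅x_ij(a), x_kl(b)⁆` is invariant under `a ↦ e² a` (torus), hence trivial.
Odd `q`: two ways of conjugating a decomposition `x_ij = ⁅x_il, x_lj⁆ = ⁅x_ik, x_kj⁆` by a lift of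
`x_kl` show that the symbol has order dividing two.
-/

open scoped commutatorElement

namespace Cfsg.Agent.Lib.Helper98.F1Four

open Matrix
open Cfsg.Agent.Lib.Helper98.CExt Cfsg.Agent.Lib.Helper98.StN Cfsg.Agent.Lib.Helper98.Torus
  Cfsg.Agent.Lib.Helper98.SplitN

lemma prod_four {M : Type*} [CommMonoid M] (d : Fin 4 → M) {i j k l : Fin 4} (hij : i ≠ j)
    (hik : i ≠ k) (hil : i ≠ l) (hjk : j ≠ k) (hjl : j ≠ l) (hkl : k ≠ l) :
    ∏ m, d m = d i * d j * d k * d l := by
  have huniv : (Finset.univ : Finset (Fin 4)) = {i, j, k, l} := by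
    symm
    apply Finset.eq_univ_of_card
    rw [Finset.card_insert_of_notMem (by simp [hij, hik, hil]),
      Finset.card_insert_of_notMem (by simp [hjk, hjl]),
      Finset.card_insert_of_notMem (by simp [hkl]), Finset.card_singleton, Fintype.card_fin]
  rw [huniv, Finset.prod_insert (by simp [hij, hik, hil]),
    Finset.prod_insert (by simp [hjk, hjl]), Finset.prod_insert (by simp [hkl]),
    Finset.prod_singleton]
  simp only [mul_assoc]

section

variable {F : Type*} [Field F] {Y : Type*} [Group Y]
  (φ : Y →* Matrix.SpecialLinearGroup (Fin 4) F) (hφ : Function.Surjective φ)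
  (hc : φ.ker ≤ Subgroup.center Y)

include hc in
/-- the torus argument: fields with an element `e ≠ 0`, `e² ≠ 1` -/
lemma kap_eq_one_torus [Finite F] {e : F} (he0 : e ≠ 0) (he1 : e ^ 2 ≠ 1) {i j k l : Fin 4}
    (hij : i ≠ j) (hkl : k ≠ l) (hik : i ≠ k) (hil : i ≠ l) (hjk : j ≠ k) (hjl : j ≠ l)
    (t u : F) :
    kap φ hφ (SpecialLinearGroup.transvection hij t) (SpecialLinearGroup.transvection hkl u) =
      1 := by
  classical
  obtain ⟨d, hd_def⟩ : ∃ d : Fin 4 → F,
      d = fun m => if m = i then e ^ 2 else if m = j then 1 else e⁻¹ := ⟨_, rfl⟩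
  have di : d i = e ^ 2 := by rw [hd_def]; simp
  have dj : d j = 1 := by rw [hd_def]; simp [hij.symm]
  have dk : d k = e⁻¹ := by rw [hd_def]; simp [hik.symm, hjk.symm]
  have dl : d l = e⁻¹ := by rw [hd_def]; simp [hil.symm, hjl.symm]
  have hd : ∏ m, d m = 1 := by
    rw [prod_four d hij hik hil hjk hjl hkl, di, dj, dk, dl]
    field_simp
  have hcomm : ∀ a b : F, SpecialLinearGroup.transvection hij a *
      SpecialLinearGroup.transvection hkl b =
      SpecialLinearGroup.transvection hkl b * SpecialLinearGroup.transvection hij a :=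
    fun a b => tv_comm hij hkl hil hjk a b
  refine principle (fun ν => kap φ hφ (SpecialLinearGroup.transvection hij ν)
    (SpecialLinearGroup.transvection hkl u)) ?_ (e ^ 2) (pow_ne_zero 2 he0) he1 ?_ t
  · intro a b
    show kap φ hφ (SpecialLinearGroup.transvection hij (a + b)) _ = _
    rw [← tv_add hij a b, kap_mul_left φ hc hφ (hcomm b u)]
  · intro ν
    show kap φ hφ (SpecialLinearGroup.transvection hij (e ^ 2 * ν))
      (SpecialLinearGroup.transvection hkl u) =
      kap φ hφ (SpecialLinearGroup.transvection hij ν) (SpecialLinearGroup.transvection hkl u)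
    obtain ⟨y, hy⟩ := hφ (dg d hd)
    have h := conj_kap φ hc hφ y (SpecialLinearGroup.transvection hij ν)
      (SpecialLinearGroup.transvection hkl u)
    rw [hy, dg_conj d hd hij, dg_conj d hd hkl, di, dj, dk, dl] at h
    have e1 : e ^ 2 * (1 : F)⁻¹ * ν = e ^ 2 * ν := by rw [inv_one, mul_one]
    have e2 : e⁻¹ * (e⁻¹)⁻¹ * u = u := by rw [mul_inv_cancel₀ (inv_ne_zero he0), one_mul]
    rw [e1, e2] at h
    rw [← h]
    have hz := kap_comm_all φ hc hφ (hcomm ν u) y
    rw [hz]; group

include hc in
/-- relation (A) -/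
lemma relA {i j k l : Fin 4} (hij : i ≠ j) (hkl : k ≠ l) (hik : i ≠ k) (hil : i ≠ l)
    (hjk : j ≠ k) (hjl : j ≠ l) (a b m : F) :
    kap φ hφ (SpecialLinearGroup.transvection hkl m)
        (SpecialLinearGroup.transvection hij (a * b)) =
      kap φ hφ (SpecialLinearGroup.transvection hil a)
        (SpecialLinearGroup.transvection hjk.symm (m * b)) := by
  have hlj : l ≠ j := hjl.symm
  have hkj : k ≠ j := hjk.symm
  obtain ⟨w, hw⟩ := hφ (SpecialLinearGroup.transvection hkl m)
  have hs : φ (kap φ hφ (SpecialLinearGroup.transvection hil a)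
      (SpecialLinearGroup.transvection hlj b)) = SpecialLinearGroup.transvection hij (a * b) := by
    rw [map_kap, tv_bracket hil hlj hij]
  rw [kap_eq' φ hc hφ hw hs]
  have h := conj_kap φ hc hφ w (SpecialLinearGroup.transvection hil a)
    (SpecialLinearGroup.transvection hlj b)
  rw [hw] at h
  have e1 : SpecialLinearGroup.transvection hkl m * SpecialLinearGroup.transvection hil a *
      (SpecialLinearGroup.transvection hkl m)⁻¹ = SpecialLinearGroup.transvection hil a := by
    rw [tv_comm hkl hil hkl hil.symm m a, mul_inv_cancel_right]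
  have e2 : SpecialLinearGroup.transvection hkl m * SpecialLinearGroup.transvection hlj b *
      (SpecialLinearGroup.transvection hkl m)⁻¹ =
      SpecialLinearGroup.transvection hlj b * SpecialLinearGroup.transvection hkj (m * b) := by
    have h3 := tv_comm3 hkl hlj hkj m b
    rw [← tv_comm hkj hlj hkj hjl (m * b) b, ← h3]
    group
  have hcommD : SpecialLinearGroup.transvection hil a *
      SpecialLinearGroup.transvection hkj (m * b) =
      SpecialLinearGroup.transvection hkj (m * b) * SpecialLinearGroup.transvection hil a :=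
    tv_comm hil hkj hij hkl.symm a (m * b)
  rw [e1, e2, kap_mul_right φ hc hφ hcommD] at h
  rw [commutatorElement_def, h]
  have hz := kap_comm_all φ hc hφ hcommD (kap φ hφ (SpecialLinearGroup.transvection hil a)
    (SpecialLinearGroup.transvection hlj b))
  rw [hz]; group

include hc in
/-- relation (B) -/
lemma relB {i j k l : Fin 4} (hij : i ≠ j) (hkl : k ≠ l) (hik : i ≠ k) (hil : i ≠ l)
    (hjk : j ≠ k) (hjl : j ≠ l) (a b m : F) :
    kap φ hφ (SpecialLinearGroup.transvection hkl m)
        (SpecialLinearGroup.transvection hij (a * b)) =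
      kap φ hφ (SpecialLinearGroup.transvection hil (-(a * m)))
        (SpecialLinearGroup.transvection hjk.symm b) := by
  have hkj : k ≠ j := hjk.symm
  obtain ⟨w, hw⟩ := hφ (SpecialLinearGroup.transvection hkl m)
  have hs : φ (kap φ hφ (SpecialLinearGroup.transvection hik a)
      (SpecialLinearGroup.transvection hkj b)) = SpecialLinearGroup.transvection hij (a * b) := by
    rw [map_kap, tv_bracket hik hkj hij]
  rw [kap_eq' φ hc hφ hw hs]
  have h := conj_kap φ hc hφ w (SpecialLinearGroup.transvection hik a)
    (SpecialLinearGroup.transvection hkj b)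
  rw [hw] at h
  have e2 : SpecialLinearGroup.transvection hkl m * SpecialLinearGroup.transvection hkj b *
      (SpecialLinearGroup.transvection hkl m)⁻¹ = SpecialLinearGroup.transvection hkj b := by
    rw [tv_comm hkl hkj hkj hkl.symm m b, mul_inv_cancel_right]
  have e1 : SpecialLinearGroup.transvection hkl m * SpecialLinearGroup.transvection hik a *
      (SpecialLinearGroup.transvection hkl m)⁻¹ =
      SpecialLinearGroup.transvection hik a * SpecialLinearGroup.transvection hil (-(a * m)) := by
    have h3 := tv_comm3 hik hkl hil a m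
    rw [← tv_comm hil hik hik hil.symm (-(a * m)) a,
      ← SpecialLinearGroup.transvection_inv hil (a * m), ← h3]
    group
  have hcommD : SpecialLinearGroup.transvection hil (-(a * m)) *
      SpecialLinearGroup.transvection hkj b =
      SpecialLinearGroup.transvection hkj b * SpecialLinearGroup.transvection hil (-(a * m)) :=
    tv_comm hil hkj hij hkl.symm _ _
  rw [e1, e2, kap_mul_left φ hc hφ hcommD] at h
  rw [commutatorElement_def, h]
  have hz := kap_comm_all φ hc hφ hcommD (kap φ hφ (SpecialLinearGroup.transvection hik a)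
    (SpecialLinearGroup.transvection hkj b))
  rw [hz]; group

include hc in
/-- odd characteristic: the symbol is trivial -/
lemma kap_eq_one_odd (h2 : (2 : F) ≠ 0) {i j k l : Fin 4} (hij : i ≠ j) (hkl : k ≠ l)
    (hik : i ≠ k) (hil : i ≠ l) (hjk : j ≠ k) (hjl : j ≠ l) (t u : F) :
    kap φ hφ (SpecialLinearGroup.transvection hij t) (SpecialLinearGroup.transvection hkl u) =
      1 := by
  have hkj : k ≠ j := hjk.symm
  have hcommD : ∀ x y : F, SpecialLinearGroup.transvection hil x *
      SpecialLinearGroup.transvection hkj y =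
      SpecialLinearGroup.transvection hkj y * SpecialLinearGroup.transvection hil x :=
    fun x y => tv_comm hil hkj hij hkl.symm x y
  have hadd : ∀ x y : F, kap φ hφ (SpecialLinearGroup.transvection hil (x + y))
      (SpecialLinearGroup.transvection hkj 1) =
      kap φ hφ (SpecialLinearGroup.transvection hil x) (SpecialLinearGroup.transvection hkj 1) *
      kap φ hφ (SpecialLinearGroup.transvection hil y) (SpecialLinearGroup.transvection hkj 1) := by
    intro x y
    rw [← tv_add hil x y, kap_mul_left φ hc hφ (hcommD y 1)]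
  have h0 : kap φ hφ (SpecialLinearGroup.transvection hil 0)
      (SpecialLinearGroup.transvection hkj (1 : F)) = 1 := by
    have h := hadd 0 0
    rw [add_zero] at h
    exact mul_left_cancel (a := kap φ hφ (SpecialLinearGroup.transvection hil 0)
      (SpecialLinearGroup.transvection hkj (1 : F))) (by rw [mul_one]; exact h.symm)
  have hneg : ∀ x : F, kap φ hφ (SpecialLinearGroup.transvection hil (-x))
      (SpecialLinearGroup.transvection hkj 1) =
      (kap φ hφ (SpecialLinearGroup.transvection hil x)
        (SpecialLinearGroup.transvection hkj 1))⁻¹ := by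
    intro x
    have h := hadd x (-x)
    rw [add_neg_cancel, h0] at h
    exact eq_inv_of_mul_eq_one_right h.symm
  have hsq : ∀ x : F, kap φ hφ (SpecialLinearGroup.transvection hil x)
      (SpecialLinearGroup.transvection hkj 1) *
      kap φ hφ (SpecialLinearGroup.transvection hil x)
        (SpecialLinearGroup.transvection hkj 1) = 1 := by
    intro x
    have hA := relA φ hφ hc hij hkl hik hil hjk hjl x 1 1
    have hB := relB φ hφ hc hij hkl hik hil hjk hjl x 1 1
    simp only [mul_one] at hA hB
    have h := hA.symm.trans hB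
    rw [hneg] at h
    exact mul_eq_one_iff_eq_inv.mpr h
  have hD1 : ∀ x : F, kap φ hφ (SpecialLinearGroup.transvection hil x)
      (SpecialLinearGroup.transvection hkj 1) = 1 := by
    intro x
    have hx : x = x / 2 + x / 2 := by field_simp; ring
    rw [hx, hadd, hsq]
  have hB := relB φ hφ hc hij hkl hik hil hjk hjl t 1 u
  simp only [mul_one] at hB
  rw [hD1] at hB
  rw [← kap_inv φ hφ, hB, inv_one]

include hφ hc in
/-- **`F1Hyp` for `SL_4(F)`, `|F| ≠ 2`.** -/
theorem f1_four [Fintype F] (h2 : Fintype.card F ≠ 2) : F1Hyp φ := by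
  intro i j k l hij hkl hik hil hjk hjl t u y₁ y₂ h1 h2'
  refine commute_of_kap φ hc hφ ?_ h1 h2'
  by_cases hchar : (2 : F) = 0
  · have h4 : 4 ≤ Fintype.card F := by
      have h1 : 1 < Fintype.card F := Fintype.one_lt_card
      by_contra hlt
      have h3 : Fintype.card F = 3 := by omega
      have hz : ((Fintype.card F : ℕ) : F) = 0 := Nat.cast_card_eq_zero F
      rw [h3] at hz
      have h3' : (3 : F) = 0 := by exact_mod_cast hz
      have h10 : (1 : F) = 0 := by linear_combination h3' - hchar
      exact one_ne_zero h10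
    obtain ⟨e, he0, he1⟩ := Cfsg.Agent.Lib.Helper98.SchurRed.exists_sq_ne_one h4
    exact kap_eq_one_torus φ hφ hc he0 he1 hij hkl hik hil hjk hjl t u
  · exact kap_eq_one_odd φ hφ hc hchar hij hkl hik hil hjk hjl t u

end

end Cfsg.Agent.Lib.Helper98.F1Four
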