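import Mathlib
import Cfsg.Agent.Lib.Helper98.SL2Gen

/-!
# The exceptional case of Dickson's generation theorem (helper98)

Over a field `F` with nine elements and `lam ^ 2 = -1`, the matrices `!![1, 0; 1, 1]` and
`!![1, lam; 0, 1]` generate a subgroup of order `120` (`card_closure`).  The proof transports an
explicit list of `120` matrices over the model `F₃[i]` (pairs over `ZMod 3`).
Also `card_nine`: if `3 = 0`, `lam ^ 2 = -1` and `lam` generates `F` then `F` has nine elements.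
-/

set_option autoImplicit false
set_option linter.style.haveILetI false
set_option linter.unnecessarySeqFocus false
set_option linter.unreachableTactic false
set_option linter.unusedTactic false
set_option linter.unusedVariables false
set_option linter.unusedSectionVars false

namespace Cfsg.Agent.Lib.Helper98.F9Gen

open Matrix MatrixGroups
open Cfsg.Agent.Lib.Helper98.SL2Sub

/-- elements of the model of the field with nine elements: `(x, y)` stands for `x + y i` -/
abbrev E := ZMod 3 × ZMod 3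
/-- two by two matrices over the model, row by row -/
abbrev M := E × E × E × E

/-- multiplication by `i` -/
def J (e : E) : E := (-e.2, e.1)
/-- left multiplication by `!![1, 0; 1, 1]` -/
def mulL (m : M) : M := (m.1, m.2.1, m.1 + m.2.2.1, m.2.1 + m.2.2.2)
/-- left multiplication by `!![1, i; 0, 1]` -/
def mulU (m : M) : M := (m.1 + J m.2.2.1, m.2.1 + J m.2.2.2, m.2.2.1, m.2.2.2)
/-- left multiplication by `!![1, 0; -1, 1]` -/
def mulLi (m : M) : M := (m.1, m.2.1, m.2.2.1 - m.1, m.2.2.2 - m.2.1)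
/-- left multiplication by `!![1, -i; 0, 1]` -/
def mulUi (m : M) : M := (m.1 - J m.2.2.1, m.2.1 - J m.2.2.2, m.2.2.1, m.2.2.2)

/-- the identity matrix -/
def I9 : M := ((1, 0), (0, 0), (0, 0), (1, 0))

/-- the tail of the list of the 120 elements of the group, in breadth first order -/
def T : List M := [
  ((1, 0), (0, 0), (1, 0), (1, 0)), ((1, 0), (0, 1), (0, 0), (1, 0)), ((1, 0), (0, 0), (2, 0), (1, 0)),
  ((1, 1), (0, 1), (1, 0), (1, 0)), ((1, 0), (0, 1), (1, 0), (1, 1)), ((1, 0), (0, 2), (0, 0), (1, 0)), ((1, 2), (0, 1), (2, 0), (1, 0)),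
  ((1, 1), (0, 1), (2, 1), (1, 1)), ((1, 2), (0, 2), (1, 0), (1, 0)), ((1, 0), (0, 1), (2, 0), (1, 2)), ((1, 1), (2, 2), (1, 0), (1, 1)),
  ((1, 0), (0, 2), (1, 0), (1, 2)), ((1, 2), (0, 1), (0, 2), (1, 1)), ((1, 1), (0, 2), (2, 0), (1, 0)), ((1, 1), (0, 1), (0, 2), (1, 2)),
  ((0, 0), (2, 2), (2, 1), (1, 1)), ((1, 2), (0, 2), (2, 2), (1, 2)), ((1, 2), (1, 2), (2, 0), (1, 2)), ((1, 1), (2, 2), (2, 1), (0, 0)),
  ((1, 2), (1, 0), (1, 0), (1, 1)), ((1, 0), (0, 2), (2, 0), (1, 1)), ((1, 1), (1, 0), (1, 0), (1, 2)), ((1, 2), (0, 1), (1, 1), (1, 2)),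
  ((2, 2), (2, 2), (0, 2), (1, 1)), ((1, 1), (0, 2), (0, 1), (1, 2)), ((2, 1), (1, 2), (0, 2), (1, 2)), ((0, 0), (2, 2), (2, 1), (0, 0)),
  ((2, 2), (1, 0), (2, 1), (1, 1)), ((1, 2), (0, 2), (0, 1), (1, 1)), ((2, 1), (1, 0), (2, 2), (1, 2)), ((1, 2), (1, 2), (0, 2), (2, 1)),
  ((1, 1), (2, 0), (2, 0), (1, 2)), ((1, 1), (2, 2), (0, 2), (2, 2)), ((1, 2), (1, 0), (2, 2), (2, 1)), ((1, 2), (2, 0), (2, 0), (1, 1)),
  ((1, 1), (1, 0), (2, 1), (2, 2)), ((1, 2), (2, 1), (1, 0), (1, 2)), ((0, 0), (1, 2), (1, 1), (1, 2)), ((2, 2), (2, 2), (2, 1), (0, 0)),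
  ((0, 2), (1, 0), (0, 2), (1, 1)), ((1, 1), (0, 2), (1, 2), (1, 1)), ((0, 1), (1, 0), (0, 1), (1, 2)), ((2, 1), (1, 2), (2, 0), (2, 1)),
  ((0, 1), (2, 0), (0, 2), (1, 2)), ((0, 0), (2, 2), (2, 1), (2, 2)), ((2, 2), (1, 0), (1, 0), (2, 1)), ((0, 2), (2, 0), (0, 1), (1, 1)),
  ((2, 1), (1, 0), (1, 0), (2, 2)), ((0, 0), (2, 1), (2, 2), (1, 2)), ((1, 2), (1, 2), (1, 1), (0, 0)), ((2, 2), (0, 1), (0, 2), (2, 1)),
  ((1, 1), (2, 0), (0, 1), (0, 2)), ((2, 1), (0, 1), (0, 2), (2, 2)), ((1, 2), (1, 0), (0, 1), (0, 1)), ((2, 1), (0, 2), (2, 2), (2, 1)),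
  ((1, 2), (2, 0), (0, 2), (0, 1)), ((1, 1), (1, 1), (2, 0), (1, 1)), ((1, 1), (1, 0), (0, 2), (0, 2)), ((1, 2), (2, 1), (2, 2), (0, 0)),
  ((0, 0), (1, 2), (1, 1), (2, 1)), ((2, 1), (2, 0), (1, 1), (1, 2)), ((2, 2), (2, 2), (1, 0), (2, 2)), ((0, 2), (1, 0), (0, 1), (2, 1)),
  ((2, 2), (2, 0), (1, 2), (1, 1)), ((0, 1), (1, 0), (0, 2), (2, 2)), ((2, 1), (2, 1), (0, 1), (1, 2)), ((2, 1), (1, 2), (1, 1), (0, 0)),
  ((2, 0), (0, 1), (2, 0), (2, 1)), ((0, 1), (2, 0), (0, 0), (0, 2)), ((2, 2), (0, 1), (2, 1), (2, 2)), ((2, 2), (1, 0), (0, 2), (0, 1)),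
  ((2, 0), (0, 2), (1, 0), (2, 1)), ((0, 2), (2, 0), (0, 0), (0, 1)), ((2, 2), (1, 1), (0, 1), (1, 1)), ((2, 1), (1, 0), (0, 1), (0, 2)),
  ((0, 0), (2, 1), (2, 2), (0, 0)), ((0, 0), (1, 2), (1, 1), (0, 0)), ((0, 2), (2, 0), (0, 2), (2, 1)), ((1, 1), (2, 0), (1, 2), (2, 2)),
  ((0, 1), (0, 0), (0, 1), (0, 2)), ((2, 1), (0, 1), (2, 0), (2, 0)), ((0, 2), (0, 0), (0, 1), (0, 1)), ((2, 1), (0, 2), (1, 0), (2, 0)),
  ((0, 0), (2, 1), (2, 2), (2, 1)), ((1, 2), (2, 0), (1, 1), (2, 1)), ((1, 1), (1, 1), (0, 1), (2, 2)), ((2, 1), (2, 0), (0, 2), (0, 2)),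
  ((1, 2), (2, 1), (0, 1), (2, 1)), ((2, 1), (2, 1), (2, 2), (0, 0)), ((2, 1), (0, 1), (1, 1), (2, 1)), ((2, 0), (0, 1), (1, 0), (2, 2)),
  ((0, 2), (1, 0), (0, 0), (0, 1)), ((2, 2), (0, 2), (0, 1), (2, 1)), ((2, 2), (2, 0), (0, 1), (0, 1)), ((0, 0), (1, 1), (1, 2), (1, 1)),
  ((0, 1), (1, 0), (0, 0), (0, 2)), ((2, 2), (2, 0), (2, 0), (2, 1)), ((0, 1), (2, 0), (0, 1), (2, 2)), ((0, 1), (0, 0), (0, 0), (0, 2)),
  ((2, 2), (0, 1), (1, 0), (2, 0)), ((0, 2), (0, 0), (0, 2), (0, 1)), ((2, 0), (0, 2), (0, 0), (2, 0)), ((2, 1), (2, 1), (1, 0), (2, 1)),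
  ((2, 2), (1, 1), (2, 0), (2, 2)), ((2, 2), (0, 2), (1, 2), (2, 2)), ((0, 1), (0, 0), (0, 2), (0, 2)), ((2, 0), (0, 0), (2, 0), (2, 0)),
  ((0, 2), (0, 0), (0, 0), (0, 1)), ((2, 1), (0, 2), (0, 1), (2, 2)), ((1, 1), (1, 1), (1, 2), (0, 0)), ((2, 1), (2, 0), (2, 0), (2, 2)),
  ((2, 0), (0, 1), (0, 0), (2, 0)), ((2, 2), (0, 2), (2, 0), (2, 0)), ((0, 0), (1, 1), (1, 2), (2, 2)), ((2, 0), (0, 0), (1, 0), (2, 0)),
  ((2, 0), (0, 2), (2, 0), (2, 2)), ((2, 2), (1, 1), (1, 2), (0, 0)), ((2, 0), (0, 0), (0, 0), (2, 0)), ((0, 0), (1, 1), (1, 2), (0, 0))]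

/-- the 120 elements -/
def S : List M := I9 :: T

lemma S_length : S.length = 120 := by decide

lemma S_nodup : S.Nodup := by decide +kernel

lemma S_closed_aux : S.all (fun m => S.contains (mulL m) && S.contains (mulU m) &&
    S.contains (mulLi m) && S.contains (mulUi m)) = true := by
  decide +kernel

lemma S_closed : ∀ m ∈ S, mulL m ∈ S ∧ mulU m ∈ S ∧ mulLi m ∈ S ∧ mulUi m ∈ S := by
  intro m hm
  have h := List.all_eq_true.1 S_closed_aux m hm
  simp only [Bool.and_eq_true, List.contains_iff_mem] at h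
  exact ⟨h.1.1.1, h.1.1.2, h.1.2, h.2⟩

/-- spanning tree certificate -/
def good : List M → List M → Bool
  | _, [] => true
  | seen, t :: rest => (seen.any fun s => t == mulL s || t == mulU s) && good (t :: seen) rest

lemma T_good : good [I9] T = true := by decide +kernel

lemma good_ind (Q : M → Prop) (hL : ∀ m, Q m → Q (mulL m)) (hU : ∀ m, Q m → Q (mulU m)) :
    ∀ (rest seen : List M), good seen rest = true → (∀ s ∈ seen, Q s) → ∀ t ∈ rest, Q t := by
  intro rest
  induction rest with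
  | nil => intro seen _ _ t ht; simp at ht
  | cons a rest ih =>
    intro seen hg hseen t ht
    simp only [good, Bool.and_eq_true, List.any_eq_true, Bool.or_eq_true, beq_iff_eq] at hg
    obtain ⟨⟨s, hs, hor⟩, hg2⟩ := hg
    have ha : Q a := by
      rcases hor with h | h
      · rw [h]; exact hL s (hseen s hs)
      · rw [h]; exact hU s (hseen s hs)
    rcases List.mem_cons.1 ht with h | h
    · rw [h]; exact ha
    · refine ih (a :: seen) hg2 ?_ t h
      intro s' hs'
      rcases List.mem_cons.1 hs' with h' | h'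
      · rw [h']; exact ha
      · exact hseen s' h'

section transport
variable {F : Type*} [Field F] (lam : F) (c : ZMod 3 →+* F)

/-- evaluation of a model element -/
def ev (e : E) : F := c e.1 + c e.2 * lam

/-- evaluation of a model matrix -/
def evM (m : M) : Matrix (Fin 2) (Fin 2) F :=
  !![ev lam c m.1, ev lam c m.2.1; ev lam c m.2.2.1, ev lam c m.2.2.2]

lemma ev_add (e f : E) : ev lam c (e + f) = ev lam c e + ev lam c f := by
  simp only [ev, Prod.fst_add, Prod.snd_add, map_add]; ring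

lemma ev_sub (e f : E) : ev lam c (e - f) = ev lam c e - ev lam c f := by
  simp only [ev, Prod.fst_sub, Prod.snd_sub, map_sub]; ring

lemma ev_J (hl : lam ^ 2 = -1) (e : E) : ev lam c (J e) = lam * ev lam c e := by
  simp only [ev, J, map_neg]
  linear_combination (-c e.2) * hl

lemma ev_inj (hl : lam ^ 2 = -1) : Function.Injective (ev lam c) := by
  have hc : Function.Injective c := RingHom.injective c
  have key : ∀ x y : ZMod 3, c x + c y * lam = 0 → y = 0 := by
    intro x y h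
    by_contra hy
    have hcy : c y ≠ 0 := fun h0 => hy (hc (h0.trans (map_zero c).symm))
    have hlam : lam = c (-x * y⁻¹) := by
      rw [map_mul, map_neg, map_inv₀]
      field_simp
      linear_combination h
    have h1 : c ((-x * y⁻¹) ^ 2 + 1) = 0 := by
      rw [map_add, map_pow, ← hlam, map_one]
      linear_combination hl
    have h2 : (-x * y⁻¹) ^ 2 + 1 = 0 := hc (h1.trans (map_zero c).symm)
    revert h2
    generalize -x * y⁻¹ = t
    revert t
    decide
  intro e f h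
  have h1 : c (e.1 - f.1) + c (e.2 - f.2) * lam = 0 := by
    simp only [ev] at h
    rw [map_sub, map_sub]
    linear_combination h
  have h2 := key _ _ h1
  rw [h2, map_zero, zero_mul, add_zero] at h1
  have h3 : e.1 - f.1 = 0 := hc (h1.trans (map_zero c).symm)
  exact Prod.ext (sub_eq_zero.1 h3) (sub_eq_zero.1 h2)

lemma evM_inj (hl : lam ^ 2 = -1) : Function.Injective (evM lam c) := by
  intro m m' h
  have h00 := congrFun (congrFun h 0) 0
  have h01 := congrFun (congrFun h 0) 1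
  have h10 := congrFun (congrFun h 1) 0
  have h11 := congrFun (congrFun h 1) 1
  simp only [evM, Matrix.of_apply, Matrix.cons_val', Matrix.cons_val_zero, Matrix.cons_val_one,
    Matrix.cons_val_fin_one] at h00 h01 h10 h11
  exact Prod.ext (ev_inj lam c hl h00) (Prod.ext (ev_inj lam c hl h01)
    (Prod.ext (ev_inj lam c hl h10) (ev_inj lam c hl h11)))

lemma evM_one : evM lam c I9 = 1 := by
  simp [evM, ev, I9, Matrix.one_fin_two]

lemma evM_mulL (m : M) : (l (1 : F)).1 * evM lam c m = evM lam c (mulL m) := by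
  show !![(1 : F), 0; 1, 1] * _ = _
  simp only [evM, mulL, Matrix.mul_fin_two, ev_add]
  congr 1 <;> simp

lemma evM_mulLi (m : M) : (l (-1 : F)).1 * evM lam c m = evM lam c (mulLi m) := by
  show !![(1 : F), 0; -1, 1] * _ = _
  simp only [evM, mulLi, Matrix.mul_fin_two, ev_sub]
  ext i j
  fin_cases i <;> fin_cases j <;> simp <;> ring

lemma evM_mulU (hl : lam ^ 2 = -1) (m : M) :
    (u lam).1 * evM lam c m = evM lam c (mulU m) := by
  show !![(1 : F), lam; 0, 1] * _ = _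
  simp only [evM, mulU, Matrix.mul_fin_two, ev_add, ev_J lam c hl]
  congr 1 <;> simp

lemma evM_mulUi (hl : lam ^ 2 = -1) (m : M) :
    (u (-lam)).1 * evM lam c m = evM lam c (mulUi m) := by
  show !![(1 : F), -lam; 0, 1] * _ = _
  simp only [evM, mulUi, Matrix.mul_fin_two, ev_sub, ev_J lam c hl]
  ext i j
  fin_cases i <;> fin_cases j <;> simp <;> ring

end transport

section count
variable {F : Type*} [Field F] [Fintype F]

lemma three_eq_zero (hF : Fintype.card F = 9) : (3 : F) = 0 := by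
  have h := Nat.cast_card_eq_zero F
  rw [hF] at h
  have h9 : (3 : F) * 3 = 0 := by
    have : ((9 : ℕ) : F) = 3 * 3 := by norm_num
    rw [← this]; exact h
  exact mul_self_eq_zero.1 h9

/-- **The exceptional group has order 120.** -/
theorem card_closure (hF : Fintype.card F = 9) (lam : F) (hl : lam ^ 2 = -1) :
    Nat.card (Subgroup.closure
      {g : SL(2, F) | g.1 = !![1, 0; 1, 1] ∨ g.1 = !![1, lam; 0, 1]}) = 120 := by
  classical
  have h3 : (3 : F) = 0 := three_eq_zero hF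
  haveI : CharP F 3 := (CharP.charP_iff_prime_eq_zero Nat.prime_three).2 (by exact_mod_cast h3)
  let c : ZMod 3 →+* F := ZMod.castHom (dvd_refl 3) F
  set C : Subgroup SL(2, F) :=
    Subgroup.closure {g : SL(2, F) | g.1 = !![1, 0; 1, 1] ∨ g.1 = !![1, lam; 0, 1]} with hC
  have hl1 : l 1 ∈ C := Subgroup.subset_closure (Or.inl rfl)
  have hul : u lam ∈ C := Subgroup.subset_closure (Or.inr rfl)
  let K : Subgroup SL(2, F) :=
    { carrier := {g | (∀ m ∈ S, ∃ m' ∈ S, g.1 * evM lam c m = evM lam c m') ∧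
        (∀ m ∈ S, ∃ m' ∈ S, (g⁻¹).1 * evM lam c m = evM lam c m')}
      mul_mem' := by
        rintro g h ⟨hg1, hg2⟩ ⟨hh1, hh2⟩
        constructor
        · intro m hm
          obtain ⟨m1, hm1, e1⟩ := hh1 m hm
          obtain ⟨m2, hm2, e2⟩ := hg1 m1 hm1
          exact ⟨m2, hm2, by
            rw [Matrix.SpecialLinearGroup.coe_mul, Matrix.mul_assoc, e1, e2]⟩
        · intro m hm
          obtain ⟨m1, hm1, e1⟩ := hg2 m hm
          obtain ⟨m2, hm2, e2⟩ := hh2 m1 hm1
          exact ⟨m2, hm2, by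
            rw [_root_.mul_inv_rev, Matrix.SpecialLinearGroup.coe_mul, Matrix.mul_assoc, e1, e2]⟩
      one_mem' := by
        constructor
        · intro m hm; exact ⟨m, hm, by simp⟩
        · intro m hm; exact ⟨m, hm, by simp⟩
      inv_mem' := by
        rintro g ⟨hg1, hg2⟩
        exact ⟨hg2, by rwa [inv_inv]⟩ }
  have hCK : C ≤ K := by
    rw [hC, Subgroup.closure_le]
    rintro g (hg | hg)
    · have e : g = l 1 := Subtype.ext hg
      subst e
      constructor
      · intro m hm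
        exact ⟨mulL m, (S_closed m hm).1, evM_mulL lam c m⟩
      · intro m hm
        refine ⟨mulLi m, (S_closed m hm).2.2.1, ?_⟩
        rw [l_inv]; exact evM_mulLi lam c m
    · have e : g = u lam := Subtype.ext hg
      subst e
      constructor
      · intro m hm
        exact ⟨mulU m, (S_closed m hm).2.1, evM_mulU lam c hl m⟩
      · intro m hm
        refine ⟨mulUi m, (S_closed m hm).2.2.2, ?_⟩
        rw [u_inv]; exact evM_mulUi lam c hl m
  have hI : I9 ∈ S := List.mem_cons_self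
  have claim1 : ∀ g ∈ C, ∃ m ∈ S, g.1 = evM lam c m := by
    intro g hg
    obtain ⟨m, hm, e⟩ := (hCK hg).1 I9 hI
    rw [evM_one, Matrix.mul_one] at e
    exact ⟨m, hm, e⟩
  have claim2 : ∀ m ∈ S, ∃ g ∈ C, g.1 = evM lam c m := by
    have hQ1 : ∃ g ∈ C, g.1 = evM lam c I9 := ⟨1, C.one_mem, by rw [evM_one]; rfl⟩
    have hT := good_ind (fun m => ∃ g ∈ C, g.1 = evM lam c m)
      (by
        rintro m ⟨g, hg, e⟩
        exact ⟨l 1 * g, C.mul_mem hl1 hg, by
          rw [Matrix.SpecialLinearGroup.coe_mul, e, evM_mulL]⟩)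
      (by
        rintro m ⟨g, hg, e⟩
        exact ⟨u lam * g, C.mul_mem hul hg, by
          rw [Matrix.SpecialLinearGroup.coe_mul, e, evM_mulU lam c hl]⟩)
      T [I9] T_good (by intro s hs; rw [List.mem_singleton] at hs; rw [hs]; exact hQ1)
    intro m hm
    rcases List.mem_cons.1 hm with h | h
    · rw [h]; exact hQ1
    · exact hT m h
  have himg : (fun g : SL(2, F) => g.1) '' (C : Set SL(2, F)) = evM lam c '' {m | m ∈ S} := by
    ext x
    constructor
    · rintro ⟨g, hg, rfl⟩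
      obtain ⟨m, hm, e⟩ := claim1 g hg
      exact ⟨m, hm, e.symm⟩
    · rintro ⟨m, hm, rfl⟩
      obtain ⟨g, hg, e⟩ := claim2 m hm
      exact ⟨g, hg, e⟩
  have h1 : Nat.card C = Set.ncard (C : Set SL(2, F)) := Nat.card_coe_set_eq _
  have h1' : ((fun g : SL(2, F) => g.1) '' (C : Set SL(2, F))).ncard =
      (C : Set SL(2, F)).ncard :=
    Set.ncard_image_of_injective _ Subtype.val_injective
  rw [h1, ← h1', himg, Set.ncard_image_of_injective _ (evM_inj lam c hl)]
  have h2 : {m | m ∈ S} = ((S.toFinset : Finset M) : Set M) := by ext; simp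
  rw [h2, Set.ncard_coe_finset, List.toFinset_card_of_nodup S_nodup, S_length]

/-- if `3 = 0`, `lam ^ 2 = -1` and `lam` generates `F`, then `F` has nine elements -/
theorem card_nine (h3 : (3 : F) = 0) (lam : F) (hl : lam ^ 2 = -1)
    (hgen : Subfield.closure ({lam} : Set F) = ⊤) : Fintype.card F = 9 := by
  classical
  haveI : CharP F 3 := (CharP.charP_iff_prime_eq_zero Nat.prime_three).2 (by exact_mod_cast h3)
  let c : ZMod 3 →+* F := ZMod.castHom (dvd_refl 3) F
  let A : AddSubgroup F :=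
    { carrier := Set.range (ev lam c)
      zero_mem' := ⟨0, by simp [ev]⟩
      add_mem' := by rintro _ _ ⟨e, rfl⟩ ⟨f, rfl⟩; exact ⟨e + f, ev_add lam c e f⟩
      neg_mem' := by rintro _ ⟨e, rfl⟩; exact ⟨0 - e, by rw [ev_sub]; simp [ev]⟩ }
  have hsurj : Function.Surjective (ev lam c) := by
    have hall := SL2Gen.mem_of_closure_quad c.fieldRange lam (-1) 0
      (c.fieldRange.neg_mem c.fieldRange.one_mem) c.fieldRange.zero_mem (by rw [hl]; ring) A
      (by
        rintro a ⟨t, rfl⟩ _ ⟨e, rfl⟩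
        exact ⟨(t * e.1, t * e.2), by simp only [ev, map_mul]; ring⟩)
      ⟨(1, 0), by simp [ev]⟩ ⟨(0, 1), by simp [ev]⟩
    intro z
    have hmono : Subfield.closure ({lam} : Set F) ≤
        Subfield.closure ((c.fieldRange : Set F) ∪ {lam}) :=
      Subfield.closure_mono Set.subset_union_right
    rw [hgen] at hmono
    exact hall z (hmono (Subfield.mem_top z))
  have hbij : Function.Bijective (ev lam c) := ⟨ev_inj lam c hl, hsurj⟩
  rw [← Fintype.card_of_bijective hbij]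
  simp [ZMod.card]

end count

end Cfsg.Agent.Lib.Helper98.F9Gen
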