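import Mathlib
import Cfsg.Agent.Lib.Helper40.GFStmt
import Cfsg.Agent.Lib.Helper40.KStr

set_option autoImplicit false

/-! S5886 piece DUALREP (second seat): every `F`-functional on `L ^ k` is `τ ∘ φ` for an
`L`-functional `φ`. -/

namespace Cfsg.Agent.Lib.Helper98.GFDUALREP

universe u

open Cfsg.Agent.Lib.Helper40.GFStmt

theorem main : DualRep.{u} := by
  intro F L _ _ _ _ k τ hτ χ
  classical
  have hc : ∀ j : Fin k, ∃ c : L, ∀ a : L, χ (Pi.single j a) = τ (a * c) := by
    intro j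
    obtain ⟨c, hc⟩ := Cfsg.Agent.Lib.Helper40.KStr.exists_rep τ hτ
      (χ ∘ₗ LinearMap.single F (fun _ : Fin k => L) j)
    exact ⟨c, fun a => hc a⟩
  choose c hc using hc
  refine ⟨∑ j, c j • (LinearMap.proj j : V k L →ₗ[L] L), fun x => ?_⟩
  have h1 : (∑ j, c j • (LinearMap.proj j : V k L →ₗ[L] L)) x = ∑ j, x j * c j := by
    rw [LinearMap.sum_apply]
    refine Finset.sum_congr rfl fun j _ => ?_
    rw [LinearMap.smul_apply, LinearMap.proj_apply, smul_eq_mul, mul_comm]
  rw [h1, map_sum]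
  have h2 : χ x = ∑ j, χ (Pi.single j (x j)) := by
    rw [← map_sum, Finset.univ_sum_single]
  rw [h2]
  exact Finset.sum_congr rfl fun j _ => hc j (x j)

end Cfsg.Agent.Lib.Helper98.GFDUALREP
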