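import Mathlib
import Cfsg.Agent.Lib.Helper40.GFStmt
import Cfsg.Agent.Lib.Helper40.KStr

set_option autoImplicit false

/-! S5886 piece R2SPECIAL (second seat): `[L : F] = 2`, `E(ν) ∈ c.M` with `ν` not a
multiplication gives a special transvection. -/

namespace Cfsg.Agent.Lib.Helper98.GFR2SPECIAL

universe u

open Cfsg.Agent.Lib.Helper40.GFStmt

theorem main : R2Special.{u} := by
  intro F L _ _ _ _ k c h2 τ hτ v ψ ν hv hψ0 hψv hν hsig
  classical
  obtain ⟨ν', hν'⟩ : ∃ ν' : L →ₗ[F] L, ν' = ν - LinearMap.mulLeft F (ν 1) := ⟨_, rfl⟩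
  have hsig' : InSig c v ψ ν' := by
    rw [hν']
    exact inSig_sub c v ψ hψv hsig (inSig_mulLeft c v ψ hψv (ν 1))
  have h1 : ν' 1 = 0 := by
    rw [hν', LinearMap.sub_apply, LinearMap.mulLeft_apply, mul_one, sub_self]
  have hne : ν' ≠ 0 := by
    intro h0
    apply hν (ν 1)
    rw [hν'] at h0
    exact sub_eq_zero.mp h0
  obtain ⟨x₁, hx₁⟩ : ∃ x₁, ν' x₁ ≠ 0 := by
    by_contra hcon
    push_neg at hcon
    exact hne (LinearMap.ext fun x => by rw [hcon x]; rfl)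
  obtain ⟨z', hz'⟩ : ∃ z', z' = ν' x₁ := ⟨_, rfl⟩
  have hz'0 : z' ≠ 0 := by rw [hz']; exact hx₁
  have hker : 1 ≤ Module.finrank F ↥(LinearMap.ker ν') := by
    by_contra hcon
    have h0 : Module.finrank F ↥(LinearMap.ker ν') = 0 := by omega
    rw [Submodule.finrank_eq_zero] at h0
    have h1' : (1 : L) ∈ LinearMap.ker ν' := LinearMap.mem_ker.mpr h1
    rw [h0, Submodule.mem_bot] at h1'
    exact one_ne_zero h1'
  have hrn := LinearMap.finrank_range_add_finrank_ker ν'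
  have hspan : Submodule.span F {z'} = LinearMap.range ν' := by
    apply Submodule.eq_of_le_of_finrank_le
    · rw [Submodule.span_singleton_le_iff_mem, hz']
      exact LinearMap.mem_range_self ν' x₁
    · rw [finrank_span_singleton hz'0]
      omega
  have hrep : ∀ x : L, ∃ s : F, s • z' = ν' x := by
    intro x
    have hx : ν' x ∈ Submodule.span F {z'} := by
      rw [hspan]
      exact LinearMap.mem_range_self ν' x
    exact Submodule.mem_span_singleton.mp hx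
  obtain ⟨y₀, hy₀⟩ : ∃ y₀, τ y₀ ≠ 0 := by
    by_contra hcon
    push_neg at hcon
    exact hτ (LinearMap.ext fun x => by rw [hcon x]; rfl)
  obtain ⟨b', hb'⟩ : ∃ b' : L →ₗ[F] F, ∀ x, b' x = (τ y₀)⁻¹ * τ (ν' x * (y₀ * z'⁻¹)) :=
    ⟨(τ y₀)⁻¹ • (τ ∘ₗ LinearMap.mulRight F (y₀ * z'⁻¹) ∘ₗ ν'), fun x => rfl⟩
  have hb'z : ∀ x, ν' x = b' x • z' := by
    intro x
    obtain ⟨s, hs⟩ := hrep x
    rw [hb', ← hs]
    have h3 : s • z' * (y₀ * z'⁻¹) = s • y₀ := by
      rw [smul_mul_assoc, mul_comm y₀, ← mul_assoc, mul_inv_cancel₀ hz'0, one_mul]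
    rw [h3, map_smul, smul_eq_mul, mul_comm s, ← mul_assoc, inv_mul_cancel₀ hy₀, one_mul]
  obtain ⟨cb, hcb⟩ := Cfsg.Agent.Lib.Helper40.KStr.exists_rep τ hτ b'
  have hb'x₁ : b' x₁ ≠ 0 := by
    intro h0
    apply hx₁
    rw [hb'z x₁, h0, zero_smul]
  have hcb0 : cb ≠ 0 := by
    intro h0
    apply hb'x₁
    rw [hcb, h0, mul_zero, map_zero]
  obtain ⟨e, he, hex⟩ := hsig'
  unfold HasSpecial
  refine ⟨e, he, z' • v, cb • ψ, smul_ne_zero hz'0 hv, smul_ne_zero hcb0 hψ0, ?_, ?_⟩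
  · rw [LinearMap.smul_apply, map_smul, hψv, smul_zero, smul_zero]
  · intro x
    rw [hex x, hb'z (ψ x), hcb, LinearMap.smul_apply, smul_eq_mul, mul_comm cb, smul_assoc]

end Cfsg.Agent.Lib.Helper98.GFR2SPECIAL
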