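import Mathlib
import Cfsg.Agent.Lib.Helper45.MAutStmt

/-!
# S0818, piece SS: two semisimilarities with the same field automorphism differ by a similarity
-/

set_option autoImplicit false

namespace Cfsg.Agent.Lib.Helper98.MAutSS

open Matrix
open Cfsg.Agent.Lib.Helper45.OmegaAut
open Cfsg.Agent.Lib.Helper44.MFld0 Cfsg.Agent.Lib.Helper44.MFldStmt
open Cfsg.Agent.Lib.Helper45.MAutStmt

universe u

theorem main : SemiSame.{u} := by
  intro F _ ι _ _ Q g g' σ h h'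
  have hs : g * g'⁻¹ ∈ Cfsg.Geo.quadSimilarityGroup (F := F) Q := by
    obtain ⟨c, hc⟩ := h
    obtain ⟨c', hc'⟩ := h'
    refine ⟨c * c'⁻¹, fun v => ?_⟩
    obtain ⟨w, hw⟩ : ∃ w : ι → F,
        w = fun k => σ.symm ((((g'⁻¹ : GL ι F) : Matrix ι ι F) *ᵥ v) k) := ⟨_, rfl⟩
    have hσw : (fun k => σ (w k)) = ((g'⁻¹ : GL ι F) : Matrix ι ι F) *ᵥ v := by
      rw [hw]
      funext k
      simp
    have hv : (g' : Matrix ι ι F) *ᵥ (fun k => σ (w k)) = v := by
      rw [hσw, Matrix.mulVec_mulVec, ← Units.val_mul, mul_inv_cancel, Units.val_one,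
        Matrix.one_mulVec]
    have e1 : ((g * g'⁻¹ : GL ι F) : Matrix ι ι F) *ᵥ v =
        (g : Matrix ι ι F) *ᵥ (fun k => σ (w k)) := by
      rw [Units.val_mul, ← Matrix.mulVec_mulVec, hσw]
    have e2 := hc w
    have e3 := hc' w
    rw [hv] at e3
    rw [e1, e2, e3, Units.val_mul, Units.val_inv_eq_inv_val]
    have hc0 : (c' : F) ≠ 0 := c'.ne_zero
    field_simp
  refine ⟨⟨g * g'⁻¹, hs⟩, ?_⟩
  rw [eq_mul_inv_iff_mul_eq]
  apply MulEquiv.ext
  intro x
  induction x using QuotientGroup.induction_on with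
  | H x =>
    rw [MulAut.mul_apply, semiP_mk, semiP_mk, Phi_mk]
    congr 1
    apply Subtype.ext
    apply Subtype.ext
    rw [cjΩ_coe, semiOm_coe, semiOm_coe]
    show g * g'⁻¹ * (g' * Matrix.GeneralLinearGroup.map (σ : F →+* F)
      ((x : ↥(Cfsg.isometryGroup F Q)) : GL ι F) * g'⁻¹) * (g * g'⁻¹)⁻¹ = _
    group

end Cfsg.Agent.Lib.Helper98.MAutSS
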