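import Mathlib

/-!
# S4306 helpers: a nilpotency criterion for groups of Fitting height two
-/

set_option autoImplicit false

namespace Cfsg.Agent.Lib.Helper98.PQNil

theorem nil_iff_sylow (G : Type*) [Group G] [Finite G] :
    Group.IsNilpotent G ↔
      ∀ (p : ℕ) (_ : Fact p.Prime) (P : Sylow p G), (P : Subgroup G).Normal :=
  (Group.isNilpotent_of_finite_tfae (G := G)).out 0 3

/-- A subgroup containing the elements of prime power order of `N` contains `N`. -/
theorem mem_of_prime_pow {G : Type*} [Group G] (N M : Subgroup G)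
    (h : ∀ t : ℕ, t.Prime → ∀ k : ℕ, ∀ x ∈ N, x ^ (t ^ k) = 1 → x ∈ M) :
    ∀ n : ℕ, n ≠ 0 → ∀ x ∈ N, x ^ n = 1 → x ∈ M := by
  intro n
  refine Nat.recOnPosPrimePosCoprime
    (motive := fun n => n ≠ 0 → ∀ x ∈ N, x ^ n = 1 → x ∈ M) ?_ ?_ ?_ ?_ n
  · intro t k ht _ _ x hx hxn
    exact h t ht k x hx hxn
  · intro h0
    exact absurd rfl h0
  · intro _ x _ hx
    rw [pow_one] at hx
    rw [hx]
    exact M.one_mem
  · intro a b ha hb hab iha ihb _ x hx hxn
    have h1 : x ^ a ∈ M := ihb (by omega) (x ^ a) (N.pow_mem hx a) (by rw [← pow_mul]; exact hxn)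
    have h2 : x ^ b ∈ M :=
      iha (by omega) (x ^ b) (N.pow_mem hx b) (by rw [← pow_mul, mul_comm]; exact hxn)
    have h3 := Int.gcd_eq_gcd_ab (a : ℤ) (b : ℤ)
    have h4 : Int.gcd (a : ℤ) (b : ℤ) = 1 := by
      rw [Int.gcd_natCast_natCast]; exact hab
    rw [h4, Nat.cast_one] at h3
    have h5 : x = (x ^ a) ^ (Int.gcdA a b) * (x ^ b) ^ (Int.gcdB a b) := by
      rw [← zpow_natCast, ← zpow_natCast, ← zpow_mul, ← zpow_mul, ← zpow_add, ← h3, zpow_one]
    rw [h5]
    exact M.mul_mem (M.zpow_mem h1 _) (M.zpow_mem h2 _)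

/-- The `t`-elements of a nilpotent normal subgroup lie in every Sylow `t`-subgroup. -/
theorem mem_sylow_of_nilpotent_normal {G : Type*} [Group G] [Finite G] (N : Subgroup G)
    [hNn : N.Normal] (hN : Group.IsNilpotent ↥N) (t : ℕ) [Fact t.Prime] (P : Sylow t G) (g : G)
    (hg : g ∈ N) (k : ℕ) (hgk : g ^ (t ^ k) = 1) : g ∈ (P : Subgroup G) := by
  let Q : Sylow t ↥N := default
  have hQn : (Q : Subgroup ↥N).Normal :=
    (nil_iff_sylow ↥N).mp hN t inferInstance Q
  have := hQn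
  have claimA : ∀ x : ↥N, ∀ k : ℕ, x ^ (t ^ k) = 1 → x ∈ (Q : Subgroup ↥N) := by
    intro x k hk
    have hz : IsPGroup t ↥(Subgroup.zpowers x) := by
      rintro ⟨y, hy⟩
      obtain ⟨j, rfl⟩ := Subgroup.mem_zpowers_iff.mp hy
      refine ⟨k, Subtype.ext ?_⟩
      show (x ^ j) ^ (t ^ k) = 1
      rw [← zpow_natCast, ← zpow_mul, mul_comm, zpow_mul, zpow_natCast, hk, one_zpow]
    have h1 := IsPGroup.to_sup_of_normal_right hz Q.isPGroup'
    have h2 := Q.is_maximal' h1 le_sup_right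
    have h3 : x ∈ Subgroup.zpowers x ⊔ (Q : Subgroup ↥N) :=
      (le_sup_left : Subgroup.zpowers x ≤ _) (Subgroup.mem_zpowers x)
    rwa [h2] at h3
  let Q' : Subgroup G := (Q : Subgroup ↥N).map N.subtype
  have hQ' : IsPGroup t ↥Q' := Q.isPGroup'.map N.subtype
  have hQ'n : Q'.Normal := by
    constructor
    intro y hy h
    obtain ⟨k', hk'⟩ := hQ' ⟨y, hy⟩
    have hk'' : y ^ (t ^ k') = 1 := by
      have := congrArg Subtype.val hk'
      rwa [Subgroup.coe_pow, Subgroup.coe_one] at this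
    obtain ⟨x, _, rfl⟩ := hy
    let x' : ↥N := ⟨h * (x : G) * h⁻¹, hNn.conj_mem _ x.2 h⟩
    have hx' : x' ^ (t ^ k') = 1 := by
      apply Subtype.ext
      rw [Subgroup.coe_pow, Subgroup.coe_one]
      show (h * (x : G) * h⁻¹) ^ (t ^ k') = 1
      have e : N.subtype x = (x : G) := rfl
      rw [conj_pow, ← e, hk'']
      group
    exact ⟨x', claimA x' k' hx', rfl⟩
  have := hQ'n
  have h1 := IsPGroup.to_sup_of_normal_left hQ' P.isPGroup'
  have h2 := P.is_maximal' h1 le_sup_right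
  have h3 : Q' ≤ (P : Subgroup G) := le_sup_left.trans h2.le
  apply h3
  refine ⟨⟨g, hg⟩, claimA ⟨g, hg⟩ k ?_, rfl⟩
  apply Subtype.ext
  rw [Subgroup.coe_pow, Subgroup.coe_one]
  exact hgk

/-- If `G / N` is nilpotent then conjugates of a Sylow subgroup `P` stay in `P N`. -/
theorem conj_mem_mul_of_quot_nilpotent {G : Type*} [Group G] [Finite G] (N : Subgroup G)
    [N.Normal] (hGN : Group.IsNilpotent (G ⧸ N)) (s : ℕ) [Fact s.Prime] (P : Sylow s G)
    (h x : G) (hx : x ∈ (P : Subgroup G)) :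
    ∃ y ∈ (P : Subgroup G), y⁻¹ * (h * x * h⁻¹) ∈ N := by
  have hπ : Function.Surjective (QuotientGroup.mk' N) := QuotientGroup.mk'_surjective N
  let Pb : Sylow s (G ⧸ N) := P.mapSurjective hπ
  have hPb : (Pb : Subgroup (G ⧸ N)).Normal :=
    (nil_iff_sylow (G ⧸ N)).mp hGN s inferInstance Pb
  have h1 : QuotientGroup.mk' N x ∈ (Pb : Subgroup (G ⧸ N)) := by
    rw [Sylow.coe_mapSurjective]
    exact ⟨x, hx, rfl⟩
  have h2 := hPb.conj_mem _ h1 (QuotientGroup.mk' N h)
  rw [Sylow.coe_mapSurjective] at h2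
  obtain ⟨y, hy, hyx⟩ := h2
  refine ⟨y, hy, ?_⟩
  apply QuotientGroup.eq.mp
  have h3 : (QuotientGroup.mk' N) y = (QuotientGroup.mk' N) (h * x * h⁻¹) := by
    rw [hyx, map_mul, map_mul, map_inv]
  exact h3

/-- Nilpotency criterion: `N` nilpotent normal with nilpotent quotient, and for every prime `s`
some Sylow `s`-subgroup centralizes the `t`-elements of `N` for all primes `t ≠ s`. -/
theorem nilpotent_of_sylow_comm {G : Type*} [Group G] [Finite G] (N : Subgroup G) [N.Normal]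
    (hN : Group.IsNilpotent ↥N) (hGN : Group.IsNilpotent (G ⧸ N))
    (hs : ∀ (s : ℕ) [Fact s.Prime], ∃ P : Sylow s G, ∀ t : ℕ, t.Prime → t ≠ s → ∀ g ∈ N,
      ∀ k : ℕ, g ^ (t ^ k) = 1 → ∀ x ∈ (P : Subgroup G), g * x = x * g) :
    Group.IsNilpotent G := by
  apply (nil_iff_sylow G).mpr
  intro s hsF P'
  have := hsF
  obtain ⟨P, hP⟩ := hs s
  have hNP : N ≤ Subgroup.normalizer ((P : Subgroup G) : Set G) := by
    intro f hf
    have hfin : f ^ Nat.card G = 1 := pow_card_eq_one'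
    refine mem_of_prime_pow N _ ?_ (Nat.card G) Nat.card_pos.ne' f hf hfin
    intro t ht k x hx hxk
    by_cases hts : t = s
    · subst hts
      exact Subgroup.le_normalizer (mem_sylow_of_nilpotent_normal N hN t P x hx k hxk)
    · rw [Subgroup.mem_normalizer_iff]
      intro y
      constructor
      · intro hy
        have h0 := hP t ht hts x hx k hxk y hy
        have h1 : x * y * x⁻¹ = y := by rw [h0]; group
        rw [h1]; exact hy
      · intro hy
        have h0 := hP t ht hts x hx k hxk _ hy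
        have h1 : x * y * x⁻¹ = y := by
          have h2 : x * (x * y * x⁻¹) = x * y := by rw [h0]; group
          exact mul_left_cancel h2
        rw [← h1]; exact hy
  have hPn : (P : Subgroup G).Normal := by
    constructor
    intro x hx h
    let c : G →* G := (MulAut.conj h).toMonoidHom
    let Q : Subgroup G := (P : Subgroup G).map c
    have hQ : IsPGroup s ↥Q := P.isPGroup'.map c
    have hQn : Q ≤ Subgroup.normalizer ((P : Subgroup G) : Set G) := by
      rintro _ ⟨x', hx', rfl⟩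
      obtain ⟨y, hy, hyn⟩ := conj_mem_mul_of_quot_nilpotent N hGN s P h x' hx'
      have h1 : c x' = y * (y⁻¹ * (h * x' * h⁻¹)) := by
        show h * x' * h⁻¹ = _
        group
      rw [h1]
      exact Subgroup.mul_mem _ (Subgroup.le_normalizer hy) (hNP hyn)
    have h2 := IsPGroup.to_sup_of_normal_right' hQ P.isPGroup' hQn
    have h3 := P.is_maximal' h2 le_sup_right
    have h4 : Q ≤ (P : Subgroup G) := le_sup_left.trans h3.le
    exact h4 ⟨x, hx, rfl⟩
  obtain ⟨g, hg⟩ := MulAction.exists_smul_eq G P P'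
  have := hPn
  rw [Sylow.smul_eq_of_normal] at hg
  rw [← hg]
  exact hPn

/-- Fitting height at most two passes to quotients. -/
theorem meta_of_surjective {G₁ G₂ : Type*} [Group G₁] [Group G₂] (ψ : G₁ →* G₂)
    (hψ : Function.Surjective ψ) (M : Subgroup G₁) [hMn : M.Normal]
    (hM : Group.IsNilpotent ↥M) (hQ : Group.IsNilpotent (G₁ ⧸ M)) :
    ∃ F : Subgroup G₂, ∃ _ : F.Normal, Group.IsNilpotent ↥F ∧ Group.IsNilpotent (G₂ ⧸ F) := by
  have hFn : (M.map ψ).Normal := hMn.map ψ hψ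
  refine ⟨M.map ψ, hFn, ?_, ?_⟩
  · exact Group.nilpotent_of_surjective (ψ.subgroupMap M) (ψ.subgroupMap_surjective M)
  · have hle : M ≤ (M.map ψ).comap ψ := Subgroup.le_comap_map ψ M
    let f : G₁ ⧸ M →* G₂ ⧸ M.map ψ := QuotientGroup.map M (M.map ψ) ψ hle
    apply Group.nilpotent_of_surjective f
    intro y
    induction y using QuotientGroup.induction_on with
    | H y =>
      obtain ⟨x, rfl⟩ := hψ y
      exact ⟨QuotientGroup.mk x, rfl⟩

end Cfsg.Agent.Lib.Helper98.PQNil
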