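import Mathlib
import Cfsg.Agent.Lib.Helper98.PSpStmt

/-!
S3421, piece CAB: if the centraliser of the involution of a cyclic subgroup of order `m₁` is
abelian then `m₁ = 2`.
-/

set_option autoImplicit false

namespace Cfsg.Agent.Lib.Helper98.PSpCAB

open Cfsg.Agent.Lib.Helper98.PSpStmt

universe u

theorem main (h1 : Cent1.{u}) (hc : Card1.{u}) (hct : CT.{u}) (hf : FrobCount.{u})
    (hv : CycInv.{u}) : CAB.{u} := by
  intro G _ p q m₁ m₂ h x hx habel
  haveI := h.fin
  have hm1 := h.m1_ge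
  have hcardC := hct G p q m₁ m₂ h x hx
  obtain ⟨e, he⟩ := h.m1even
  have hxt : x * x ^ (m₁ / 2) = x ^ (m₁ / 2) * x := (pow_mul_comm' x (m₁ / 2)).symm
  have ht2 : (x ^ (m₁ / 2)) ^ 2 = 1 := by
    rw [← pow_mul, show m₁ / 2 * 2 = m₁ by omega, ← hx, pow_orderOf_eq_one]
  have ht1 : x ^ (m₁ / 2) ≠ 1 := by
    intro h0
    have h3 : orderOf x ∣ m₁ / 2 := orderOf_dvd_of_pow_eq_one h0
    rw [hx] at h3
    have h4 := Nat.le_of_dvd (by omega) h3
    omega
  obtain ⟨t, ht⟩ : ∃ t : G, t = x ^ (m₁ / 2) := ⟨_, rfl⟩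
  rw [← ht] at habel hcardC hxt ht2 ht1
  obtain ⟨C, hC⟩ : ∃ C : Subgroup G, C = Subgroup.centralizer ({t} : Set G) := ⟨_, rfl⟩
  rw [← hC] at habel hcardC
  have hmemC : ∀ c : G, c ∈ C ↔ c * t = t * c := by
    intro c
    rw [hC, Subgroup.mem_centralizer_singleton_iff]
  have htC : t ∈ C := (hmemC t).2 rfl
  have hxC : x ∈ C := (hmemC x).2 hxt
  have htm : t ^ m₁ = 1 := by
    rw [show m₁ = 2 * e by omega, pow_mul, ht2, one_pow]
  have hexpC : ∀ c ∈ C, c ^ m₁ = 1 := by
    intro c hcC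
    exact h1 G p q m₁ m₂ h t c ht1 htm ((hmemC c).1 hcC)
  -- centralisers of non-identity elements of `C`
  have hcent : ∀ c ∈ C, c ≠ 1 → ∀ g : G, Commute g c → g ∈ C := by
    intro c hcC hc1 g hg
    have hcm : c ^ m₁ = 1 := hexpC c hcC
    have hKexp : ∀ k ∈ Subgroup.centralizer ({c} : Set G), k ^ m₁ = 1 := by
      intro k hk
      rw [Subgroup.mem_centralizer_singleton_iff] at hk
      exact h1 G p q m₁ m₂ h c k hc1 hcm hk
    have hKd : Nat.card (Subgroup.centralizer ({c} : Set G)) ∣ 2 * m₁ :=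
      hc G p q m₁ m₂ h _ hKexp
    have hCK : C ≤ Subgroup.centralizer ({c} : Set G) := by
      intro a ha
      rw [Subgroup.mem_centralizer_singleton_iff]
      exact habel a ha c hcC
    have hKC : C = Subgroup.centralizer ({c} : Set G) := by
      apply Subgroup.eq_of_le_of_card_ge hCK
      rw [hcardC]
      exact Nat.le_of_dvd (by omega) hKd
    rw [hKC, Subgroup.mem_centralizer_singleton_iff]
    exact hg
  -- index and coprimality
  have hidx : C.index = q * m₂ := by
    have h3 := Subgroup.card_mul_index C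
    rw [hcardC, h.card] at h3
    have h4 : (2 * m₁) * C.index = (2 * m₁) * (q * m₂) := by rw [h3]; ring
    exact Nat.eq_of_mul_eq_mul_left (by omega) h4
  have hcop : (Nat.card C).Coprime C.index := by
    rw [hcardC, hidx]
    have hq2 : Nat.Coprime 2 q := Nat.coprime_two_left.2 h.q_odd
    have hm2 : Nat.Coprime 2 m₂ := Nat.coprime_two_left.2 h.m2odd
    exact Nat.Coprime.mul_left (Nat.Coprime.mul_right hq2 hm2)
      (Nat.Coprime.mul_right h.coprime_q1.symm h.coprime12)
  have hN := hf G C hcop habel hcent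
  rw [hcardC] at hN
  obtain ⟨N, hNdef⟩ : ∃ N : Subgroup G, N = Subgroup.normalizer (C : Set G) := ⟨_, rfl⟩
  rw [← hNdef] at hN
  have hCN : C ≤ N := by
    rw [hNdef]
    exact Subgroup.le_normalizer
  have hcC' : Nat.card (C.subgroupOf N) = 2 * m₁ := by
    rw [Nat.card_congr (Subgroup.subgroupOfEquivOfLe hCN).toEquiv, hcardC]
  have hw : (C.subgroupOf N).index * N.index = q * m₂ := by
    have h3 := Subgroup.card_mul_index (C.subgroupOf N)
    have h4 := Subgroup.card_mul_index N
    rw [hcC'] at h3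
    rw [← h3, h.card] at h4
    have h5 : (2 * m₁) * ((C.subgroupOf N).index * N.index) = (2 * m₁) * (q * m₂) := by
      rw [← mul_assoc, h4]
      ring
    exact Nat.eq_of_mul_eq_mul_left (by omega) h5
  -- the involutions of `C`
  have hB2 : ((Subgroup.zpowers x).subgroupOf C).index = 2 := by
    have hle : Subgroup.zpowers x ≤ C := by
      rw [Subgroup.zpowers_le]
      exact hxC
    have hcB : Nat.card ((Subgroup.zpowers x).subgroupOf C) = m₁ := by
      rw [Nat.card_congr (Subgroup.subgroupOfEquivOfLe hle).toEquiv, Nat.card_zpowers, hx]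
    have h3 := Subgroup.card_mul_index ((Subgroup.zpowers x).subgroupOf C)
    rw [hcB, hcardC] at h3
    have h4 : m₁ * ((Subgroup.zpowers x).subgroupOf C).index = m₁ * 2 := by rw [h3]; ring
    exact Nat.eq_of_mul_eq_mul_left (by omega) h4
  have hinvB : ∀ u : G, u ∈ Subgroup.zpowers x → u ^ 2 = 1 → u ≠ 1 → u = t := by
    intro u hu hu2 hu1
    rw [ht]
    exact hv G x u m₁ (by omega) h.m1even hx hu hu2 hu1
  obtain ⟨S, hS3, hS⟩ : ∃ S : Finset G, S.card ≤ 3 ∧
      ∀ u ∈ C, u ^ 2 = 1 → u ≠ 1 → u ∈ S := by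
    classical
    by_cases hex : ∃ u₀ ∈ C, u₀ ^ 2 = 1 ∧ u₀ ≠ 1 ∧ u₀ ≠ t
    · obtain ⟨u₀, hu₀C, hu₀2, hu₀1, hu₀t⟩ := hex
      refine ⟨{t, u₀, u₀ * t}, Finset.card_le_three, ?_⟩
      intro u huC hu2 hu1
      by_cases hut : u = t
      · simp [hut]
      · have hu_nB : u ∉ Subgroup.zpowers x := fun hB => hut (hinvB u hB hu2 hu1)
        have hu₀_nB : u₀ ∉ Subgroup.zpowers x := fun hB => hu₀t (hinvB u₀ hB hu₀2 hu₀1)
        have hprod : u₀ * u ∈ Subgroup.zpowers x := by
          have h3 := (Subgroup.mul_mem_iff_of_index_two hB2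
            (a := (⟨u₀, hu₀C⟩ : ↥C)) (b := (⟨u, huC⟩ : ↥C))).2
            ⟨fun ha => absurd (Subgroup.mem_subgroupOf.1 ha) hu₀_nB,
              fun hb => absurd (Subgroup.mem_subgroupOf.1 hb) hu_nB⟩
          exact Subgroup.mem_subgroupOf.1 h3
        have hprod2 : (u₀ * u) ^ 2 = 1 := by
          rw [pow_two]
          calc u₀ * u * (u₀ * u) = u₀ * (u * u₀) * u := by group
            _ = u₀ * (u₀ * u) * u := by rw [habel u huC u₀ hu₀C]
            _ = u₀ ^ 2 * u ^ 2 := by rw [pow_two, pow_two]; group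
            _ = 1 := by rw [hu₀2, hu2, one_mul]
        by_cases hp1 : u₀ * u = 1
        · have h6 : u = u₀ := by
            have h7 : u₀ * u = u₀ * u₀ := by rw [hp1, ← pow_two, hu₀2]
            exact mul_left_cancel h7
          simp [h6]
        · have h7 := hinvB (u₀ * u) hprod hprod2 hp1
          have h6 : u = u₀ * t := by
            have h8 : u₀ * u = u₀ * (u₀ * t) := by
              rw [← mul_assoc, ← pow_two, hu₀2, one_mul]
              exact h7
            exact mul_left_cancel h8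
          simp [h6]
    · refine ⟨{t}, by simp, ?_⟩
      intro u huC hu2 hu1
      by_contra hne
      exact hex ⟨u, huC, hu2, hu1, by simpa using hne⟩
  have hfib : ∀ g : ↥N, (g : G) * t * (g : G)⁻¹ ∈ S := by
    intro g
    apply hS
    · have hsub : ∀ z : G, z ∈ N → z ∈ Subgroup.normalizer (C : Set G) :=
        fun z hz => hNdef ▸ hz
      have hg := hsub _ g.2
      rw [Subgroup.mem_normalizer_iff] at hg
      exact (hg t).1 htC
    · rw [pow_two]
      calc (g : G) * t * (g : G)⁻¹ * ((g : G) * t * (g : G)⁻¹)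
          = (g : G) * t ^ 2 * (g : G)⁻¹ := by rw [pow_two]; group
        _ = 1 := by rw [ht2]; group
    · intro h0
      apply ht1
      have h3 : (g : G) * t * (g : G)⁻¹ = (g : G) * 1 * (g : G)⁻¹ := by rw [h0]; group
      simpa using h3
  have hw3 : (C.subgroupOf N).index ≤ 3 := by
    have hinj : Function.Injective (fun z : ↥N ⧸ C.subgroupOf N =>
        Quotient.liftOn' z (fun g : ↥N => (⟨(g : G) * t * (g : G)⁻¹, hfib g⟩ : ↥S)) (by
          intro a b hab
          have h3 : a⁻¹ * b ∈ C.subgroupOf N := QuotientGroup.leftRel_apply.1 hab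
          rw [Subgroup.mem_subgroupOf, hmemC] at h3
          have h4 : (a : G)⁻¹ * (b : G) * t = t * ((a : G)⁻¹ * (b : G)) := by
            simpa using h3
          apply Subtype.ext
          show (a : G) * t * (a : G)⁻¹ = (b : G) * t * (b : G)⁻¹
          calc (a : G) * t * (a : G)⁻¹ = (a : G) * (t * ((a : G)⁻¹ * (b : G))) * (b : G)⁻¹ := by
                group
            _ = (a : G) * ((a : G)⁻¹ * (b : G) * t) * (b : G)⁻¹ := by rw [h4]
            _ = (b : G) * t * (b : G)⁻¹ := by group)) := by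
      intro a b
      refine QuotientGroup.induction_on a (fun a' => ?_)
      refine QuotientGroup.induction_on b (fun b' => ?_)
      intro hab
      have h3 : (a' : G) * t * (a' : G)⁻¹ = (b' : G) * t * (b' : G)⁻¹ :=
        congrArg Subtype.val hab
      rw [QuotientGroup.eq, Subgroup.mem_subgroupOf, hmemC]
      push_cast
      calc (a' : G)⁻¹ * (b' : G) * t = (a' : G)⁻¹ * ((b' : G) * t * (b' : G)⁻¹) * (b' : G) := by
            group
        _ = (a' : G)⁻¹ * ((a' : G) * t * (a' : G)⁻¹) * (b' : G) := by rw [h3]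
        _ = t * ((a' : G)⁻¹ * (b' : G)) := by group
    have h5 := Nat.card_le_card_of_injective _ hinj
    rw [Subgroup.index_eq_card]
    have h6 : Nat.card ↥S = S.card := by
      rw [Nat.card_eq_fintype_card, Fintype.card_coe]
    omega
  -- arithmetic
  have hmod1 : (C.subgroupOf N).index ≡ q * m₂ [MOD 2 * m₁] := by
    have h3 : (C.subgroupOf N).index * N.index ≡ (C.subgroupOf N).index * 1 [MOD 2 * m₁] :=
      Nat.ModEq.mul_left _ hN
    rw [hw, mul_one] at h3
    exact h3.symm
  have hmod2 : q * m₂ ≡ m₁ + 1 [MOD 2 * m₁] := by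
    have hs := h.sum
    have h2 := h.m2ge
    rcases h.diff with d | d
    · obtain ⟨k, hk⟩ : ∃ k, m₂ = k + 1 := ⟨m₂ - 1, by omega⟩
      have hq : q = 2 * k + 3 := by omega
      have hm : m₁ = k + 2 := by omega
      rw [hq, hk, hm]
      show (2 * k + 3) * (k + 1) % (2 * (k + 2)) = (k + 2 + 1) % (2 * (k + 2))
      rw [show (2 * k + 3) * (k + 1) = (k + 2 + 1) + (2 * (k + 2)) * k by ring,
        Nat.add_mul_mod_self_left]
    · have hq : q = 2 * m₁ + 1 := by omega
      rw [hq, d]
      show (2 * m₁ + 1) * (m₁ + 1) % (2 * m₁) = (m₁ + 1) % (2 * m₁)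
      rw [show (2 * m₁ + 1) * (m₁ + 1) = (m₁ + 1) + (2 * m₁) * (m₁ + 1) by ring,
        Nat.add_mul_mod_self_left]
  have hfin := (hmod1.trans hmod2).eq_of_lt_of_lt (by omega) (by omega)
  omega

end Cfsg.Agent.Lib.Helper98.PSpCAB
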