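import Mathlib
import Cfsg.Agent.Lib.Helper98.PSpStmt

/-!
S3421, piece LOCR: in a subgroup of odd order an element normalising an `r`-subgroup (`r ≠ p`)
centralises it.
-/

set_option autoImplicit false

namespace Cfsg.Agent.Lib.Helper98.PSpLOCR

open Cfsg.Agent.Lib.Helper98.PSpStmt

universe u

theorem odd_mem {G : Type u} [Group G] [Finite G] (K : Subgroup G) (z g : G) (n : ℕ) (hn : 0 < n)
    (hz : orderOf z = n) (hzK : z ∈ K) (hK : Nat.card K = 2 * n) (hg : g ∈ K)
    (hodd : Odd (orderOf g)) : g ∈ Subgroup.zpowers z := by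
  have hle : Subgroup.zpowers z ≤ K := by
    rw [Subgroup.zpowers_le]
    exact hzK
  have hcH : Nat.card ((Subgroup.zpowers z).subgroupOf K) = n := by
    rw [Nat.card_congr (Subgroup.subgroupOfEquivOfLe hle).toEquiv, Nat.card_zpowers, hz]
  have hidx : ((Subgroup.zpowers z).subgroupOf K).index = 2 := by
    have h1 := Subgroup.card_mul_index ((Subgroup.zpowers z).subgroupOf K)
    rw [hcH, hK] at h1
    have h2 : n * ((Subgroup.zpowers z).subgroupOf K).index = n * 2 := by rw [h1]; ring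
    exact Nat.eq_of_mul_eq_mul_left hn h2
  have hsq : (⟨g, hg⟩ : ↥K) ^ 2 ∈ (Subgroup.zpowers z).subgroupOf K :=
    Subgroup.sq_mem_of_index_two hidx _
  have hsq' : g ^ 2 ∈ Subgroup.zpowers z := by
    have h1 := Subgroup.mem_subgroupOf.1 hsq
    simpa using h1
  obtain ⟨j, hj⟩ := hodd
  have h3 : g = (g ^ 2) ^ (j + 1) := by
    rw [← pow_mul, show 2 * (j + 1) = orderOf g + 1 by omega, pow_succ, pow_orderOf_eq_one,
      one_mul]
  rw [h3]
  exact Subgroup.pow_mem _ hsq' _

theorem comm_of_mem_zpowers {G : Type u} [Group G] {y a b : G} (ha : a ∈ Subgroup.zpowers y)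
    (hb : b ∈ Subgroup.zpowers y) : a * b = b * a := by
  obtain ⟨i, rfl⟩ := ha
  obtain ⟨j, rfl⟩ := hb
  exact (Commute.zpow_zpow_self y i j).eq

theorem card_le_of_conj {G : Type u} [Group G] [Finite G] (H K : Subgroup G) (g : G)
    (h : ∀ c ∈ H, g * c * g⁻¹ ∈ K) : Nat.card H ≤ Nat.card K := by
  refine Nat.card_le_card_of_injective (fun c : H => (⟨g * c * g⁻¹, h c c.2⟩ : K)) ?_
  intro a b hab
  have h1 : g * (a : G) * g⁻¹ = g * (b : G) * g⁻¹ := congrArg Subtype.val hab
  exact Subtype.ext (by simpa using h1)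

theorem conj_comm {G : Type u} [Group G] (g a b : G) :
    g * a * g⁻¹ * (g * b * g⁻¹) = g * b * g⁻¹ * (g * a * g⁻¹) ↔ a * b = b * a := by
  constructor
  · intro hc
    have h1 : g * (a * b) * g⁻¹ = g * (b * a) * g⁻¹ := by
      calc g * (a * b) * g⁻¹ = g * a * g⁻¹ * (g * b * g⁻¹) := by group
        _ = g * b * g⁻¹ * (g * a * g⁻¹) := hc
        _ = g * (b * a) * g⁻¹ := by group
    simpa using h1
  · intro hc
    calc g * a * g⁻¹ * (g * b * g⁻¹) = g * (a * b) * g⁻¹ := by group
      _ = g * (b * a) * g⁻¹ := by rw [hc]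
      _ = g * b * g⁻¹ * (g * a * g⁻¹) := by group

theorem main (hsa : SylA.{u}) (hsb : SylB.{u}) (ha1 : A1.{u}) (ha2 : A2.{u}) (hcb : CB.{u})
    (hcnb : CNB.{u}) (hcnc : CNC.{u}) (hct : CT.{u}) : LocR.{u} := by
  intro G _ p q m₁ m₂ h M hM r hr hrp R hRM hR g hg hnorm h₁ hh₁
  haveI := h.fin
  by_cases hh1 : h₁ = 1
  · rw [hh1, mul_one, one_mul]
  have hgodd : Odd (orderOf g) := hM.of_dvd_nat (Subgroup.orderOf_dvd_natCard M hg)
  have hrd : r ∣ orderOf h₁ := by
    obtain ⟨k, hk⟩ := hR ⟨h₁, hh₁⟩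
    have hk' : h₁ ^ r ^ k = 1 := by
      have h0 := congrArg Subtype.val hk
      simpa using h0
    obtain ⟨j, hj, hj'⟩ := (Nat.dvd_prime_pow hr).1 (orderOf_dvd_of_pow_eq_one hk')
    rcases Nat.eq_zero_or_pos j with h0 | h0
    · rw [h0, pow_zero, orderOf_eq_one_iff] at hj'
      exact absurd hj' hh1
    · rw [hj']
      exact dvd_pow_self r (by omega)
  have hr2 : r ≠ 2 := by
    intro h2
    have h3 : 2 ∣ Nat.card M := by
      rw [← h2]
      exact hrd.trans (Subgroup.orderOf_dvd_natCard M (hRM hh₁))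
    exact (Nat.not_even_iff_odd.2 hM) (even_iff_two_dvd.2 h3)
  have hh₂ : g * h₁ * g⁻¹ ∈ R := hnorm h₁ hh₁
  have hh₂1 : g * h₁ * g⁻¹ ≠ 1 := by
    intro h0
    apply hh1
    have h3 : g * h₁ * g⁻¹ = g * 1 * g⁻¹ := by rw [h0]; group
    simpa using h3
  rcases h.spec h₁ with hd | hd | hd
  · exact absurd ((Nat.prime_dvd_prime_iff_eq hr h.pp).1 (hrd.trans hd)) hrp
  · have hrm : r ∣ m₁ := hrd.trans hd
    obtain ⟨x, hx, hRx⟩ := hsb G p q m₁ m₂ h r hr hr2 hrm R hR
    have hm1 : 2 < m₁ := by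
      have h1 := h.m1_ge
      have h2 := Nat.le_of_dvd (by omega) hrm
      have h3 := hr.two_le
      omega
    have hxC : x ∈ Subgroup.centralizer ({x ^ (m₁ / 2)} : Set G) := by
      rw [Subgroup.mem_centralizer_singleton_iff]
      exact (pow_mul_comm' x (m₁ / 2)).symm
    have hcard := hct G p q m₁ m₂ h x hx
    have hconj : ∀ c : G, c ∈ Subgroup.centralizer ({h₁} : Set G) ↔
        g * c * g⁻¹ ∈ Subgroup.centralizer ({g * h₁ * g⁻¹} : Set G) := by
      intro c
      rw [Subgroup.mem_centralizer_singleton_iff, Subgroup.mem_centralizer_singleton_iff]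
      exact (conj_comm g c h₁).symm
    have hBC : Nat.card (Subgroup.zpowers x) <
        Nat.card (Subgroup.centralizer ({x ^ (m₁ / 2)} : Set G)) := by
      rw [Nat.card_zpowers, hx, hcard]
      omega
    have hgC : g ∈ Subgroup.centralizer ({x ^ (m₁ / 2)} : Set G) := by
      rcases hcb G p q m₁ m₂ h x h₁ hx (hRx hh₁) hh1 with e1 | e1 <;>
      rcases hcb G p q m₁ m₂ h x (g * h₁ * g⁻¹) hx (hRx hh₂) hh₂1 with e2 | e2
      · have hgN : g ∈ Subgroup.normalizer ((Subgroup.zpowers x : Subgroup G) : Set G) := by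
          rw [Subgroup.mem_normalizer_iff]
          intro a
          have h1 := hconj a
          rw [e1, e2] at h1
          exact h1
        rw [hcnb G p q m₁ m₂ h x hx] at hgN
        exact hgN
      · exfalso
        have h5 := card_le_of_conj (Subgroup.centralizer ({x ^ (m₁ / 2)} : Set G))
          (Subgroup.zpowers x) g⁻¹ (by
            intro c hc
            rw [← e1, hconj, e2]
            have h6 : g * (g⁻¹ * c * g⁻¹⁻¹) * g⁻¹ = c := by group
            rw [h6]
            exact hc)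
        omega
      · exfalso
        have h5 := card_le_of_conj (Subgroup.centralizer ({x ^ (m₁ / 2)} : Set G))
          (Subgroup.zpowers x) g (by
            intro c hc
            rw [← e2, ← hconj, e1]
            exact hc)
        omega
      · have hgN : g ∈ Subgroup.normalizer
            ((Subgroup.centralizer ({x ^ (m₁ / 2)} : Set G) : Subgroup G) : Set G) := by
          rw [Subgroup.mem_normalizer_iff]
          intro a
          have h1 := hconj a
          rw [e1, e2] at h1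
          exact h1
        exact hcnc G p q m₁ m₂ h hm1 x g hx hgN
    have hgB := odd_mem (Subgroup.centralizer ({x ^ (m₁ / 2)} : Set G)) x g m₁ (by omega) hx hxC
      hcard hgC hgodd
    exact comm_of_mem_zpowers hgB (hRx hh₁)
  · have hrm : r ∣ m₂ := hrd.trans hd
    obtain ⟨y, hy, hRy⟩ := hsa G p q m₁ m₂ h r hr hrm R hR
    have hgN : g ∈ Subgroup.normalizer ((Subgroup.zpowers y : Subgroup G) : Set G) := by
      rw [Subgroup.mem_normalizer_iff]
      intro a
      constructor
      · intro ha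
        refine ha1 G p q m₁ m₂ h y (g * h₁ * g⁻¹) (g * a * g⁻¹) hy (hRy hh₂) hh₂1 ?_
        exact (conj_comm g a h₁).2 (comm_of_mem_zpowers ha (hRy hh₁))
      · intro ha
        refine ha1 G p q m₁ m₂ h y h₁ a hy (hRy hh₁) hh1 ?_
        exact (conj_comm g a h₁).1 (comm_of_mem_zpowers ha (hRy hh₂))
    have hyN : y ∈ Subgroup.normalizer ((Subgroup.zpowers y : Subgroup G) : Set G) :=
      Subgroup.le_normalizer (Subgroup.mem_zpowers y)
    have h3 := h.m2ge
    have hgA := odd_mem _ y g m₂ (by omega) hy hyN (ha2 G p q m₁ m₂ h y hy) hgN hgodd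
    exact comm_of_mem_zpowers hgA (hRy hh₁)

end Cfsg.Agent.Lib.Helper98.PSpLOCR
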