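import Mathlib
import Cfsg.Agent.Lib.Helper10.PUDefs

/-!
# S2772, piece FF2: the Thompson subgroup argument

In the pushing-up setting there is an involution of `S` outside `Q` centralizing a subgroup of
index at most `2` of `Ω₁ Z(Q)`.
-/

set_option autoImplicit false

namespace Cfsg.Agent.Lib.Helper98.PUFF2

open Pointwise Cfsg.Agent.Lib.Helper10.SWDefs Cfsg.Agent.Lib.Helper10.PUDefs

universe u

variable {H : Type u} [Group H]

/-- Elementary abelian `2`-subgroups. -/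
def EA (A : Subgroup H) : Prop := (∀ a ∈ A, ∀ b ∈ A, a * b = b * a) ∧ ∀ a ∈ A, a * a = 1

theorem ea_bot : EA (⊥ : Subgroup H) := by
  refine ⟨?_, ?_⟩
  · intro a ha b hb
    rw [Subgroup.mem_bot] at ha hb
    rw [ha, hb]
  · intro a ha
    rw [Subgroup.mem_bot] at ha
    rw [ha, one_mul]

theorem ea_mono {A B : Subgroup H} (h : A ≤ B) (hB : EA B) : EA A :=
  ⟨fun a ha b hb => hB.1 a (h ha) b (h hb), fun a ha => hB.2 a (h ha)⟩

theorem ea_conj (g : H) {A : Subgroup H} (hA : EA A) : EA (MulAut.conj g • A) := by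
  refine ⟨?_, ?_⟩
  · intro a ha b hb
    rw [mem_conj_smul] at ha hb
    have h1 := hA.1 _ ha _ hb
    calc a * b = g * ((g⁻¹ * a * g) * (g⁻¹ * b * g)) * g⁻¹ := by group
      _ = g * ((g⁻¹ * b * g) * (g⁻¹ * a * g)) * g⁻¹ := by rw [h1]
      _ = b * a := by group
  · intro a ha
    rw [mem_conj_smul] at ha
    have h1 := hA.2 _ ha
    calc a * a = g * ((g⁻¹ * a * g) * (g⁻¹ * a * g)) * g⁻¹ := by group
      _ = 1 := by rw [h1]; group

/-- The involutions of an abelian subgroup. -/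
def Om (B : Subgroup H) (hab : ∀ a ∈ B, ∀ b ∈ B, a * b = b * a) : Subgroup H where
  carrier := {z | z ∈ B ∧ z * z = 1}
  mul_mem' := by
    rintro a b ⟨ha, ha2⟩ ⟨hb, hb2⟩
    refine ⟨B.mul_mem ha hb, ?_⟩
    calc a * b * (a * b) = a * (b * a) * b := by group
      _ = a * (a * b) * b := by rw [hab b hb a ha]
      _ = (a * a) * (b * b) := by group
      _ = 1 := by rw [ha2, hb2, one_mul]
  one_mem' := ⟨B.one_mem, by simp⟩
  inv_mem' := by
    rintro a ⟨ha, ha2⟩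
    have hinv : a⁻¹ = a := inv_eq_of_mul_eq_one_left ha2
    refine ⟨B.inv_mem ha, ?_⟩
    rw [hinv]
    exact ha2

theorem ea_sup {W D : Subgroup H} (hW : EA W) (hD : EA D)
    (hc : ∀ w ∈ W, ∀ d ∈ D, w * d = d * w) : EA (W ⊔ D) := by
  have h1 : W ⊔ D ≤ Subgroup.centralizer ((W : Set H) ∪ (D : Set H)) := by
    refine sup_le ?_ ?_
    · intro w hw
      rw [Subgroup.mem_centralizer_iff]
      rintro k (hk | hk)
      · exact hW.1 k hk w hw
      · exact (hc w hw k hk).symm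
    · intro d hd
      rw [Subgroup.mem_centralizer_iff]
      rintro k (hk | hk)
      · exact hc k hk d hd
      · exact hD.1 k hk d hd
  have h2 : W ⊔ D ≤ Subgroup.centralizer ((W ⊔ D : Subgroup H) : Set H) := by
    refine sup_le ?_ ?_
    · intro w hw
      rw [Subgroup.mem_centralizer_iff]
      intro k hk
      exact (Subgroup.mem_centralizer_iff.1 (h1 hk) w (Or.inl hw)).symm
    · intro d hd
      rw [Subgroup.mem_centralizer_iff]
      intro k hk
      exact (Subgroup.mem_centralizer_iff.1 (h1 hk) d (Or.inr hd)).symm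
  have hab : ∀ a ∈ W ⊔ D, ∀ b ∈ W ⊔ D, a * b = b * a := by
    intro a ha b hb
    exact Subgroup.mem_centralizer_iff.1 (h2 hb) a ha
  refine ⟨hab, ?_⟩
  have hT : W ⊔ D ≤ Om (W ⊔ D) hab := by
    refine sup_le ?_ ?_
    · intro w hw
      exact ⟨Subgroup.mem_sup_left hw, hW.2 w hw⟩
    · intro d hd
      exact ⟨Subgroup.mem_sup_right hd, hD.2 d hd⟩
  intro a ha
  exact (hT ha).2

theorem ea_zpowers {t : H} (ht : t ^ 2 = 1) : EA (Subgroup.zpowers t) := by
  refine ⟨?_, ?_⟩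
  · intro a ha b hb
    obtain ⟨k, rfl⟩ := Subgroup.mem_zpowers_iff.1 ha
    obtain ⟨l, rfl⟩ := Subgroup.mem_zpowers_iff.1 hb
    rw [← zpow_add, ← zpow_add, add_comm]
  · intro a ha
    obtain ⟨k, rfl⟩ := Subgroup.mem_zpowers_iff.1 ha
    have h1 : t ^ (k + k) = (t ^ (2 : ℕ)) ^ k := by
      rw [← zpow_natCast, ← zpow_mul]
      congr 1
      push_cast
      ring
    rw [← zpow_add, h1, ht, one_zpow]

/-- The join of the elementary abelian subgroups of `S` of order `m`. -/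
def JJ (S : Subgroup H) (m : ℕ) : Subgroup H :=
  ⨆ (A : Subgroup H) (_ : A ≤ S ∧ EA A ∧ Nat.card A = m), A

theorem le_JJ {S A : Subgroup H} {m : ℕ} (h1 : A ≤ S) (h2 : EA A) (h3 : Nat.card A = m) :
    A ≤ JJ S m :=
  le_iSup₂ (f := fun (A : Subgroup H) (_ : A ≤ S ∧ EA A ∧ Nat.card A = m) => A) A ⟨h1, h2, h3⟩

theorem JJ_le {S K : Subgroup H} {m : ℕ}
    (h : ∀ A : Subgroup H, A ≤ S → EA A → Nat.card A = m → A ≤ K) : JJ S m ≤ K :=
  iSup₂_le fun A hA => h A hA.1 hA.2.1 hA.2.2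

theorem JJ_conj {S : Subgroup H} {m : ℕ} (g : H)
    (hg : ∀ A : Subgroup H, A ≤ S → EA A → Nat.card A = m → MulAut.conj g • A ≤ S)
    (hg' : ∀ A : Subgroup H, A ≤ S → EA A → Nat.card A = m → MulAut.conj g⁻¹ • A ≤ S) :
    MulAut.conj g • JJ S m = JJ S m := by
  have key : ∀ k : H,
      (∀ A : Subgroup H, A ≤ S → EA A → Nat.card A = m → MulAut.conj k • A ≤ S) →
      JJ S m ≤ MulAut.conj k⁻¹ • JJ S m := by
    intro k hk
    refine JJ_le fun A h1 h2 h3 => ?_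
    have h4 : MulAut.conj k • A ≤ JJ S m :=
      le_JJ (hk A h1 h2 h3) (ea_conj k h2) ((card_conj_smul k A).trans h3)
    have h5 := Subgroup.pointwise_smul_le_pointwise_smul_iff (a := MulAut.conj k⁻¹).2 h4
    rwa [conj_inv_smul] at h5
  refine le_antisymm ?_ ?_
  · have h1 := key g hg
    have h2 := Subgroup.pointwise_smul_le_pointwise_smul_iff (a := MulAut.conj g).2 h1
    rwa [conj_smul_inv] at h2
  · have h1 := key g⁻¹ hg'
    rwa [inv_inv] at h1

theorem main : StFF2.{u} := by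
  intro H _ _ G Q S x q h
  classical
  have hQpos : 0 < Nat.card Q := Nat.card_pos
  have hQS2 : Q.relIndex S = 2 := by
    have h1 := Subgroup.relIndex_mul_relIndex (⊥ : Subgroup H) Q S bot_le h.hQS
    rw [Subgroup.relIndex_bot_left, Subgroup.relIndex_bot_left, h.cardS] at h1
    have h2 : Nat.card Q * Q.relIndex S = Nat.card Q * 2 := by rw [h1, mul_comm]
    exact Nat.eq_of_mul_eq_mul_left hQpos h2
  haveI : Nonempty {A : Subgroup H // A ≤ S ∧ EA A} := ⟨⟨⊥, bot_le, ea_bot⟩⟩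
  obtain ⟨⟨A₀, hA₀S, hA₀⟩, hmax⟩ := Finite.exists_max
    (fun A : {A : Subgroup H // A ≤ S ∧ EA A} => Nat.card (A : Subgroup H))
  have hmax' : ∀ A : Subgroup H, A ≤ S → EA A → Nat.card A ≤ Nat.card A₀ :=
    fun A hAS hA => hmax ⟨A, hAS, hA⟩
  by_cases hcase : ∀ A : Subgroup H, A ≤ S → EA A → Nat.card A = Nat.card A₀ → A ≤ Q
  · exfalso
    have hJQ : JJ S (Nat.card A₀) ≤ Q := JJ_le hcase
    have hxS' : MulAut.conj x⁻¹ • S = S := by
      have h1 := conj_inv_smul x S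
      rwa [h.xS] at h1
    have hJG : Nrm G (JJ S (Nat.card A₀)) := by
      intro p hp
      refine JJ_conj p ?_ ?_
      · intro A h1 h2 h3
        have h4 : MulAut.conj p • A ≤ MulAut.conj p • Q :=
          Subgroup.pointwise_smul_le_pointwise_smul_iff.2 (hcase A h1 h2 h3)
        rw [h.nrm p hp] at h4
        exact h4.trans h.hQS
      · intro A h1 h2 h3
        have h4 : MulAut.conj p⁻¹ • A ≤ MulAut.conj p⁻¹ • Q :=
          Subgroup.pointwise_smul_le_pointwise_smul_iff.2 (hcase A h1 h2 h3)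
        rw [h.nrm p⁻¹ (G.inv_mem hp)] at h4
        exact h4.trans h.hQS
    have hJx : MulAut.conj x • JJ S (Nat.card A₀) = JJ S (Nat.card A₀) := by
      refine JJ_conj x ?_ ?_
      · intro A h1 _ _
        have h4 : MulAut.conj x • A ≤ MulAut.conj x • S :=
          Subgroup.pointwise_smul_le_pointwise_smul_iff.2 h1
        rwa [h.xS] at h4
      · intro A h1 _ _
        have h4 : MulAut.conj x⁻¹ • A ≤ MulAut.conj x⁻¹ • S :=
          Subgroup.pointwise_smul_le_pointwise_smul_iff.2 h1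
        rwa [hxS'] at h4
    have hJ : JJ S (Nat.card A₀) = ⊥ := h.noN _ (hJQ.trans h.hQS) hJG hJx
    have hA₀bot : A₀ = ⊥ := by
      have h1 : A₀ ≤ JJ S (Nat.card A₀) := le_JJ hA₀S hA₀ rfl
      rw [hJ] at h1
      exact le_bot_iff.1 h1
    have hm : Nat.card A₀ = 1 := by rw [hA₀bot]; exact Subgroup.card_bot
    haveI : Fact (Nat.Prime 2) := ⟨Nat.prime_two⟩
    obtain ⟨t, ht⟩ := exists_prime_orderOf_dvd_card' (G := S) 2
      (by rw [h.cardS]; exact dvd_mul_right 2 _)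
    have ht' : orderOf (t : H) = 2 := by rw [Subgroup.orderOf_coe]; exact ht
    have ht2 : (t : H) ^ 2 = 1 := by rw [← ht']; exact pow_orderOf_eq_one _
    have h1 := hmax' (Subgroup.zpowers (t : H)) (Subgroup.zpowers_le.2 t.2) (ea_zpowers ht2)
    rw [Nat.card_zpowers, ht', hm] at h1
    omega
  · push_neg at hcase
    obtain ⟨A, hAS, hA, hAm, hAQ⟩ := hcase
    obtain ⟨a, haA, haQ⟩ := SetLike.not_le_iff_exists.1 hAQ
    have hWQ : OZ Q ≤ Q := fun z hz => hz.1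
    have hEAW : EA (OZ Q) := ⟨fun a ha b hb => hb.2.2 a ha.1, fun a ha => ha.2.1⟩
    have hEAD : EA (A ⊓ Q) := ea_mono inf_le_left hA
    have hc : ∀ w ∈ OZ Q, ∀ d ∈ A ⊓ Q, w * d = d * w :=
      fun w hw d hd => (hw.2.2 d hd.2).symm
    have hEAB : EA (OZ Q ⊔ A ⊓ Q) := ea_sup hEAW hEAD hc
    have hBS : OZ Q ⊔ A ⊓ Q ≤ S := (sup_le hWQ inf_le_right).trans h.hQS
    have hBA : Nat.card (OZ Q ⊔ A ⊓ Q : Subgroup H) ≤ Nat.card A := by
      rw [hAm]
      exact hmax' _ hBS hEAB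
    have e1 : Nat.card (A ⊓ Q : Subgroup H) * (A ⊓ Q).relIndex (OZ Q ⊔ A ⊓ Q)
        = Nat.card (OZ Q ⊔ A ⊓ Q : Subgroup H) := by
      have h1 := Subgroup.relIndex_mul_relIndex (⊥ : Subgroup H) (A ⊓ Q) (OZ Q ⊔ A ⊓ Q)
        bot_le le_sup_right
      rwa [Subgroup.relIndex_bot_left, Subgroup.relIndex_bot_left] at h1
    have e2 : Nat.card (A ⊓ Q : Subgroup H) * (A ⊓ Q).relIndex A = Nat.card A := by
      have h1 := Subgroup.relIndex_mul_relIndex (⊥ : Subgroup H) (A ⊓ Q) A bot_le inf_le_left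
      rwa [Subgroup.relIndex_bot_left, Subgroup.relIndex_bot_left] at h1
    have e3 : (A ⊓ Q).relIndex A = Q.relIndex A := Subgroup.inf_relIndex_left A Q
    have e4 : Q.relIndex A ≤ 2 := by
      have h1 := Subgroup.relIndex_le_of_le_right (H := Q) hAS (by rw [hQS2]; norm_num)
      rwa [hQS2] at h1
    have hDpos : 0 < Nat.card (A ⊓ Q : Subgroup H) := Nat.card_pos
    have hBpos : 0 < Nat.card (OZ Q ⊔ A ⊓ Q : Subgroup H) := Nat.card_pos
    have e5 : (A ⊓ Q).relIndex (OZ Q ⊔ A ⊓ Q) ≤ 2 := by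
      have h1 : Nat.card (A ⊓ Q : Subgroup H) * (A ⊓ Q).relIndex (OZ Q ⊔ A ⊓ Q)
          ≤ Nat.card (A ⊓ Q : Subgroup H) * 2 := by
        rw [e1]
        calc Nat.card (OZ Q ⊔ A ⊓ Q : Subgroup H) ≤ Nat.card A := hBA
          _ = Nat.card (A ⊓ Q : Subgroup H) * (A ⊓ Q).relIndex A := e2.symm
          _ ≤ Nat.card (A ⊓ Q : Subgroup H) * 2 :=
            Nat.mul_le_mul_left _ ((le_of_eq e3).trans e4)
      exact Nat.le_of_mul_le_mul_left h1 hDpos
    have hne : (A ⊓ Q).relIndex (OZ Q ⊔ A ⊓ Q) ≠ 0 := by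
      intro h0
      rw [h0, mul_zero] at e1
      omega
    refine ⟨a, hAS haA, haQ, hA.2 a haA, OZ Q ⊓ (A ⊓ Q), inf_le_left, ?_, ?_⟩
    · have e6 : (OZ Q ⊓ (A ⊓ Q)).relIndex (OZ Q) = (A ⊓ Q).relIndex (OZ Q) :=
        Subgroup.inf_relIndex_left (OZ Q) (A ⊓ Q)
      have e7 : (A ⊓ Q).relIndex (OZ Q) ≤ (A ⊓ Q).relIndex (OZ Q ⊔ A ⊓ Q) :=
        Subgroup.relIndex_le_of_le_right le_sup_left hne
      rw [e6]
      exact e7.trans e5
    · intro c hc'
      exact hA.1 a haA c hc'.2.1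

end Cfsg.Agent.Lib.Helper98.PUFF2
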