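import Mathlib
import Cfsg.Agent.Lib.Helper10.PUDefs

/-!
# S2772, piece FF3a: two conjugates of the transvection generate `G` modulo `Q`

In the pushing-up setting, a transvection `a` on `Ω₁ Z(Q)` and its conjugate under an element
of order `q` generate `G` together with `Q`, so the intersection of their centralizers in
`Ω₁ Z(Q)`, of index at most `4`, is central in `G`.
-/

set_option autoImplicit false

namespace Cfsg.Agent.Lib.Helper98.PUFF3a

open Pointwise Cfsg.Agent.Lib.Helper10.SWDefs Cfsg.Agent.Lib.Helper10.PUDefs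

universe u

variable {H : Type u} [Group H]

/-- A subgroup squeezed between two subgroups of prime index is one of them. -/
theorem mid [Finite H] {A B C : Subgroup H} (hAB : A ≤ B) (hBC : B ≤ C) {p : ℕ} (hp : p.Prime)
    (hcard : Nat.card C = p * Nat.card A) : B = A ∨ B = C := by
  have hApos : 0 < Nat.card A := Nat.card_pos
  obtain ⟨k, hk⟩ := Subgroup.card_dvd_of_le hAB
  have h1 : Nat.card B ∣ Nat.card C := Subgroup.card_dvd_of_le hBC
  rw [hk, hcard, mul_comm p] at h1
  have h2 : k ∣ p := Nat.dvd_of_mul_dvd_mul_left hApos h1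
  rcases (Nat.dvd_prime hp).1 h2 with h3 | h3
  · left
    rw [h3, mul_one] at hk
    exact (Subgroup.eq_of_le_of_card_ge hAB (le_of_eq hk)).symm
  · right
    refine Subgroup.eq_of_le_of_card_ge hBC (le_of_eq ?_)
    rw [hcard, hk, h3, mul_comm]

theorem conj_self_smul {S : Subgroup H} {s : H} (hs : s ∈ S) : MulAut.conj s • S = S := by
  ext y
  rw [mem_conj_smul]
  constructor
  · intro hy
    have h1 : y = s * (s⁻¹ * y * s) * s⁻¹ := by group
    rw [h1]
    exact S.mul_mem (S.mul_mem hs hy) (S.inv_mem hs)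
  · intro hy
    exact S.mul_mem (S.mul_mem (S.inv_mem hs) hy) hs

/-- The normalizer of `S`, in terms of the conjugation action. -/
def NS (S : Subgroup H) : Subgroup H where
  carrier := {g | MulAut.conj g • S = S}
  mul_mem' := by
    intro a b ha hb
    have ha' : MulAut.conj a • S = S := ha
    have hb' : MulAut.conj b • S = S := hb
    show MulAut.conj (a * b) • S = S
    rw [← conj_mul_smul, hb', ha']
  one_mem' := conj_one_smul S
  inv_mem' := by
    intro a ha
    have ha' : MulAut.conj a • S = S := ha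
    show MulAut.conj a⁻¹ • S = S
    have h1 := conj_inv_smul a S
    rwa [ha'] at h1

theorem main : StFF3a.{u} := by
  intro H _ _ G Q S x q h ⟨a, haS, haQ, ha2, C, hCW, hCi, hCa⟩
  classical
  have hq := h.prime
  have hW : ∀ g ∈ G, MulAut.conj g • OZ Q = OZ Q := by
    intro g hg
    rw [← OZ_conj, h.nrm g hg]
  haveI : Fact q.Prime := ⟨hq⟩
  obtain ⟨⟨d, hdG⟩, hd₀⟩ := exists_prime_orderOf_dvd_card' (G := G) q
    (by rw [h.cardG]; exact ⟨2 * Nat.card Q, by ring⟩)
  have hd : orderOf d = q := (Subgroup.orderOf_coe (⟨d, hdG⟩ : G)).trans hd₀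
  have hC'W : MulAut.conj d • C ≤ OZ Q := by
    have h1 : MulAut.conj d • C ≤ MulAut.conj d • OZ Q :=
      Subgroup.pointwise_smul_le_pointwise_smul_iff.2 hCW
    rwa [hW d hdG] at h1
  have hC'i : (MulAut.conj d • C).relIndex (OZ Q) ≤ 2 := by
    have h1 := Subgroup.relIndex_pointwise_smul (MulAut.conj d) C (OZ Q)
    rw [hW d hdG] at h1
    rw [h1]
    exact hCi
  have hC'a : ∀ c ∈ MulAut.conj d • C, (d * a * d⁻¹) * c = c * (d * a * d⁻¹) := by
    intro c hc
    rw [mem_conj_smul] at hc
    have h1 := hCa _ hc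
    calc d * a * d⁻¹ * c = d * (a * (d⁻¹ * c * d)) * d⁻¹ := by group
      _ = d * ((d⁻¹ * c * d) * a) * d⁻¹ := by rw [h1]
      _ = c * (d * a * d⁻¹) := by group
  refine ⟨C ⊓ MulAut.conj d • C, inf_le_left.trans hCW, ?_, ?_⟩
  · calc (C ⊓ MulAut.conj d • C).relIndex (OZ Q)
        ≤ C.relIndex (OZ Q) * (MulAut.conj d • C).relIndex (OZ Q) := Subgroup.relIndex_inf_le
      _ ≤ 2 * 2 := Nat.mul_le_mul hCi hC'i
      _ = 4 := by norm_num
  · have hQZ : Q ≤ Subgroup.centralizer ((C ⊓ MulAut.conj d • C : Subgroup H) : Set H) := by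
      intro s hs
      rw [Subgroup.mem_centralizer_iff]
      intro v hv
      have hv1 : v ∈ C := (Subgroup.mem_inf.1 (SetLike.mem_coe.1 hv)).1
      have hv' : v ∈ OZ Q := hCW hv1
      exact (hv'.2.2 s hs).symm
    have haZ : a ∈ Subgroup.centralizer ((C ⊓ MulAut.conj d • C : Subgroup H) : Set H) := by
      rw [Subgroup.mem_centralizer_iff]
      intro v hv
      have hv1 : v ∈ C := (Subgroup.mem_inf.1 (SetLike.mem_coe.1 hv)).1
      exact (hCa v hv1).symm
    have ha'Z : d * a * d⁻¹ ∈
        Subgroup.centralizer ((C ⊓ MulAut.conj d • C : Subgroup H) : Set H) := by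
      rw [Subgroup.mem_centralizer_iff]
      intro v hv
      have hv2 : v ∈ MulAut.conj d • C := (Subgroup.mem_inf.1 (SetLike.mem_coe.1 hv)).2
      exact (hC'a v hv2).symm
    have hQa : Q ⊔ Subgroup.zpowers a = S := by
      have h1 : Q ≤ Q ⊔ Subgroup.zpowers a := le_sup_left
      have h2 : Q ⊔ Subgroup.zpowers a ≤ S := sup_le h.hQS (Subgroup.zpowers_le.2 haS)
      rcases mid h1 h2 Nat.prime_two h.cardS with h3 | h3
      · exfalso
        have h4 : a ∈ Q ⊔ Subgroup.zpowers a := Subgroup.mem_sup_right (Subgroup.mem_zpowers a)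
        rw [h3] at h4
        exact haQ h4
      · exact h3
    have hKZ : S ⊔ Subgroup.zpowers (d * a * d⁻¹) ≤
        Subgroup.centralizer ((C ⊓ MulAut.conj d • C : Subgroup H) : Set H) := by
      refine sup_le ?_ (Subgroup.zpowers_le.2 ha'Z)
      rw [← hQa]
      exact sup_le hQZ (Subgroup.zpowers_le.2 haZ)
    have ha'G : d * a * d⁻¹ ∈ G := G.mul_mem (G.mul_mem hdG (h.hSG haS)) (G.inv_mem hdG)
    have hKG : S ⊔ Subgroup.zpowers (d * a * d⁻¹) ≤ G :=
      sup_le h.hSG (Subgroup.zpowers_le.2 ha'G)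
    have hcardGS : Nat.card G = q * Nat.card S := by
      rw [h.cardG, h.cardS]
      ring
    have hK : S ⊔ Subgroup.zpowers (d * a * d⁻¹) = G := by
      rcases mid (le_sup_left : S ≤ S ⊔ Subgroup.zpowers (d * a * d⁻¹)) hKG hq hcardGS
        with h3 | h3
      · exfalso
        have ha'S : d * a * d⁻¹ ∈ S := by
          have h4 : d * a * d⁻¹ ∈ S ⊔ Subgroup.zpowers (d * a * d⁻¹) :=
            Subgroup.mem_sup_right (Subgroup.mem_zpowers _)
          rwa [h3] at h4
        have h4 : Q ⊔ Subgroup.zpowers a ≤ MulAut.conj d⁻¹ • S := by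
          refine sup_le ?_ (Subgroup.zpowers_le.2 ?_)
          · have h5 : MulAut.conj d⁻¹ • Q ≤ MulAut.conj d⁻¹ • S :=
              Subgroup.pointwise_smul_le_pointwise_smul_iff.2 h.hQS
            rwa [h.nrm d⁻¹ (G.inv_mem hdG)] at h5
          · rw [mem_conj_smul, inv_inv]
            exact ha'S
        rw [hQa] at h4
        have h6 : S = MulAut.conj d⁻¹ • S :=
          Subgroup.eq_of_le_of_card_ge h4 (le_of_eq (card_conj_smul d⁻¹ S))
        have hdN : d ∈ NS S := by
          have h7 : d⁻¹ ∈ NS S := h6.symm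
          have h8 := (NS S).inv_mem h7
          rwa [inv_inv] at h8
        have hSN : S ≤ NS S := fun s hs => conj_self_smul hs
        have hSd : S ⊔ Subgroup.zpowers d = G := by
          rcases mid (le_sup_left : S ≤ S ⊔ Subgroup.zpowers d)
            (sup_le h.hSG (Subgroup.zpowers_le.2 hdG)) hq hcardGS with h9 | h9
          · exfalso
            have hdS : d ∈ S := by
              have h10 : d ∈ S ⊔ Subgroup.zpowers d :=
                Subgroup.mem_sup_right (Subgroup.mem_zpowers _)
              rwa [h9] at h10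
            haveI : Fact (Nat.Prime 2) := ⟨Nat.prime_two⟩
            obtain ⟨k, hk⟩ := (IsPGroup.iff_orderOf.1 h.two) ⟨d, hdS⟩
            have hk' : orderOf d = 2 ^ k :=
              (Subgroup.orderOf_coe (⟨d, hdS⟩ : S)).trans hk
            rw [hd] at hk'
            have h10 : q ∣ 2 := hq.dvd_of_dvd_pow (Dvd.intro 1 (by rw [mul_one]; exact hk'))
            exact h.odd ((Nat.prime_dvd_prime_iff_eq hq Nat.prime_two).1 h10)
          · exact h9
        have hGN : G ≤ NS S := by
          rw [← hSd]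
          exact sup_le hSN (Subgroup.zpowers_le.2 hdN)
        have hNrm : Nrm G S := fun p hp => hGN hp
        exact haQ (h.maxQ S h.hSG hNrm h.two haS)
      · exact h3
    intro v hv g hg
    have hgZ : g ∈ Subgroup.centralizer ((C ⊓ MulAut.conj d • C : Subgroup H) : Set H) :=
      hKZ (by rw [hK]; exact hg)
    rw [Subgroup.mem_centralizer_iff] at hgZ
    exact (hgZ v hv).symm

end Cfsg.Agent.Lib.Helper98.PUFF3a
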