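import Mathlib
import Cfsg.Agent.Lib.Helper52.SpStmt

set_option autoImplicit false

/-!
# S5171 piece RQO: the Levi element of the order-reversing permutation normalizes `RQ` and
`PU ∩ n⁻¹ PU n ≤ RQ`
-/

namespace Cfsg.Agent.Lib.Helper98.SpRQO

open Matrix Cfsg.Agent.Lib.Helper43.SpBasic Cfsg.Agent.Lib.Helper43.SpSylow
open Cfsg.Agent.Lib.Helper43.PSLnUT (IsUT isUT_one)
open Cfsg.Agent.Lib.Helper52.SpStmt

universe u

variable (m : ℕ) (F : Type u) [Field F]

/-- the order-reversing permutation matrix -/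
def w0 : Matrix (Fin m) (Fin m) F := Matrix.of fun i j => if j = Fin.rev i then 1 else 0

variable {m F}

theorem w0_mul_apply (M : Matrix (Fin m) (Fin m) F) (i j : Fin m) :
    (w0 m F * M) i j = M (Fin.rev i) j := by
  rw [Matrix.mul_apply, Finset.sum_eq_single (Fin.rev i)]
  · simp [w0]
  · intro k _ hk
    simp [w0, hk]
  · intro h
    exact absurd (Finset.mem_univ _) h

theorem mul_w0_apply (M : Matrix (Fin m) (Fin m) F) (i j : Fin m) :
    (M * w0 m F) i j = M i (Fin.rev j) := by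
  rw [Matrix.mul_apply, Finset.sum_eq_single (Fin.rev j)]
  · simp [w0]
  · intro k _ hk
    have h1 : j ≠ Fin.rev k := by
      rintro rfl
      exact hk (Fin.rev_rev k).symm
    simp [w0, h1]
  · intro h
    exact absurd (Finset.mem_univ _) h

theorem w0_mul_w0 : w0 m F * w0 m F = 1 := by
  ext i j
  rw [w0_mul_apply]
  by_cases h : i = j
  · subst h
    simp [w0]
  · have h1 : j ≠ i := fun h' => h h'.symm
    simp [w0, Matrix.one_apply, h, h1]

theorem w0_transpose : (w0 m F)ᵀ = w0 m F := by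
  ext i j
  show (if i = Fin.rev j then (1 : F) else 0) = if j = Fin.rev i then 1 else 0
  by_cases h : j = Fin.rev i
  · subst h
    simp
  · rw [if_neg h, if_neg]
    rintro rfl
    exact h (Fin.rev_rev j).symm

/-- the Levi element of `w0` -/
def n0 : Matrix.symplecticGroup (Fin m) F :=
  ⟨fromBlocks (w0 m F) 0 0 (w0 m F), by
    rw [SymplecticGroup.fromBlocks_mem_iff]
    refine ⟨by simp, by simp, ?_⟩
    rw [Matrix.transpose_zero, Matrix.zero_mul, sub_zero, w0_transpose, w0_mul_w0]⟩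

theorem n0_coe : ((n0 : Matrix.symplecticGroup (Fin m) F) :
    Matrix (Fin m ⊕ Fin m) (Fin m ⊕ Fin m) F) = fromBlocks (w0 m F) 0 0 (w0 m F) := rfl

theorem n0_mul_n0 : (n0 : Matrix.symplecticGroup (Fin m) F) * n0 = 1 := by
  apply Subtype.ext
  rw [Submonoid.coe_mul, n0_coe, Matrix.fromBlocks_multiply, Submonoid.coe_one,
    ← Matrix.fromBlocks_one]
  simp [w0_mul_w0]

theorem n0_inv : (n0 : Matrix.symplecticGroup (Fin m) F)⁻¹ = n0 :=
  inv_eq_of_mul_eq_one_right n0_mul_n0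

theorem n0_mul_apply (M : Matrix (Fin m ⊕ Fin m) (Fin m ⊕ Fin m) F) (i j : Fin m) :
    (fromBlocks (w0 m F) 0 0 (w0 m F) * M) (Sum.inl i) (Sum.inl j) =
      M (Sum.inl (Fin.rev i)) (Sum.inl j) := by
  have h := toBlocks₁₁_mul (fromBlocks (w0 m F) 0 0 (w0 m F)) M
  have h2 := congrFun (congrFun h i) j
  rw [toBlocks_fromBlocks₁₁, toBlocks_fromBlocks₁₂, Matrix.zero_mul, add_zero,
    w0_mul_apply] at h2
  exact h2

theorem mul_n0_apply (M : Matrix (Fin m ⊕ Fin m) (Fin m ⊕ Fin m) F) (i j : Fin m) :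
    (M * fromBlocks (w0 m F) 0 0 (w0 m F)) (Sum.inl i) (Sum.inl j) =
      M (Sum.inl i) (Sum.inl (Fin.rev j)) := by
  have h := toBlocks₁₁_mul M (fromBlocks (w0 m F) 0 0 (w0 m F))
  have h2 := congrFun (congrFun h i) j
  rw [toBlocks_fromBlocks₁₁, toBlocks_fromBlocks₂₁, Matrix.mul_zero, add_zero,
    mul_w0_apply] at h2
  exact h2

variable [Finite F]

theorem mkMat_one (s : Matrix (Fin m) (Fin m) F) :
    mkMat (1 : Matrix (Fin m) (Fin m) F) s = fromBlocks 1 s 0 1 := by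
  unfold mkMat
  rw [Matrix.transpose_one, inv_one, Matrix.mul_one]

theorem symm_conj {s : Matrix (Fin m) (Fin m) F} (hs : s.IsSymm) :
    (w0 m F * s * w0 m F).IsSymm := by
  unfold Matrix.IsSymm
  rw [Matrix.transpose_mul, Matrix.transpose_mul, w0_transpose, hs.eq, Matrix.mul_assoc]

theorem n0_mul_mk (s : Matrix (Fin m) (Fin m) F) (hs : s.IsSymm) :
    n0 * mk 1 s isUT_one hs = mk 1 (w0 m F * s * w0 m F) isUT_one (symm_conj hs) * n0 := by
  apply Subtype.ext
  show fromBlocks (w0 m F) 0 0 (w0 m F) * mkMat 1 s =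
    mkMat 1 (w0 m F * s * w0 m F) * fromBlocks (w0 m F) 0 0 (w0 m F)
  rw [mkMat_one, mkMat_one, Matrix.fromBlocks_multiply, Matrix.fromBlocks_multiply]
  simp only [Matrix.mul_one, Matrix.one_mul, Matrix.mul_zero, Matrix.zero_mul, add_zero, zero_add]
  rw [Matrix.mul_assoc (w0 m F * s), w0_mul_w0, Matrix.mul_one]

theorem conj_mem_QS {q : Matrix.symplecticGroup (Fin m) F} (hq : q ∈ QS m F) :
    n0 * q * n0⁻¹ ∈ QS m F := by
  have h : QS m F ≤ (QS m F).comap (MulAut.conj (n0 : Matrix.symplecticGroup (Fin m) F)).toMonoidHom := by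
    unfold QS
    rw [Subgroup.closure_le]
    rintro _ ⟨s, hs, rfl⟩
    show n0 * mk 1 s isUT_one hs * n0⁻¹ ∈ Subgroup.closure _
    rw [n0_mul_mk, mul_inv_cancel_right]
    exact Subgroup.subset_closure ⟨_, symm_conj hs, rfl⟩
  exact h hq

theorem main : Cfsg.Agent.Lib.Helper52.SpStmt.RQOpp.{u} := by
  intro m F _ _ p _ _ hm
  have hconj : ∀ x ∈ RQ m F, pr (n0 : Matrix.symplecticGroup (Fin m) F) * x * (pr n0)⁻¹ ∈ RQ m F := by
    rintro _ ⟨q, hq, rfl⟩
    rw [← map_inv, ← map_mul, ← map_mul]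
    exact Subgroup.mem_map_of_mem _ (conj_mem_QS hq)
  refine ⟨pr n0, ?_, ?_⟩
  · rw [Subgroup.mem_normalizer_iff]
    intro x
    refine ⟨hconj x, fun hx => ?_⟩
    have h1 := hconj _ hx
    have h2 : pr (n0 : Matrix.symplecticGroup (Fin m) F) * pr n0 = 1 := by
      rw [← map_mul, n0_mul_n0, map_one]
    have h3 : (pr (n0 : Matrix.symplecticGroup (Fin m) F))⁻¹ = pr n0 :=
      inv_eq_of_mul_eq_one_right h2
    have h4 : pr (n0 : Matrix.symplecticGroup (Fin m) F) *
        (pr n0 * x * (pr n0)⁻¹) * (pr n0)⁻¹ = x := by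
      rw [h3]
      calc pr (n0 : Matrix.symplecticGroup (Fin m) F) * (pr n0 * x * pr n0) * pr n0
          = (pr n0 * pr n0) * x * (pr n0 * pr n0) := by group
        _ = x := by rw [h2, one_mul, mul_one]
    rwa [h4] at h1
  · rintro _ ⟨u, hu, rfl⟩ ⟨u', hu', hu'eq⟩
    have h1 : pr (n0 * u * n0⁻¹) = pr u' := by
      rw [map_mul, map_mul, map_inv, hu'eq]
    obtain ⟨c, hc, hcm⟩ := exists_scalar_of_pr_eq hm h1
    have h5 : ((n0 * u * n0⁻¹ * n0 : Matrix.symplecticGroup (Fin m) F) :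
        Matrix (Fin m ⊕ Fin m) (Fin m ⊕ Fin m) F) =
          c • ((u' : Matrix (Fin m ⊕ Fin m) (Fin m ⊕ Fin m) F) *
            ((n0 : Matrix.symplecticGroup (Fin m) F) :
              Matrix (Fin m ⊕ Fin m) (Fin m ⊕ Fin m) F)) := by
      rw [Submonoid.coe_mul, hcm, Matrix.smul_mul]
    rw [inv_mul_cancel_right, Submonoid.coe_mul, n0_coe] at h5
    have key : ∀ i j : Fin m,
        (u : Matrix (Fin m ⊕ Fin m) (Fin m ⊕ Fin m) F) (Sum.inl (Fin.rev i)) (Sum.inl j) =
          c * (u' : Matrix (Fin m ⊕ Fin m) (Fin m ⊕ Fin m) F) (Sum.inl i) (Sum.inl (Fin.rev j)) := by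
      intro i j
      have h6 := congrFun (congrFun h5 (Sum.inl i)) (Sum.inl j)
      rw [n0_mul_apply, Matrix.smul_apply, mul_n0_apply, smul_eq_mul] at h6
      exact h6
    have hdiag : ∀ k : Fin m,
        (u : Matrix (Fin m ⊕ Fin m) (Fin m ⊕ Fin m) F) (Sum.inl k) (Sum.inl k) = 1 :=
      fun k => hu.2.2 k
    have hdiag' : ∀ k : Fin m,
        (u' : Matrix (Fin m ⊕ Fin m) (Fin m ⊕ Fin m) F) (Sum.inl k) (Sum.inl k) = 1 :=
      fun k => hu'.2.2 k
    have hc1 : c = 1 := by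
      have h7 := key (Fin.rev ⟨0, hm⟩) ⟨0, hm⟩
      rw [Fin.rev_rev, hdiag, hdiag', mul_one] at h7
      exact h7.symm
    obtain ⟨a, s, ha, hs, rfl⟩ := exists_mk hu
    have hcoe : ∀ i j : Fin m, ((mk a s ha hs : Matrix.symplecticGroup (Fin m) F) :
        Matrix (Fin m ⊕ Fin m) (Fin m ⊕ Fin m) F) (Sum.inl i) (Sum.inl j) = a i j :=
      fun i j => rfl
    have ha1 : a = 1 := by
      ext i j
      rcases lt_trichotomy i j with h | h | h
      · rw [Matrix.one_apply_ne (ne_of_lt h)]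
        have h7 := key (Fin.rev i) j
        rw [Fin.rev_rev, hcoe, hc1, one_mul] at h7
        rw [h7]
        exact hu'.2.1 _ _ (Fin.rev_lt_rev.2 h)
      · subst h
        rw [Matrix.one_apply_eq]
        exact ha.2 i
      · rw [Matrix.one_apply_ne (ne_of_gt h)]
        exact ha.1 i j h
    subst ha1
    exact Subgroup.mem_map_of_mem _ (Subgroup.subset_closure ⟨s, hs, rfl⟩)

end Cfsg.Agent.Lib.Helper98.SpRQO
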