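import Mathlib
import Cfsg.Agent.Lib.Helper52.SpStmt

set_option autoImplicit false

/-!
# S5171 piece TS: a diagonal symplectic matrix splits as (upper-left determinant one) times
(identity outside the last hyperbolic pair)
-/

namespace Cfsg.Agent.Lib.Helper98.SpTS

open Matrix Cfsg.Agent.Lib.Helper43.SpBasic Cfsg.Agent.Lib.Helper43.SpSylow

universe u

variable {m : ℕ} {F : Type u} [Field F]

/-- the diagonal symplectic element `diag(f, f⁻¹)` -/
noncomputable def dg (f : Fin m → F) (hf : ∀ i, f i ≠ 0) : Matrix.symplecticGroup (Fin m) F :=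
  ⟨fromBlocks (diagonal f) 0 0 (diagonal fun i => (f i)⁻¹), by
    rw [SymplecticGroup.fromBlocks_mem_iff]
    refine ⟨by simp, by simp, ?_⟩
    rw [Matrix.transpose_zero, Matrix.zero_mul, sub_zero, Matrix.diagonal_transpose,
      Matrix.diagonal_mul_diagonal, ← Matrix.diagonal_one]
    congr 1
    funext i
    exact mul_inv_cancel₀ (hf i)⟩

theorem dg_coe (f : Fin m → F) (hf : ∀ i, f i ≠ 0) :
    ((dg f hf : Matrix.symplecticGroup (Fin m) F) : Matrix (Fin m ⊕ Fin m) (Fin m ⊕ Fin m) F) =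
      diagonal (Sum.elim f (fun i => (f i)⁻¹)) := by
  show fromBlocks (diagonal f) 0 0 (diagonal fun i => (f i)⁻¹) = _
  rw [Matrix.fromBlocks_diagonal]

theorem main : Cfsg.Agent.Lib.Helper52.SpStmt.TorusSplit.{u} := by
  intro m F _ _ hm d hd
  classical
  have hDd : (d : Matrix (Fin m ⊕ Fin m) (Fin m ⊕ Fin m) F) =
      diagonal (fun k => (d : Matrix (Fin m ⊕ Fin m) (Fin m ⊕ Fin m) F) k k) := by
    ext i j
    by_cases h : i = j
    · subst h
      rw [Matrix.diagonal_apply_eq]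
    · rw [Matrix.diagonal_apply_ne _ h]
      exact hd i j h
  obtain ⟨dd, hdd⟩ : ∃ dd : Fin m ⊕ Fin m → F,
      (d : Matrix (Fin m ⊕ Fin m) (Fin m ⊕ Fin m) F) = diagonal dd := ⟨_, hDd⟩
  have hne : ∀ k, dd k ≠ 0 := by
    intro k hk
    have hdet := _root_.SymplecticGroup.symplectic_det d.2
    rw [hdd, Matrix.det_diagonal, Finset.prod_eq_zero (Finset.mem_univ k) hk] at hdet
    exact not_isUnit_zero hdet
  set δ : F := ∏ i : Fin m, dd (Sum.inl i) with hδdef
  have hδ : δ ≠ 0 := Finset.prod_ne_zero_iff.2 (fun i _ => hne _)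
  set fB : Fin m → F := fun i => if (i : ℕ) + 1 = m then δ else 1 with hfBdef
  have hfB : ∀ i, fB i ≠ 0 := by
    intro i
    show (if (i : ℕ) + 1 = m then δ else 1) ≠ 0
    split_ifs
    · exact hδ
    · exact one_ne_zero
  have hfB' : ∀ i, (fB i)⁻¹ ≠ 0 := fun i => inv_ne_zero (hfB i)
  have hprod : ∏ i : Fin m, fB i = δ := by
    have hlt : m - 1 < m := by omega
    have h1 : ∀ i : Fin m, fB i = if i = ⟨m - 1, hlt⟩ then δ else 1 := by
      intro i
      show (if (i : ℕ) + 1 = m then δ else 1) = _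
      have h2 : ((i : ℕ) + 1 = m) ↔ i = ⟨m - 1, hlt⟩ := by
        rw [Fin.ext_iff]
        show _ ↔ (i : ℕ) = m - 1
        omega
      exact if_congr h2 rfl rfl
    rw [Finset.prod_congr rfl (fun i _ => h1 i)]
    exact (Finset.prod_ite_eq' Finset.univ (⟨m - 1, hlt⟩ : Fin m) (fun _ => δ)).trans
      (if_pos (Finset.mem_univ _))
  have hinv : dg (fun i => (fB i)⁻¹) hfB' * dg fB hfB = 1 := by
    apply Subtype.ext
    rw [Submonoid.coe_mul, dg_coe, dg_coe, Matrix.diagonal_mul_diagonal, Submonoid.coe_one,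
      ← Matrix.diagonal_one]
    congr 1
    funext k
    rcases k with i | i
    · show (fB i)⁻¹ * fB i = 1
      exact inv_mul_cancel₀ (hfB i)
    · show ((fB i)⁻¹)⁻¹ * (fB i)⁻¹ = 1
      exact inv_mul_cancel₀ (hfB' i)
  have hA : ((d * dg (fun i => (fB i)⁻¹) hfB' : Matrix.symplecticGroup (Fin m) F) :
      Matrix (Fin m ⊕ Fin m) (Fin m ⊕ Fin m) F) =
        diagonal (fun k => dd k * Sum.elim (fun i => (fB i)⁻¹) (fun i => ((fB i)⁻¹)⁻¹) k) := by
    rw [Submonoid.coe_mul, dg_coe, hdd, Matrix.diagonal_mul_diagonal]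
  refine ⟨d * dg (fun i => (fB i)⁻¹) hfB', dg fB hfB, ?_, ?_, ?_, ?_, ?_⟩
  · intro i j hij
    rw [hA, Matrix.diagonal_apply_ne _ hij]
  · rw [hA]
    simp only [Matrix.diagonal_apply_eq, Sum.elim_inl]
    rw [Finset.prod_mul_distrib, Finset.prod_inv_distrib, hprod]
    exact mul_inv_cancel₀ hδ
  · intro i j hij
    rw [dg_coe, Matrix.diagonal_apply_ne _ hij]
  · intro i hi
    rw [dg_coe, Matrix.diagonal_apply_eq, Sum.elim_inl]
    show (if (i : ℕ) + 1 = m then δ else 1) = 1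
    rw [if_neg hi]
  · rw [mul_assoc, hinv, mul_one]

end Cfsg.Agent.Lib.Helper98.SpTS
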