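import Mathlib
import Cfsg.Agent.Lib.Helper98.CExt
import Cfsg.Agent.Lib.Helper98.SL2Sub

set_option autoImplicit false

/-!
# Central extensions of `SL(2, F)`: the unipotent symbols (helper98)

* `symbol_prime`: a bi-additive alternating symbol on a prime field is trivial.
* `comm_of_symbol`: if every bi-additive alternating symbol `F × F → Z(Y)` invariant under
  simultaneous multiplication by squares is trivial, then lifts of upper (resp. lower) unipotent
  matrices commute in a central extension `φ : Y →* SL(2, F)`.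
-/

open scoped commutatorElement

namespace Cfsg.Agent.Lib.Helper98.SplitTwoA

open Matrix MatrixGroups
open Cfsg.Agent.Lib.Helper98.CExt Cfsg.Agent.Lib.Helper98.SL2Sub

/-- an additive subgroup of a field of prime cardinality containing `1` is everything -/
lemma addSubgroup_eq_top {F : Type*} [Field F] [Fintype F] (hp : (Fintype.card F).Prime)
    (S : AddSubgroup F) (h1 : (1 : F) ∈ S) : S = ⊤ := by
  have : Fact (Nat.card F).Prime := ⟨by rw [Nat.card_eq_fintype_card]; exact hp⟩
  rcases S.eq_bot_or_eq_top_of_prime_card with h | h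
  · rw [h, AddSubgroup.mem_bot] at h1
    exact absurd h1 one_ne_zero
  · exact h

/-- a bi-additive alternating symbol on a prime field is trivial -/
theorem symbol_prime {F : Type*} [Field F] [Fintype F] (hp : (Fintype.card F).Prime)
    {Z : Type*} [CommGroup Z] (f : F → F → Z)
    (hl : ∀ a b c, f (a + b) c = f a c * f b c) (hr : ∀ a b c, f a (b + c) = f a b * f a c)
    (halt : ∀ a, f a a = 1) : ∀ t s, f t s = 1 := by
  have f0l : ∀ s, f 0 s = 1 := by
    intro s
    have h := hl 0 0 s
    rw [add_zero] at h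
    exact mul_left_cancel (a := f 0 s) (by rw [mul_one]; exact h.symm)
  have f0r : ∀ t, f t 0 = 1 := by
    intro t
    have h := hr t 0 0
    rw [add_zero] at h
    exact mul_left_cancel (a := f t 0) (by rw [mul_one]; exact h.symm)
  have fnl : ∀ t s, f (-t) s = (f t s)⁻¹ := by
    intro t s
    have h := hl t (-t) s
    rw [add_neg_cancel, f0l] at h
    exact eq_inv_of_mul_eq_one_right h.symm
  have fnr : ∀ t s, f t (-s) = (f t s)⁻¹ := by
    intro t s
    have h := hr t s (-s)
    rw [add_neg_cancel, f0r] at h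
    exact eq_inv_of_mul_eq_one_right h.symm
  let B : AddSubgroup F :=
    { carrier := {s | f 1 s = 1}
      zero_mem' := f0r 1
      add_mem' := by
        intro a b ha hb
        have ha' : f 1 a = 1 := ha
        have hb' : f 1 b = 1 := hb
        show f 1 (a + b) = 1
        rw [hr, ha', hb', mul_one]
      neg_mem' := by
        intro a ha
        have ha' : f 1 a = 1 := ha
        show f 1 (-a) = 1
        rw [fnr, ha', inv_one] }
  have hB : B = ⊤ := addSubgroup_eq_top hp B (halt 1)
  have h1 : ∀ s, f 1 s = 1 := by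
    intro s
    have hs : s ∈ B := by rw [hB]; trivial
    exact hs
  let A : AddSubgroup F :=
    { carrier := {t | ∀ s, f t s = 1}
      zero_mem' := f0l
      add_mem' := by
        intro a b ha hb s
        have ha' : f a s = 1 := ha s
        have hb' : f b s = 1 := hb s
        show f (a + b) s = 1
        rw [hl, ha', hb', mul_one]
      neg_mem' := by
        intro a ha s
        have ha' : f a s = 1 := ha s
        show f (-a) s = 1
        rw [fnl, ha', inv_one] }
  have hA : A = ⊤ := addSubgroup_eq_top hp A h1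
  intro t s
  have ht : t ∈ A := by rw [hA]; trivial
  exact ht s

section

variable {F : Type*} [Field F] {Y : Type*} [Group Y] (φ : Y →* SL(2, F))
  (hφ : Function.Surjective φ) (hc : φ.ker ≤ Subgroup.center Y)

lemma u_comm (t s : F) : u t * u s = u s * u t := by rw [u_mul, u_mul, add_comm]

lemma l_comm (t s : F) : l t * l s = l s * l t := by rw [l_mul, l_mul, add_comm]

/-- the symbol of the upper unipotent subgroup -/
noncomputable def fU (t s : F) : Subgroup.center Y :=
  ⟨kap φ hφ (u t) (u s), kap_mem_center φ hc hφ (u_comm t s)⟩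

/-- the symbol of the lower unipotent subgroup -/
noncomputable def fL (t s : F) : Subgroup.center Y :=
  ⟨kap φ hφ (l t) (l s), kap_mem_center φ hc hφ (l_comm t s)⟩

lemma fU_add_left (a b c : F) : fU φ hφ hc (a + b) c = fU φ hφ hc a c * fU φ hφ hc b c := by
  apply Subtype.ext
  show kap φ hφ (u (a + b)) (u c) = kap φ hφ (u a) (u c) * kap φ hφ (u b) (u c)
  rw [← u_mul, kap_mul_left φ hc hφ (u_comm b c)]

lemma fU_add_right (a b c : F) : fU φ hφ hc a (b + c) = fU φ hφ hc a b * fU φ hφ hc a c := by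
  apply Subtype.ext
  show kap φ hφ (u a) (u (b + c)) = kap φ hφ (u a) (u b) * kap φ hφ (u a) (u c)
  rw [← u_mul, kap_mul_right φ hc hφ (u_comm a c)]

lemma fU_self (a : F) : fU φ hφ hc a a = 1 := by
  apply Subtype.ext
  show kap φ hφ (u a) (u a) = 1
  exact kap_self φ hφ _

lemma fU_sq (e : F) (he : e ≠ 0) (t s : F) :
    fU φ hφ hc (e ^ 2 * t) (e ^ 2 * s) = fU φ hφ hc t s := by
  apply Subtype.ext
  show kap φ hφ (u (e ^ 2 * t)) (u (e ^ 2 * s)) = kap φ hφ (u t) (u s)
  obtain ⟨y, hy⟩ := hφ (d e he)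
  have h := conj_kap φ hc hφ y (u t) (u s)
  rw [hy, d_u_d, d_u_d] at h
  rw [← h]
  have hz := kap_comm_all φ hc hφ (u_comm t s) y
  rw [hz]; group

lemma fL_add_left (a b c : F) : fL φ hφ hc (a + b) c = fL φ hφ hc a c * fL φ hφ hc b c := by
  apply Subtype.ext
  show kap φ hφ (l (a + b)) (l c) = kap φ hφ (l a) (l c) * kap φ hφ (l b) (l c)
  rw [← l_mul, kap_mul_left φ hc hφ (l_comm b c)]

lemma fL_add_right (a b c : F) : fL φ hφ hc a (b + c) = fL φ hφ hc a b * fL φ hφ hc a c := by
  apply Subtype.ext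
  show kap φ hφ (l a) (l (b + c)) = kap φ hφ (l a) (l b) * kap φ hφ (l a) (l c)
  rw [← l_mul, kap_mul_right φ hc hφ (l_comm a c)]

lemma fL_self (a : F) : fL φ hφ hc a a = 1 := by
  apply Subtype.ext
  show kap φ hφ (l a) (l a) = 1
  exact kap_self φ hφ _

lemma fL_sq (e : F) (he : e ≠ 0) (t s : F) :
    fL φ hφ hc (e ^ 2 * t) (e ^ 2 * s) = fL φ hφ hc t s := by
  apply Subtype.ext
  show kap φ hφ (l (e ^ 2 * t)) (l (e ^ 2 * s)) = kap φ hφ (l t) (l s)
  obtain ⟨y, hy⟩ := hφ (d e⁻¹ (inv_ne_zero he))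
  have h := conj_kap φ hc hφ y (l t) (l s)
  rw [hy, d_l_d', d_l_d', inv_inv] at h
  rw [← h]
  have hz := kap_comm_all φ hc hφ (l_comm t s) y
  rw [hz]; group

include hφ hc in
/-- trivial symbols give commuting lifts of unipotent elements -/
theorem comm_of_symbol
    (hsym : ∀ f : F → F → Subgroup.center Y, (∀ a b c, f (a + b) c = f a c * f b c) →
      (∀ a b c, f a (b + c) = f a b * f a c) → (∀ a, f a a = 1) →
      (∀ e : F, e ≠ 0 → ∀ t s, f (e ^ 2 * t) (e ^ 2 * s) = f t s) → ∀ t s, f t s = 1) :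
    (∀ (t s : F) (y₁ y₂ : Y), φ y₁ = u t → φ y₂ = u s → y₁ * y₂ = y₂ * y₁) ∧
    (∀ (t s : F) (y₁ y₂ : Y), φ y₁ = l t → φ y₂ = l s → y₁ * y₂ = y₂ * y₁) := by
  constructor
  · intro t s y₁ y₂ h1 h2
    have h := hsym (fU φ hφ hc) (fU_add_left φ hφ hc) (fU_add_right φ hφ hc) (fU_self φ hφ hc)
      (fU_sq φ hφ hc) t s
    have h' : kap φ hφ (u t) (u s) = 1 := congrArg Subtype.val h
    exact commute_of_kap φ hc hφ h' h1 h2
  · intro t s y₁ y₂ h1 h2
    have h := hsym (fL φ hφ hc) (fL_add_left φ hφ hc) (fL_add_right φ hφ hc) (fL_self φ hφ hc)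
      (fL_sq φ hφ hc) t s
    have h' : kap φ hφ (l t) (l s) = 1 := congrArg Subtype.val h
    exact commute_of_kap φ hc hφ h' h1 h2

end

end Cfsg.Agent.Lib.Helper98.SplitTwoA
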