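import Mathlib
import Cfsg.Agent.Lib.Helper98.SplitTwoA
import Cfsg.Agent.Lib.Helper91.SymbolFF
import Cfsg.Agent.Lib.Helper91.SymbolFF2

set_option autoImplicit false

/-!
# Symbols on finite fields with `q ≥ 5`, `q ≠ 9` are trivial (helper98; cases by helper91)
-/

namespace Cfsg.Agent.Lib.Helper98.SymbolT

open Cfsg.Agent.Lib.Helper98.SplitTwoA

/-- a bi-additive alternating symbol on a finite field with `q ≥ 5`, `q ≠ 9` elements which is
invariant under simultaneous multiplication by squares is trivial -/
theorem symbol_trivial {F : Type*} [Field F] [Fintype F] (h5 : 5 ≤ Fintype.card F)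
    (h9 : Fintype.card F ≠ 9) {Z : Type*} [CommGroup Z] (f : F → F → Z)
    (hl : ∀ a b c, f (a + b) c = f a c * f b c) (hr : ∀ a b c, f a (b + c) = f a b * f a c)
    (halt : ∀ a, f a a = 1)
    (hsq : ∀ e : F, e ≠ 0 → ∀ t s, f (e ^ 2 * t) (e ^ 2 * s) = f t s) :
    ∀ t s, f t s = 1 := by
  obtain ⟨p, hp⟩ := CharP.exists F
  have hpp : p.Prime := CharP.char_is_prime F p
  obtain ⟨k, -, hk⟩ := FiniteField.card F p
  by_cases hk1 : (k : ℕ) = 1
  · exact symbol_prime (by rw [hk, hk1, pow_one]; exact hpp) f hl hr halt
  · have hk2 : 2 ≤ (k : ℕ) := by have := k.pos; omega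
    by_cases hp2 : p = 2
    · subst hp2
      have h8 : 8 ≤ Fintype.card F := by
        have hk3 : 3 ≤ (k : ℕ) := by
          by_contra h3
          have hk' : (k : ℕ) = 2 := by omega
          rw [hk, hk'] at h5
          norm_num at h5
        rw [hk]
        calc 8 = 2 ^ 3 := by norm_num
          _ ≤ 2 ^ (k : ℕ) := Nat.pow_le_pow_right (by norm_num) hk3
      exact Cfsg.Agent.Lib.Helper91.SymbolFF2.symbol_even h8 f hl hr halt hsq
    · have hch : ringChar F ≠ 2 := by
        rw [ringChar.eq F p]; exact hp2
      have h17 : 17 ≤ Fintype.card F := by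
        rw [hk]
        have hp3 : 3 ≤ p := by
          have := hpp.two_le
          omega
        by_cases hp3' : p = 3
        · subst hp3'
          have hk3 : 3 ≤ (k : ℕ) := by
            by_contra h3
            have hk' : (k : ℕ) = 2 := by omega
            apply h9
            rw [hk, hk']
            norm_num
          calc 17 ≤ 3 ^ 3 := by norm_num
            _ ≤ 3 ^ (k : ℕ) := Nat.pow_le_pow_right (by norm_num) hk3
        · have hp5 : 5 ≤ p := by
            by_contra h
            have h4 : p = 4 := by omega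
            subst h4
            norm_num at hpp
          calc 17 ≤ 5 ^ 2 := by norm_num
            _ ≤ p ^ 2 := Nat.pow_le_pow_left hp5 2
            _ ≤ p ^ (k : ℕ) := Nat.pow_le_pow_right (by omega) hk2
      exact Cfsg.Agent.Lib.Helper91.SymbolFF.symbol_odd hch h17 f hl hr hsq

end Cfsg.Agent.Lib.Helper98.SymbolT
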