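import Mathlib
import Cfsg.Agent.Lib.Helper44.TSStmt

set_option autoImplicit false

/-! S5972 piece B1O (assembly): `i` odd; every element of order `r` of `Omega` fixes a totally
singular `m`-space when `i ≤ m` and `2 (m % i) < (2 d + 1) % (2 i)`. -/

namespace Cfsg.Agent.Lib.Helper98.TSB1O

universe u

open Cfsg.Agent.Lib.Helper37.HypStmt Cfsg.Agent.Lib.Helper37.HypStmt2
  Cfsg.Agent.Lib.Helper44.TSStmt

lemma stab_of_le_Fx {F : Type u} [Field F] {d : ℕ} (x : Matrix (I d) (I d) F)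
    {W : Submodule F (I d → F)} (h : W ≤ Fx x) : Stab x W := by
  intro v hv
  obtain ⟨w, hw, rfl⟩ := Submodule.mem_map.mp hv
  have h1 := (mem_Fx x w).mp (h hw)
  rw [Matrix.toLin'_apply, h1]
  exact hw

lemma stab_sup {F : Type u} [Field F] {d : ℕ} {x : Matrix (I d) (I d) F}
    {W₁ W₂ : Submodule F (I d → F)} (h1 : Stab x W₁) (h2 : Stab x W₂) : Stab x (W₁ ⊔ W₂) := by
  unfold Stab at *
  rw [Submodule.map_sup]
  exact sup_le_sup h1 h2

/-- arithmetic core -/
lemma arith (d m i f j : ℕ) (hn : f + j * (2 * i) = 2 * d + 1) (hm : m ≤ d)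
    (hl : 2 * (m % i) < (2 * d + 1) % (2 * i)) :
    min (m / i) j * i ≤ m ∧ 2 * (m - min (m / i) j * i) < f ∧
      min (m / i) j * (2 * i) + f ≤ 2 * d + 1 := by
  have hA : m / i * i + m % i = m := Nat.div_add_mod' m i
  have hk : (2 * d + 1) % (2 * i) ≤ f := by
    rw [← hn, Nat.add_mul_mod_self_right]
    exact Nat.mod_le f (2 * i)
  have hj2 : j * (2 * i) = 2 * (j * i) := by ring
  rcases Nat.le_total (m / i) j with h | h
  · rw [Nat.min_eq_left h]
    have hle : m / i * i ≤ j * i := Nat.mul_le_mul_right i h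
    have hle2 : m / i * (2 * i) = 2 * (m / i * i) := by ring
    refine ⟨by omega, by omega, by omega⟩
  · rw [Nat.min_eq_right h]
    have hle : j * i ≤ m / i * i := Nat.mul_le_mul_right i h
    refine ⟨by omega, by omega, by omega⟩

theorem main (hIPos : IPos.{u}) (hTop : TopND.{u}) (hFixND : FixND.{u})
    (hDim : DimObs.{u}) (hBlocks : Blocks.{u}) (hHalf : HalfOdd.{u}) (hTsIn : TsIn.{u}) :
    B1O.{u} := by
  intro F _ _ p _ _ hodd d m hd hm hmd r _ hr2 hrp hio hile hlt x hxO hxord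
  have hi : 0 < orderOf ((Fintype.card F : ℕ) : ZMod r) := hIPos F p r hrp
  have hxiso : x ∈ Cfsg.isometryGroup F (Cfsg.quadFormOdd d F) := by
    obtain ⟨y, -, rfl⟩ := hxO
    exact y.2
  have hxr : x ^ r = 1 := by rw [← hxord]; exact pow_orderOf_eq_one x
  have hcc : cc (orderOf ((Fintype.card F : ℕ) : ZMod r)) =
      2 * orderOf ((Fintype.card F : ℕ) : ZMod r) := by
    unfold cc
    rw [if_neg (Nat.not_even_iff_odd.mpr hio)]
  have hfnd := hFixND F p hodd d r hrp x hxiso hxr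
  have hstabtop : Stab (x : Matrix (I d) (I d) F) ⊤ := le_top
  have hdvd := hDim F p hodd d r hr2 hrp x hxiso hxr ⊤ hstabtop (hTop F hodd d)
  have hcard : Module.finrank F (I d → F) = 2 * d + 1 := by
    rw [Module.finrank_fintype_fun_eq_card, Fintype.card_sum, Fintype.card_sum,
      Fintype.card_unit, Fintype.card_fin]
    omega
  have htopdim : Module.finrank F ↥(⊤ : Submodule F (I d → F)) = 2 * d + 1 := by
    rw [finrank_top, hcard]
  have hfle : Module.finrank F ↥(Fx (x : Matrix (I d) (I d) F)) ≤ 2 * d + 1 := by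
    rw [← hcard]
    exact Submodule.finrank_le _
  rw [htopdim, top_inf_eq, hcc] at hdvd
  obtain ⟨j, hj⟩ := hdvd
  have hn : Module.finrank F ↥(Fx (x : Matrix (I d) (I d) F)) +
      j * (2 * orderOf ((Fintype.card F : ℕ) : ZMod r)) = 2 * d + 1 := by
    rw [mul_comm j]
    omega
  obtain ⟨ha1, ha2, ha3⟩ := arith d m _ _ j hn hmd hlt
  have ha3' : min (m / orderOf ((Fintype.card F : ℕ) : ZMod r)) j *
      cc (orderOf ((Fintype.card F : ℕ) : ZMod r)) +
      Module.finrank F ↥(Fx (x : Matrix (I d) (I d) F)) ≤ 2 * d + 1 := by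
    rw [hcc]; exact ha3
  obtain ⟨E, hEstab, hEnd, hEdim, hEbot, hEperp⟩ :=
    hBlocks F p hodd d r hr2 hrp x hxiso hxr _ ha3'
  obtain ⟨U, hUE, hUstab, hUts, hUdim⟩ :=
    hHalf F p hodd d r hr2 hrp hio x hxiso hxr E hEstab hEnd hEbot
  obtain ⟨W0, hW0, hW0ts, hW0dim⟩ := hTsIn F hodd d (Fx (x : Matrix (I d) (I d) F))
    (m - min (m / orderOf ((Fintype.card F : ℕ) : ZMod r)) j *
      orderOf ((Fintype.card F : ℕ) : ZMod r)) hfnd ha2
  have hUdim' : Module.finrank F ↥U =
      min (m / orderOf ((Fintype.card F : ℕ) : ZMod r)) j *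
        orderOf ((Fintype.card F : ℕ) : ZMod r) := by
    rw [hEdim, hcc] at hUdim
    have h2 : min (m / orderOf ((Fintype.card F : ℕ) : ZMod r)) j *
        (2 * orderOf ((Fintype.card F : ℕ) : ZMod r)) =
        2 * (min (m / orderOf ((Fintype.card F : ℕ) : ZMod r)) j *
          orderOf ((Fintype.card F : ℕ) : ZMod r)) := by ring
    omega
  have hinf : U ⊓ W0 = ⊥ := by
    rw [eq_bot_iff, ← hEbot]
    exact inf_le_inf hUE hW0
  refine ⟨U ⊔ W0, ?_, ?_, stab_sup hUstab (stab_of_le_Fx _ hW0)⟩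
  · have h := Submodule.finrank_sup_add_finrank_inf_eq U W0
    rw [hinf, finrank_bot, hUdim', hW0dim] at h
    omega
  · intro w hw
    obtain ⟨u, hu, w0, hw0, rfl⟩ := Submodule.mem_sup.mp hw
    have hpol := hEperp u (hUE hu) w0 (hW0 hw0)
    have h1 : Cfsg.quadFormOdd d F u = 0 := hUts u hu
    have h2 : Cfsg.quadFormOdd d F w0 = 0 := hW0ts w0 hw0
    unfold QuadraticMap.polar at hpol
    rw [h1, h2, sub_zero, sub_zero] at hpol
    exact hpol

end Cfsg.Agent.Lib.Helper98.TSB1O
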